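import Mathlib
import Cfsg.Prelude.Def_LocalEven

set_option autoImplicit false

/-!
The property of the simple groups `Sz(q)`, `PSL₂(3^(2n+1))` used for groups without sections `Sym(3)`.
-/

namespace Cfsg.Agent.H33.GF

open Subgroup Cfsg

universe u v

/-- every elementary abelian `A ≠ 1` in a Sylow 2-subgroup `T` has a subgroup `B` and an element `x` of odd order
centralized by `B`, inverted by an element of `A`, with few small orders of 2 modulo its prime divisors, and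
`L = ⟨N(T), T^x⟩` -/
def Good (L : Type v) [Group L] : Prop :=
  ∀ (T : Sylow 2 L) (A : Subgroup L), A ≤ (T : Subgroup L) → (∀ a ∈ A, ∀ b ∈ A, a * b = b * a) →
    (∀ a ∈ A, a * a = 1) → A ≠ ⊥ →
    ∃ B ≤ A, ∃ a ∈ A, ∃ x : L, x ≠ 1 ∧ Odd (orderOf x) ∧ a * x * a⁻¹ = x⁻¹ ∧ (∀ b ∈ B, b * x = x * b) ∧
      (∀ r k : ℕ, r.Prime → r ∣ orderOf x → 0 < k → r ∣ 2 ^ k - 1 → (B.relIndex A) ^ 4 < 4 * 2 ^ k) ∧
      (∀ M : Subgroup L, normalizer ((T : Subgroup L) : Set L) ≤ M → (∀ s ∈ (T : Subgroup L), x * s * x⁻¹ ∈ M) → M = ⊤)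

/-- 2-elements of a group without sections `Sym(3)` act on a normal subgroup isomorphic to `L` like inner automorphisms -/
def InnerTwo (L : Type v) [Group L] : Prop :=
  ∀ (Y : Type u) [Group Y] [Finite Y] (K : Subgroup Y), K.Normal → Nonempty (K ≃* L) →
    ¬ Involves (Equiv.Perm (Fin 3)) Y → ∀ a : Y, (∃ k : ℕ, a ^ 2 ^ k = 1) → ∃ l ∈ K, ∀ x ∈ K, a * x * a⁻¹ = l * x * l⁻¹

end Cfsg.Agent.H33.GF
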