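import Cfsg.Agent.H33.Frattini
import Cfsg.Agent.SigF.Gen
import Cfsg.Agent.Supersolvable.Hereditary
import Cfsg.Agent.Solv.Core
import Cfsg.Prelude.Def_CaseTheorems

set_option autoImplicit false
set_option linter.all false

/-! A normal four-subgroup of a Sylow 2-subgroup, characteristic 2 type (helper33). -/

open scoped commutatorElement

namespace Cfsg.Agent.H33

/-- a quadratic argument: elements with `[v, O_2(H)] ≤ <u>`, `u` central involution, lie in `O_2(H)`. -/
theorem mem_pCore_of_quad {H : Type*} [Group H] [Finite H] (hc : Cfsg.IsOfCharacteristicTwo H) (u : H)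
    (hu : ∀ g : H, g * u = u * g) (hu2 : u * u = 1) (v : H)
    (hv : ∀ r ∈ Cfsg.pCore 2 H, v * r * v⁻¹ * r⁻¹ ∈ Subgroup.zpowers u) : v ∈ Cfsg.pCore 2 H := by
  haveI : Fact (Nat.Prime 2) := ⟨Nat.prime_two⟩
  have hRn : (Cfsg.pCore 2 H).Normal := inferInstance
  have hcen : ∀ c ∈ Subgroup.zpowers u, ∀ g : H, g * c = c * g := by
    intro c hc g
    obtain ⟨k, rfl⟩ := Subgroup.mem_zpowers_iff.1 hc
    exact ((show Commute g u from hu g).zpow_right k).eq
  have hsq : ∀ c ∈ Subgroup.zpowers u, c * c = 1 := by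
    intro c hc
    obtain ⟨k, rfl⟩ := Subgroup.mem_zpowers_iff.1 hc
    rw [← (Commute.refl u).mul_zpow, hu2, one_zpow]
  let X : Subgroup H :=
    { carrier := {m | ∀ r ∈ Cfsg.pCore 2 H, m * r * m⁻¹ * r⁻¹ ∈ Subgroup.zpowers u}
      one_mem' := fun r _ => by simp
      mul_mem' := fun {m n} hm hn r hr => by
        have h1 := hn r hr
        have h2 := hm r hr
        have h3 : m * n * r * (m * n)⁻¹ * r⁻¹ = (m * (n * r * n⁻¹ * r⁻¹) * m⁻¹) * (m * r * m⁻¹ * r⁻¹) := by
          group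
        have h4 : m * (n * r * n⁻¹ * r⁻¹) * m⁻¹ = n * r * n⁻¹ * r⁻¹ := by
          rw [hcen _ h1 m]; group
        rw [h3, h4]; exact mul_mem h1 h2
      inv_mem' := fun {m} hm r hr => by
        have h1 := hm _ (hRn.conj_mem r hr m⁻¹)
        have h2 := inv_mem h1
        have h3 : (m * (m⁻¹ * r * m⁻¹⁻¹) * m⁻¹ * (m⁻¹ * r * m⁻¹⁻¹)⁻¹)⁻¹ = m⁻¹ * r * m⁻¹⁻¹ * r⁻¹ := by group
        rw [h3] at h2; exact h2 }
  have hX : ∀ m, m ∈ X ↔ ∀ r ∈ Cfsg.pCore 2 H, m * r * m⁻¹ * r⁻¹ ∈ Subgroup.zpowers u := fun m => Iff.rfl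
  have hXn : X.Normal := by
    refine ⟨fun m hm g => ?_⟩
    rw [hX] at hm ⊢
    intro r hr
    have h1 := hm _ (hRn.conj_mem r hr g⁻¹)
    have h2 : g * m * g⁻¹ * r * (g * m * g⁻¹)⁻¹ * r⁻¹ =
        g * (m * (g⁻¹ * r * g⁻¹⁻¹) * m⁻¹ * (g⁻¹ * r * g⁻¹⁻¹)⁻¹) * g⁻¹ := by group
    rw [h2, hcen _ h1 g, mul_inv_cancel_right]
    exact h1
  have hXp : IsPGroup 2 X := by
    rintro ⟨m, hm⟩
    have h1 : m * m ∈ Cfsg.pCore 2 H := by
      apply hc
      rw [Subgroup.mem_centralizer_iff]
      intro r hr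
      set c := m * r * m⁻¹ * r⁻¹ with hcd
      have hcz : c ∈ Subgroup.zpowers u := hm r hr
      have h2 : m * r = c * r * m := by rw [hcd]; group
      have h3 : m * c = c * m := hcen c hcz m
      calc r * (m * m) = (c * c) * r * m * m := by rw [hsq c hcz]; group
        _ = c * (c * r * m) * m := by group
        _ = c * (m * r) * m := by rw [h2]
        _ = (c * m) * r * m := by group
        _ = m * (c * r * m) := by rw [← h3]; group
        _ = m * (m * r) := by rw [h2]
        _ = m * m * r := by group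
    obtain ⟨k, hk⟩ := (Solv.pCore_isPGroup 2 : IsPGroup 2 (Cfsg.pCore 2 H)) ⟨m * m, h1⟩
    refine ⟨k + 1, Subtype.ext ?_⟩
    have h2 : (m * m) ^ 2 ^ k = 1 := congrArg Subtype.val hk
    change m ^ 2 ^ (k + 1) = 1
    rw [pow_succ', pow_mul, pow_two]; exact h2
  exact Solv.le_pCore hXn hXp ((hX v).2 hv)

variable {G : Type*} [Group G]

theorem klein_sq {U : Subgroup G} (hU4 : IsKleinFour ↥U) {v : G} (hv : v ∈ U) : v * v = 1 := by
  haveI := hU4
  exact congrArg Subtype.val (IsKleinFour.mul_self (⟨v, hv⟩ : U))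

theorem klein_comm {U : Subgroup G} (hU4 : IsKleinFour ↥U) {v w : G} (hv : v ∈ U) (hw : w ∈ U) :
    v * w = w * v := by
  haveI := hU4
  exact congrArg Subtype.val ((IsKleinFour.isMulCommutative (G := U)).is_comm.comm ⟨v, hv⟩ ⟨w, hw⟩)

theorem klein_mul {U : Subgroup G} (hU4 : IsKleinFour ↥U) {x y z : G} (hx : x ∈ U) (hy : y ∈ U) (hz : z ∈ U)
    (hx1 : x ≠ 1) (hy1 : y ≠ 1) (hz1 : z ≠ 1) (hxy : x ≠ y) (hxz : x ≠ z) (hyz : y ≠ z) : z = x * y := by
  haveI := hU4
  have := IsKleinFour.eq_mul_of_ne_all (x := (⟨x, hx⟩ : U)) (y := ⟨y, hy⟩) (z := ⟨z, hz⟩)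
    (fun h => hx1 (congrArg Subtype.val h)) (fun h => hy1 (congrArg Subtype.val h))
    (fun h => hxy (congrArg Subtype.val h)) (fun h => hz1 (congrArg Subtype.val h))
    (fun h => hxz (congrArg Subtype.val h).symm) (fun h => hyz (congrArg Subtype.val h).symm)
  exact congrArg Subtype.val this

/-- an element normalizing a four-group and centralizing an involution `u` of it acts trivially modulo `<u>`. -/
theorem klein_act {U : Subgroup G} (hU4 : IsKleinFour ↥U) {u v x : G} (hu : u ∈ U) (hu1 : u ≠ 1) (hv : v ∈ U)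
    (hx : x ∈ Subgroup.normalizer (U : Set G)) (hxu : x * u * x⁻¹ = u) :
    x * v * x⁻¹ * v⁻¹ ∈ Subgroup.zpowers u := by
  have hw : x * v * x⁻¹ ∈ U := (Subgroup.mem_normalizer_iff.1 hx v).1 hv
  by_cases h1 : v = 1
  · rw [h1]; simp
  by_cases h2 : v = u
  · rw [h2, hxu, mul_inv_cancel]; exact one_mem _
  by_cases h3 : x * v * x⁻¹ = v
  · rw [h3, mul_inv_cancel]; exact one_mem _
  have h4 : x * v * x⁻¹ = u * v := by
    apply klein_mul hU4 hu hv hw hu1 h1
    · intro h
      apply h1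
      have : v = x⁻¹ * (x * v * x⁻¹) * x := by group
      rw [this, h]; group
    · exact fun h => h2 h.symm
    · intro h
      apply h2
      have h5 : x * v * x⁻¹ = x * u * x⁻¹ := by rw [hxu, h]
      have h6 := congrArg (fun z => x⁻¹ * z * x) h5
      simpa [mul_assoc] using h6
    · exact fun h => h3 h.symm
  rw [h4, mul_inv_cancel_right]
  exact Subgroup.mem_zpowers u

theorem cyclic_unique_involution {Z : Type*} [Group Z] [Finite Z] (h : IsCyclic Z) {w z : Z}
    (hw : w * w = 1) (hz : z * z = 1) (hw1 : w ≠ 1) (hz1 : z ≠ 1) : w = z := by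
  classical
  haveI : Fintype Z := Fintype.ofFinite Z
  haveI := h
  by_contra hne
  have h1 := IsCyclic.card_pow_eq_one_le (α := Z) (n := 2) (by norm_num)
  have h2 : ({1, w, z} : Finset Z) ⊆ Finset.univ.filter (fun a : Z => a ^ 2 = 1) := by
    intro x hx
    rw [Finset.mem_filter]
    refine ⟨Finset.mem_univ _, ?_⟩
    simp only [Finset.mem_insert, Finset.mem_singleton] at hx
    rcases hx with rfl | rfl | rfl
    · simp
    · rw [pow_two, hw]
    · rw [pow_two, hz]
  have h3 := Finset.card_le_card h2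
  rw [Finset.card_insert_of_notMem (by simp [Ne.symm hw1, Ne.symm hz1]),
    Finset.card_insert_of_notMem (by simpa using hne), Finset.card_singleton] at h3
  omega

/-- For every involution `u` of a normal four-subgroup `U` of a Sylow 2-subgroup (central if `Z(P)` is not
cyclic) some Sylow 2-subgroup of `C_G(u)` normalizes `U`. -/
theorem exists_sylow_normalizing [Finite G] (P : Sylow 2 G) (U : Subgroup G) (hUP : U ≤ (P : Subgroup G))
    (hUn : (P : Subgroup G) ≤ Subgroup.normalizer (U : Set G)) (hU4 : IsKleinFour ↥U)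
    (hUZ : ¬ IsCyclic ↥((P : Subgroup G) ⊓ Subgroup.centralizer ((P : Subgroup G) : Set G)) →
      U ≤ Subgroup.centralizer ((P : Subgroup G) : Set G)) {u : G} (hu : u ∈ U) (hu1 : u ≠ 1) :
    ∃ T : Subgroup G, IsSyl 2 T (Subgroup.centralizer ({u} : Set G)) ∧
      T ≤ Subgroup.normalizer (U : Set G) := by
  classical
  haveI : Fact (Nat.Prime 2) := ⟨Nat.prime_two⟩
  set M := Subgroup.centralizer ({u} : Set G) with hM
  have hMm : ∀ x, x ∈ M ↔ x * u = u * x := fun x => by
    rw [hM, Subgroup.mem_centralizer_singleton_iff]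
  by_cases hcent : ∀ x ∈ (P : Subgroup G), x * u = u * x
  · refine ⟨P, ⟨fun x hx => (hMm x).2 (hcent x hx), P.2, ?_⟩, hUn⟩
    intro h
    exact P.not_dvd_index (h.trans (Subgroup.relIndex_dvd_index_of_le (fun x hx => (hMm x).2 (hcent x hx))))
  push Not at hcent
  obtain ⟨x₀, hx₀P, hx₀⟩ := hcent
  have hcyc : IsCyclic ↥((P : Subgroup G) ⊓ Subgroup.centralizer ((P : Subgroup G) : Set G)) := by
    by_contra hnc
    apply hx₀
    exact (Subgroup.mem_centralizer_iff.1 (hUZ hnc hu) x₀ hx₀P)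
  have hUne : U ≠ ⊥ := by
    intro h; rw [h, Subgroup.mem_bot] at hu; exact hu1 hu
  -- the central involution
  obtain ⟨z, hzU, hzc, hz1⟩ : ∃ z ∈ U, (∀ x ∈ (P : Subgroup G), x * z = z * x) ∧ z ≠ 1 := by
    have h1 := Supersolvable.inf_centralizer_ne_bot (p := 2) (P : Subgroup G) U P.2 (isPGroup_sub P.2 hUP) hUn hUne
    obtain ⟨⟨z, hz⟩, hz1⟩ := Subgroup.ne_bot_iff_exists_ne_one.1 h1
    exact ⟨z, hz.1, fun x hx => Subgroup.mem_centralizer_iff.1 hz.2 x hx, fun h => hz1 (Subtype.ext h)⟩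
  have hzu : z ≠ u := by
    intro h; apply hx₀; rw [← h]; exact hzc x₀ hx₀P
  have hzz : z * z = 1 := klein_sq hU4 hzU
  have huu : u * u = 1 := klein_sq hU4 hu
  have huniq : ∀ y ∈ (P : Subgroup G), (∀ x ∈ (P : Subgroup G), x * y = y * x) → y * y = 1 → y = 1 ∨ y = z := by
    intro y hyP hyc hyy
    by_cases hy1 : y = 1
    · exact Or.inl hy1
    right
    have hyZ : y ∈ (P : Subgroup G) ⊓ Subgroup.centralizer ((P : Subgroup G) : Set G) :=
      ⟨hyP, Subgroup.mem_centralizer_iff.2 hyc⟩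
    have hzZ : z ∈ (P : Subgroup G) ⊓ Subgroup.centralizer ((P : Subgroup G) : Set G) :=
      ⟨hUP hzU, Subgroup.mem_centralizer_iff.2 hzc⟩
    have := cyclic_unique_involution hcyc (w := ⟨y, hyZ⟩) (z := ⟨z, hzZ⟩) (Subtype.ext hyy) (Subtype.ext hzz)
      (fun h => hy1 (congrArg Subtype.val h)) (fun h => hz1 (congrArg Subtype.val h))
    exact congrArg Subtype.val this
  -- conjugates of `u` under `P`
  have hconj : ∀ x ∈ (P : Subgroup G), x * u ≠ u * x → x * u * x⁻¹ = z * u := by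
    intro x hx hxu
    have hw : x * u * x⁻¹ ∈ U := (Subgroup.mem_normalizer_iff.1 (hUn hx) u).1 hu
    apply klein_mul hU4 hzU hu hw hz1 hu1
    · intro h
      apply hu1
      have : u = x⁻¹ * (x * u * x⁻¹) * x := by group
      rw [this, h]; group
    · exact hzu
    · intro h
      apply hzu
      have h6 := congrArg (fun y => x⁻¹ * y * x) h
      have h7 : x⁻¹ * z * x = z := by
        have h8 := hzc x hx
        rw [mul_assoc, ← h8]; group
      have h9 : x⁻¹ * (x * u * x⁻¹) * x = u := by group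
      simp only [h7, h9] at h6
      exact h6
    · intro h
      apply hxu
      exact (mul_inv_eq_iff_eq_mul.1 h.symm)
  set T := (P : Subgroup G) ⊓ M with hT
  have hTP : T ≤ (P : Subgroup G) := inf_le_left
  have hTi : T.relIndex (P : Subgroup G) = 2 := by
    rw [Subgroup.relIndex_eq_two_iff]
    refine ⟨x₀, hx₀P, ?_⟩
    intro b hb
    have hbx : (b * x₀ ∈ T ↔ b * x₀ ∈ M) := ⟨fun h => h.2, fun h => ⟨mul_mem hb hx₀P, h⟩⟩
    have hbT : (b ∈ T ↔ b ∈ M) := ⟨fun h => h.2, fun h => ⟨hb, h⟩⟩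
    rw [hbx, hbT]
    by_cases hbM : b ∈ M
    · right
      refine ⟨hbM, fun h => hx₀ ((hMm x₀).1 ?_)⟩
      have := mul_mem (inv_mem hbM) h
      rwa [inv_mul_cancel_left] at this
    · left
      refine ⟨?_, hbM⟩
      have h1 := hconj b hb (fun h => hbM ((hMm b).2 h))
      have h2 := hconj x₀ hx₀P hx₀
      rw [hMm]
      have h3 : b * x₀ * u = (b * (x₀ * u * x₀⁻¹) * b⁻¹) * (b * x₀) := by group
      rw [h3, h2]
      have h4 : b * (z * u) * b⁻¹ = u := by
        have h5 : b * (z * u) * b⁻¹ = (b * z * b⁻¹) * (b * u * b⁻¹) := by group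
        rw [h5, h1, hzc b hb]
        have h6 : z * b * b⁻¹ * (z * u) = (z * z) * u := by group
        rw [h6, hzz, one_mul]
      rw [h4]
  obtain ⟨T₁, hTT₁, hT₁⟩ := IsSyl.exists_of_le (p := 2) (H := M) (R := T) inf_le_right (isPGroup_sub P.2 hTP)
  refine ⟨T₁, hT₁, ?_⟩
  by_cases hTe : T₁ = T
  · rw [hTe]; exact hTP.trans hUn
  -- `T` has index two in `T₁`
  have hUT : ∀ v ∈ U, v ∈ T := fun v hv => ⟨hUP hv, (hMm v).2 (klein_comm hU4 hv hu)⟩
  have hcardP : Nat.card T * 2 = Nat.card (P : Subgroup G) := by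
    have := Subgroup.relIndex_mul_relIndex ⊥ T (P : Subgroup G) bot_le hTP
    rw [Subgroup.relIndex_bot_left, Subgroup.relIndex_bot_left, hTi] at this
    exact this
  have hT₁i : T.relIndex T₁ = 2 := by
    have h1 := Subgroup.relIndex_mul_relIndex ⊥ T T₁ bot_le hTT₁
    rw [Subgroup.relIndex_bot_left, Subgroup.relIndex_bot_left] at h1
    have h2 := (isSyl_top P).card_le (R := T₁) le_top hT₁.2.1
    rw [← h1, ← hcardP] at h2
    have hpos : 0 < Nat.card T := Nat.card_pos
    have h3 : T.relIndex T₁ ≤ 2 := Nat.le_of_mul_le_mul_left h2 hpos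
    have h4 : T.relIndex T₁ ≠ 1 := by
      intro h
      exact hTe (le_antisymm (Subgroup.relIndex_eq_one.1 h) hTT₁)
    have h5 : T.relIndex T₁ ≠ 0 := Subgroup.FiniteIndex.index_ne_zero (H := T.subgroupOf T₁)
    omega
  have hnorm : ∀ Q : Subgroup G, T ≤ Q → T.relIndex Q = 2 → Q ≤ Subgroup.normalizer (T : Set G) := by
    intro Q hTQ hi
    have : (T.subgroupOf Q).Normal := Subgroup.normal_of_index_eq_two hi
    exact (Subgroup.normal_subgroupOf_iff_le_normalizer hTQ).1 this
  have hPT := hnorm _ hTP hTi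
  have hT₁T := hnorm _ hTT₁ hT₁i
  have hx₀sq : x₀ * x₀ ∈ T := by
    have h1 := Subgroup.mul_self_mem_of_index_two (H := T.subgroupOf (P : Subgroup G)) hTi ⟨x₀, hx₀P⟩
    exact h1
  have hgen : ∀ y : G, (∀ t ∈ T, t * y = y * t) → x₀ * y = y * x₀ → ∀ x ∈ (P : Subgroup G), x * y = y * x := by
    intro y hyT hyx x hx
    by_cases hxT : x ∈ T
    · exact hyT x hxT
    · have h1 : x * x₀ ∈ T := by
        have h2 := Subgroup.mul_mem_iff_of_index_two (H := T.subgroupOf (P : Subgroup G)) hTi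
          (a := ⟨x, hx⟩) (b := ⟨x₀, hx₀P⟩)
        have h3 : x₀ ∉ T := fun h => hx₀ ((hMm x₀).1 h.2)
        exact h2.2 ⟨fun h => absurd h hxT, fun h => absurd h h3⟩
      have h2 := hyT _ h1
      have h3 : x * x₀ * y = x * y * x₀ := by rw [mul_assoc, hyx, mul_assoc]
      rw [h3, ← mul_assoc] at h2
      exact mul_right_cancel h2
  have hU : ∀ y ∈ T, (∀ t ∈ T, t * y = y * t) → y * y = 1 → y ∈ U := by
    intro y hyT hyc hyy
    set y' := x₀ * y * x₀⁻¹ with hy'
    have hy'T : y' ∈ T := (Subgroup.mem_normalizer_iff.1 (hPT hx₀P) y).1 hyT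
    have hy'c : ∀ t ∈ T, t * y' = y' * t := by
      intro t ht
      have h1 : x₀⁻¹ * t * x₀ ∈ T := by
        have := (Subgroup.mem_normalizer_iff''.1 (hPT hx₀P) t).1 ht
        exact this
      have h2 := hyc _ h1
      calc t * y' = x₀ * ((x₀⁻¹ * t * x₀) * y) * x₀⁻¹ := by rw [hy']; group
        _ = x₀ * (y * (x₀⁻¹ * t * x₀)) * x₀⁻¹ := by rw [h2]
        _ = y' * t := by rw [hy']; group
    have hy'' : x₀ * y' * x₀⁻¹ = y := by
      have h1 := hyc _ hx₀sq
      calc x₀ * y' * x₀⁻¹ = (x₀ * x₀ * y) * (x₀ * x₀)⁻¹ := by rw [hy']; group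
        _ = y * (x₀ * x₀) * (x₀ * x₀)⁻¹ := by rw [h1]
        _ = y := by group
    have hyy' : y * y' = y' * y := hy'c y hyT
    have hy'y' : y' * y' = 1 := by
      calc y' * y' = x₀ * (y * y) * x₀⁻¹ := by rw [hy']; group
        _ = 1 := by rw [hyy]; group
    have hTP' : ∀ t ∈ T, t ∈ (P : Subgroup G) := fun t ht => hTP ht
    -- `w * w'` is central
    have hww : y * y' = 1 ∨ y * y' = z := by
      apply huniq _ (mul_mem (hTP hyT) (hTP hy'T))
      · apply hgen
        · intro t ht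
          exact ((show Commute t y from hyc t ht).mul_right (show Commute t y' from hy'c t ht)).eq
        · have : x₀ * (y * y') = (x₀ * y * x₀⁻¹) * (x₀ * y' * x₀⁻¹) * x₀ := by group
          rw [this, hy'', ← hy', hyy']
      · calc y * y' * (y * y') = y * (y' * y) * y' := by group
          _ = y * (y * y') * y' := by rw [hyy']
          _ = (y * y) * (y' * y') := by group
          _ = 1 := by rw [hyy, hy'y', one_mul]
    have hfix : ∀ w : G, w ∈ T → (∀ t ∈ T, t * w = w * t) → w * w = 1 → x₀ * w * x₀⁻¹ = w → w = 1 ∨ w = z := by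
      intro w hwT hwc hw2 hwx
      apply huniq w (hTP hwT) _ hw2
      apply hgen w hwc
      exact mul_inv_eq_iff_eq_mul.1 hwx
    rcases hww with h | h
    · have h1 : y' = y := by
        have h2 : y * y' = y * y := by rw [h, hyy]
        exact mul_left_cancel h2
      rcases hfix y hyT hyc hyy (by rw [← hy', h1]) with h2 | h2
      · rw [h2]; exact one_mem U
      · rw [h2]; exact hzU
    · -- consider `y * u`
      have hux : x₀ * u * x₀⁻¹ = z * u := hconj x₀ hx₀P hx₀
      have huT := hUT u hu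
      have huc : ∀ t ∈ T, t * u = u * t := fun t ht => (hMm t).1 ht.2
      have huy : u * y = y * u := hyc u huT
      have h1 : x₀ * (y * u) * x₀⁻¹ = y * u := by
        have h2 : x₀ * (y * u) * x₀⁻¹ = y' * (x₀ * u * x₀⁻¹) := by rw [hy']; group
        have h3 : y' = y * z := by
          have h4 : y * (y * y') = y * z := by rw [h]
          rw [← mul_assoc, hyy, one_mul] at h4
          exact h4
        rw [h2, hux, h3]
        calc y * z * (z * u) = y * (z * z) * u := by group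
          _ = y * u := by rw [hzz, mul_one]
      rcases hfix (y * u) (mul_mem hyT huT) (by
          intro t ht
          exact ((show Commute t y from hyc t ht).mul_right (show Commute t u from huc t ht)).eq) (by
          calc y * u * (y * u) = y * (u * y) * u := by group
            _ = y * (y * u) * u := by rw [huy]
            _ = (y * y) * (u * u) := by group
            _ = 1 := by rw [hyy, huu, one_mul]) h1 with h2 | h2
      · have : y = u⁻¹ := eq_inv_of_mul_eq_one_left h2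
        rw [this]; exact inv_mem hu
      · have : y = z * u⁻¹ := eq_mul_inv_of_mul_eq h2
        rw [this]; exact mul_mem hzU (inv_mem hu)
  intro x hx
  apply mem_norm_of_le
  rw [cj_le_iff]
  intro v hv
  have hvT := hUT v hv
  have hvc : ∀ t ∈ T, t * v = v * t := by
    -- `T` centralizes `u` and `z`
    intro t ht
    by_cases hv1 : v = 1
    · rw [hv1]; simp
    by_cases hvu : v = u
    · rw [hvu]; exact (hMm t).1 ht.2
    by_cases hvz : v = z
    · rw [hvz]; exact hzc t (hTP ht)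
    have h1 : v = z * u := klein_mul hU4 hzU hu hv hz1 hu1 hv1 hzu (Ne.symm hvz) (Ne.symm hvu)
    rw [h1, ← mul_assoc, hzc t (hTP ht), mul_assoc, (hMm t).1 ht.2, mul_assoc]
  have hxT := hT₁T hx
  apply hU _ ((Subgroup.mem_normalizer_iff.1 hxT v).1 hvT)
  · intro t ht
    have h1 : x⁻¹ * t * x ∈ T := (Subgroup.mem_normalizer_iff''.1 hxT t).1 ht
    have h2 := hvc _ h1
    calc t * (x * v * x⁻¹) = x * ((x⁻¹ * t * x) * v) * x⁻¹ := by group
      _ = x * (v * (x⁻¹ * t * x)) * x⁻¹ := by rw [h2]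
      _ = x * v * x⁻¹ * t := by group
  · calc x * v * x⁻¹ * (x * v * x⁻¹) = x * (v * v) * x⁻¹ := by group
      _ = 1 := by rw [klein_sq hU4 hv]; group

end Cfsg.Agent.H33
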