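import Mathlib
import Cfsg.Agent.S0215
import Cfsg.Agent.S0216

/-! # Z*-theorem: an involution all of whose commutators have odd order is central if `O(X) = 1` -/

set_option autoImplicit false
set_option linter.all false

namespace Cfsg.Agent.H33.FxZ

open Subgroup

theorem zcent {X : Type*} [Group X] [Finite X] (hO : ∀ N : Subgroup X, N.Normal → Odd (Nat.card N) → N = ⊥)
    (y : X) (hy : orderOf y = 2) (h : ∀ x : X, Odd (orderOf (y * (x * y * x⁻¹)))) : ∀ x : X, x * y = y * x := by
  haveI : Fact (Nat.Prime 2) := ⟨Nat.prime_two⟩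
  have hy2 : y * y = 1 := by rw [← pow_two, ← hy]; exact pow_orderOf_eq_one y
  have hyi : y⁻¹ = y := inv_eq_of_mul_eq_one_left hy2
  have hp : IsPGroup 2 (zpowers y) := IsPGroup.of_card (n := 1) (by rw [Nat.card_zpowers, hy]; norm_num)
  obtain ⟨P, hP⟩ := hp.exists_le_sylow
  have hyP : y ∈ (P : Subgroup X) := hP (mem_zpowers y)
  have h1 := (S0216.result P y hy hyP).2 (by
    intro g
    have h2 := h g
    have e1 : y * g * y⁻¹ * g⁻¹ = y * (g * y * g⁻¹) := by rw [hyi]; group
    rw [e1]; exact h2)
  obtain ⟨N, hN, hNo, hc⟩ := S0215.result P y hy hyP h1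
  have hNb := hO N hN hNo
  intro x
  have h3 := hc x
  rw [hNb, mem_bot] at h3
  have h4 : y * x = x * y := by
    have : y * x * y⁻¹ * x⁻¹ = 1 := h3
    calc y * x = (y * x * y⁻¹ * x⁻¹) * (x * y) := by group
      _ = x * y := by rw [this, one_mul]
  exact h4.symm

/-- In a nonabelian simple group no involution is the unique member of its class in a Sylow 2-subgroup. -/
theorem no_iso {G : Type*} [Group G] [Finite G] [IsSimpleGroup G] (hna : ¬ IsMulCommutative G) (S : Sylow 2 G)
    (z : G) (hz : orderOf z = 2) (hzS : z ∈ (S : Subgroup G))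
    (h : ∀ g : G, g * z * g⁻¹ ∈ (S : Subgroup G) → g * z * g⁻¹ = z) : False := by
  obtain ⟨N, hN, hNo, hc⟩ := S0215.result S z hz hzS h
  rcases hN.eq_bot_or_eq_top with hb | ht
  · -- z central
    have hzc : z ∈ center G := by
      rw [mem_center_iff]
      intro x
      have h3 := hc x
      rw [hb, mem_bot] at h3
      calc x * z = (z * x * z⁻¹ * x⁻¹)⁻¹ * (z * x) := by group
        _ = z * x := by rw [h3]; group
    rcases (inferInstance : (center G).Normal).eq_bot_or_eq_top with h4 | h4
    · rw [h4, mem_bot] at hzc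
      rw [hzc, orderOf_one] at hz
      norm_num at hz
    · apply hna
      refine ⟨⟨fun a b => ?_⟩⟩
      have : a ∈ center G := by rw [h4]; exact mem_top a
      exact (mem_center_iff.1 this b).symm
  · have h2 : 2 ∣ Nat.card G := by rw [← hz]; exact orderOf_dvd_natCard z
    rw [ht, card_top] at hNo
    rw [← Nat.not_even_iff_odd] at hNo
    exact hNo (even_iff_two_dvd.2 h2)

end Cfsg.Agent.H33.FxZ
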