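import Cfsg.Agent.H62.W6
import Cfsg.Agent.H33.GF0

set_option autoImplicit false
set_option linter.unusedVariables false
set_option linter.unusedSectionVars false
set_option linter.style.haveILetI false
set_option linter.deprecated false

/-!
The linear lemma for the factorization theorems.
-/

namespace Cfsg.Agent.H33.GF

open Subgroup Cfsg
open H34 (fixedBy mem_fixedBy fixedBy_anti)
open H62 (cm cm_apply)

/-- a 2-power automorphism group of odd prime power order: index of the fixed points -/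
theorem fix_index {α : Type*} [Group α] [Finite α] (hα : IsPGroup 2 α) {r : ℕ} [hr : Fact r.Prime] (hr2 : r ≠ 2)
    (σ : MulAut α) (ho : ∃ s, orderOf σ = r ^ s) {S : Subgroup α} (hS : ∀ a, a ∈ S ↔ σ a = a) (hne : S ≠ ⊤) :
    ∃ k, 0 < k ∧ r ∣ 2 ^ k - 1 ∧ S.index = 2 ^ k := by
  classical
  haveI : Fact (Nat.Prime 2) := ⟨Nat.prime_two⟩
  obtain ⟨n, hn⟩ := IsPGroup.iff_card.1 hα
  have hp : IsPGroup r (zpowers σ) := by
    obtain ⟨s, hs⟩ := ho
    exact IsPGroup.of_card (n := s) (by rw [Nat.card_zpowers, hs])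
  letI act : MulAction (zpowers σ) α := MulAction.compHom α (zpowers σ).subtype
  have hact : ∀ (g : zpowers σ) (a : α), g • a = (g : MulAut α) a := fun g a => rfl
  have h1 := hp.card_modEq_card_fixedPoints α
  have h2 : MulAction.fixedPoints (zpowers σ) α = (S : Set α) := by
    ext a
    simp only [MulAction.mem_fixedPoints, SetLike.mem_coe, hS]
    constructor
    · intro h; exact h ⟨σ, mem_zpowers σ⟩
    · intro h g
      obtain ⟨g, hg⟩ := g
      have h3 : zpowers σ ≤ MulAction.stabilizer (MulAut α) a := by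
        rw [zpowers_le]; exact h
      exact h3 hg
  rw [h2] at h1
  have h3 : Nat.card (S : Set α) = Nat.card S := rfl
  rw [h3] at h1
  have h4 := S.card_mul_index
  obtain ⟨k, -, hk⟩ := (Nat.dvd_prime_pow Nat.prime_two).1 (show S.index ∣ 2 ^ n by rw [← hn]; exact S.index_dvd_card)
  obtain ⟨j, -, hj⟩ := (Nat.dvd_prime_pow Nat.prime_two).1 (show Nat.card S ∣ 2 ^ n by rw [← hn]; exact S.card_subgroup_dvd_card)
  have hk0 : 0 < k := by
    rcases Nat.eq_zero_or_pos k with h | h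
    · exfalso; apply hne; rw [← Subgroup.index_eq_one, hk, h, pow_zero]
    · exact h
  refine ⟨k, hk0, ?_, hk⟩
  rw [← h4, hk, hj] at h1
  have h5 : r ∣ 2 ^ j * 2 ^ k - 2 ^ j := (Nat.modEq_iff_dvd' (Nat.le_mul_of_pos_right _ (by positivity))).1 h1.symm
  have h6 : 2 ^ j * 2 ^ k - 2 ^ j = 2 ^ j * (2 ^ k - 1) := by rw [Nat.mul_sub, mul_one]
  rw [h6] at h5
  rcases (Nat.Prime.dvd_mul hr.out).1 h5 with h | h
  · exact absurd ((Nat.prime_dvd_prime_iff_eq hr.out Nat.prime_two).1 (hr.out.dvd_of_dvd_pow h)) hr2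
  · exact h

/-- the version for a subgroup of a group -/
theorem cent_index {Γ : Type*} [Group Γ] [Finite Γ] {R : Subgroup Γ} (hR : IsPGroup 2 R) {r : ℕ} [hr : Fact r.Prime]
    (hr2 : r ≠ 2) {x : Γ} (hx : x ∈ normalizer (R : Set Γ)) (ho : ∃ s, orderOf x = r ^ s)
    (hne : ∃ ρ ∈ R, x * ρ ≠ ρ * x) :
    ∃ k, 0 < k ∧ r ∣ 2 ^ k - 1 ∧ 2 ^ k ≤ Nat.card R := by
  classical
  set f := normalizerMonoidHom R with hf
  set σ := f ⟨x, hx⟩ with hσ
  have hσv : ∀ a : R, ((σ a : R) : Γ) = x * a * x⁻¹ := fun a => rfl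
  have ho' : ∃ s, orderOf σ = r ^ s := by
    obtain ⟨s, hs⟩ := ho
    have h1 : orderOf σ ∣ r ^ s := by
      rw [← hs, ← Subgroup.orderOf_mk x hx]
      exact orderOf_map_dvd f _
    obtain ⟨t, -, ht⟩ := (Nat.dvd_prime_pow hr.out).1 h1
    exact ⟨t, ht⟩
  let S : Subgroup R :=
    { carrier := {a | σ a = a}
      one_mem' := map_one σ
      mul_mem' := fun {a b} ha hb => by
        simp only [Set.mem_setOf_eq] at *
        rw [map_mul, ha, hb]
      inv_mem' := fun {a} ha => by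
        simp only [Set.mem_setOf_eq] at *
        rw [map_inv, ha] }
  obtain ⟨k, hk0, hk, hkS⟩ := fix_index hR hr2 σ ho' (S := S) (fun a => Iff.rfl) (by
    intro h
    obtain ⟨ρ, hρ, hρx⟩ := hne
    apply hρx
    have h1 : (⟨ρ, hρ⟩ : R) ∈ S := h ▸ mem_top _
    have h2 : σ ⟨ρ, hρ⟩ = ⟨ρ, hρ⟩ := h1
    have h3 := congrArg Subtype.val h2
    rw [hσv] at h3
    exact mul_inv_eq_iff_eq_mul.1 h3)
  refine ⟨k, hk0, hk, ?_⟩
  rw [← hkS]
  exact Nat.le_of_dvd Nat.card_pos S.index_dvd_card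

section

variable {U : Type*} [CommGroup U] [Finite U]

theorem isPGroup_U (hU : ∀ u : U, u * u = 1) : IsPGroup 2 U :=
  fun u => ⟨1, by rw [pow_one, sq]; exact hU u⟩

/-- fixed points of one automorphism -/
def fx1 (x : MulAut U) : Subgroup U where
  carrier := {u | x u = u}
  one_mem' := map_one x
  mul_mem' := fun {a b} ha hb => by
    simp only [Set.mem_setOf_eq] at *
    rw [map_mul, ha, hb]
  inv_mem' := fun {a} ha => by
    simp only [Set.mem_setOf_eq] at *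
    rw [map_inv, ha]

theorem mem_fx1 {x : MulAut U} {u : U} : u ∈ fx1 x ↔ x u = u := Iff.rfl

/-- restriction of an automorphism -/
def rstHom (x : MulAut U) (W : Subgroup U) (hW : ∀ w ∈ W, x w ∈ W) : W →* W where
  toFun := fun w => ⟨x w, hW w w.2⟩
  map_one' := Subtype.ext (map_one x)
  map_mul' := fun a b => Subtype.ext (map_mul x (a : U) b)

/-- restriction of an automorphism -/
noncomputable def rst (x : MulAut U) (W : Subgroup U) (hW : ∀ w ∈ W, x w ∈ W) : MulAut W :=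
  MulEquiv.ofBijective (rstHom x W hW)
    (Finite.injective_iff_bijective.1 (fun a b h => Subtype.ext (x.injective (congrArg Subtype.val h))))

theorem rst_apply (x : MulAut U) (W : Subgroup U) (hW : ∀ w ∈ W, x w ∈ W) (w : W) :
    ((rst x W hW w : W) : U) = x w := rfl

theorem rst_pow (x : MulAut U) (W : Subgroup U) (hW : ∀ w ∈ W, x w ∈ W) (n : ℕ) (w : W) :
    (((rst x W hW) ^ n : MulAut W) w : U) = (x ^ n) w := by
  induction n with
  | zero => rfl
  | succ n ih => rw [pow_succ', pow_succ', MulAut.mul_apply, MulAut.mul_apply, rst_apply, ih]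

theorem fx_relIndex (hU : ∀ u : U, u * u = 1) {r : ℕ} [hr : Fact r.Prime] (hr2 : r ≠ 2) {x : MulAut U}
    (ho : ∃ s, orderOf x = r ^ s) (W : Subgroup U) (hW : ∀ w ∈ W, x w ∈ W) (hne : ∃ w ∈ W, x w ≠ w) :
    ∃ k, 0 < k ∧ r ∣ 2 ^ k - 1 ∧ (fx1 x).relIndex W = 2 ^ k := by
  have ho' : ∃ s, orderOf (rst x W hW) = r ^ s := by
    obtain ⟨s, hs⟩ := ho
    have h1 : orderOf (rst x W hW) ∣ r ^ s := by
      apply orderOf_dvd_of_pow_eq_one
      ext w
      rw [rst_pow, ← hs, pow_orderOf_eq_one]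
      rfl
    obtain ⟨t, -, ht⟩ := (Nat.dvd_prime_pow hr.out).1 h1
    exact ⟨t, ht⟩
  refine fix_index ((isPGroup_U hU).to_subgroup W) hr2 (rst x W hW) ho' (S := (fx1 x).subgroupOf W) ?_ ?_
  · intro a
    rw [mem_subgroupOf, mem_fx1]
    constructor
    · intro h; exact Subtype.ext h
    · intro h; exact congrArg Subtype.val h
  · intro h
    obtain ⟨w, hw, hxw⟩ := hne
    apply hxw
    have h1 : (⟨w, hw⟩ : W) ∈ (fx1 x).subgroupOf W := h ▸ mem_top _
    exact h1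

theorem rst_range_fixfree (hU : ∀ u : U, u * u = 1) {r : ℕ} [hr : Fact r.Prime] (hr2 : r ≠ 2) {x : MulAut U}
    (ho : ∃ s, orderOf x = r ^ s) (W : Subgroup U) (hW : ∀ w ∈ W, x w ∈ W) (hle : W ≤ (cm x).range) (hne : W ≠ ⊥) :
    ∃ k, 0 < k ∧ r ∣ 2 ^ k - 1 ∧ Nat.card W = 2 ^ k := by
  have hodd : Odd (orderOf x) := by
    obtain ⟨s, hs⟩ := ho
    rw [hs]; exact (hr.out.odd_of_ne_two hr2).pow
  have hfree : ∀ w ∈ W, x w = w → w = 1 := by
    intro w hw hxw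
    obtain ⟨u, rfl⟩ := hle hw
    exact H34.fixed_commutator_eq_one hU x hodd u hxw
  obtain ⟨⟨w, hw⟩, hw1⟩ := Subgroup.ne_bot_iff_exists_ne_one.1 hne
  obtain ⟨k, h1, h2, h3⟩ := fx_relIndex hU hr2 ho W hW ⟨w, hw, fun h => hw1 (Subtype.ext (hfree w hw h))⟩
  refine ⟨k, h1, h2, ?_⟩
  rw [← h3]
  have h4 : (fx1 x).relIndex W = (⊥ : Subgroup U).relIndex W := by
    rw [← Subgroup.inf_relIndex_right (fx1 x) W]
    congr 1
    rw [eq_bot_iff]
    rintro v ⟨hv1, hv2⟩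
    exact mem_bot.2 (hfree v hv2 hv1)
  rw [h4, Subgroup.relIndex_bot_left]

/-- uniqueness of the nontrivial factor -/
theorem uniq (hU : ∀ u : U, u * u = 1) {r : ℕ} [hr : Fact r.Prime] (hr2 : r ≠ 2) {x : MulAut U}
    (ho : ∃ s, orderOf x = r ^ s) {m : ℕ} (hbd : ∀ k, 0 < k → r ∣ 2 ^ k - 1 → m ^ 4 ≤ 2 * 2 ^ k) (hm : 2 ≤ m)
    (hd : 4 * (fx1 x).index ≤ m ^ 6) (W : Subgroup U) (hW : ∀ w ∈ W, x w ∈ W) (hne : ∃ w ∈ W, x w ≠ w) (u : U) :
    x u * u⁻¹ ∈ W := by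
  by_contra hcon
  set D := (cm x).range with hD
  have hDc : Nat.card D = (fx1 x).index := by
    have h1 : (cm x).ker = fx1 x := by
      ext v
      rw [MonoidHom.mem_ker, cm_apply, mem_fx1, mul_inv_eq_one]
    rw [← h1, Subgroup.index_ker]
  have hDx : ∀ w ∈ D, x w ∈ D := by
    rintro _ ⟨v, rfl⟩
    exact ⟨x v, by rw [cm_apply, cm_apply, map_mul, map_inv]⟩
  have hne1 : D ⊓ W ≠ ⊥ := by
    obtain ⟨w, hw, hxw⟩ := hne
    intro h
    have h1 : x w * w⁻¹ ∈ D ⊓ W := ⟨⟨w, rfl⟩, W.mul_mem (hW w hw) (W.inv_mem hw)⟩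
    rw [h, mem_bot] at h1
    exact hxw (mul_inv_eq_one.1 h1)
  have hDne : D ≠ ⊥ := fun h => hne1 (by rw [h, bot_inf_eq])
  obtain ⟨k₁, a1, a2, a3⟩ := rst_range_fixfree hU hr2 ho (D ⊓ W) (fun w hw => ⟨hDx w hw.1, hW w hw.2⟩) inf_le_left hne1
  obtain ⟨k, b1, b2, b3⟩ := rst_range_fixfree hU hr2 ho D hDx le_rfl hDne
  have hlt : k₁ < k := by
    by_contra hle
    push Not at hle
    have h3 : Nat.card D ≤ Nat.card (D ⊓ W : Subgroup U) := by
      rw [a3, b3]; exact Nat.pow_le_pow_right (by norm_num) hle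
    have h4 := Subgroup.eq_of_le_of_card_ge (inf_le_left : D ⊓ W ≤ D) h3
    apply hcon
    have h5 : x u * u⁻¹ ∈ D ⊓ W := by rw [h4]; exact ⟨u, rfl⟩
    exact h5.2
  obtain ⟨j, rfl⟩ : ∃ j, k = k₁ + j := ⟨k - k₁, by omega⟩
  have hj : 0 < j := by omega
  have hrj : r ∣ 2 ^ j - 1 := by
    have h5 : 2 ^ (k₁ + j) - 1 = (2 ^ k₁ - 1) + 2 ^ k₁ * (2 ^ j - 1) := by
      have h6 : 1 ≤ 2 ^ k₁ := Nat.one_le_two_pow
      have h7 : 1 ≤ 2 ^ j := Nat.one_le_two_pow
      have h8 : 2 ^ k₁ * (2 ^ j - 1) = 2 ^ k₁ * 2 ^ j - 2 ^ k₁ := by rw [Nat.mul_sub, mul_one]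
      have h9 : 2 ^ k₁ ≤ 2 ^ k₁ * 2 ^ j := Nat.le_mul_of_pos_right _ (by positivity)
      rw [h8, pow_add]
      omega
    rw [h5] at b2
    have h6 := (Nat.dvd_add_right a2).1 b2
    rcases (Nat.Prime.dvd_mul hr.out).1 h6 with h | h
    · exact absurd ((Nat.prime_dvd_prime_iff_eq hr.out Nat.prime_two).1 (hr.out.dvd_of_dvd_pow h)) hr2
    · exact h
  have c1 := hbd k₁ a1 a2
  have c2 := hbd j hj hrj
  have c3 : m ^ 4 * m ^ 4 ≤ m ^ 6 := by
    calc m ^ 4 * m ^ 4 ≤ (2 * 2 ^ k₁) * (2 * 2 ^ j) := Nat.mul_le_mul c1 c2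
      _ = 4 * 2 ^ (k₁ + j) := by rw [pow_add]; ring
      _ = 4 * (fx1 x).index := by rw [← hDc, b3]
      _ ≤ m ^ 6 := hd
  have c4 : m ^ 6 < m ^ 4 * m ^ 4 := by
    rw [← pow_add]
    exact Nat.pow_lt_pow_right (by omega) (by norm_num)
  omega

/-- fixed points modulo a subgroup -/
theorem exists_fixed_mod (hU : ∀ u : U, u * u = 1) {P : Subgroup (MulAut U)} (hP : IsPGroup 2 P)
    {X₁ X₂ : Subgroup U} (h21 : X₂ ≤ X₁) (hne : X₂ ≠ X₁) (h1 : ∀ p ∈ P, ∀ w ∈ X₁, p w ∈ X₁)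
    (h2 : ∀ p ∈ P, ∀ w ∈ X₂, p w ∈ X₂) : ∃ w ∈ X₁, w ∉ X₂ ∧ ∀ p ∈ P, p w * w⁻¹ ∈ X₂ := by
  classical
  haveI : Fact (Nat.Prime 2) := ⟨Nat.prime_two⟩
  let Q := X₁ ⧸ X₂.subgroupOf X₁
  letI act : MulAction P Q :=
    { smul := fun p => Quotient.map' (fun w : X₁ => (⟨(p : MulAut U) w, h1 p p.2 w w.2⟩ : X₁)) (by
        intro a b hab
        rw [QuotientGroup.leftRel_apply, mem_subgroupOf] at *
        have := h2 p p.2 _ hab
        simpa using this)
      one_smul := by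
        rintro ⟨w⟩; rfl
      mul_smul := by
        rintro p q ⟨w⟩; rfl }
  have hact : ∀ (p : P) (w : X₁), p • (QuotientGroup.mk w : Q) = QuotientGroup.mk (⟨(p : MulAut U) w, h1 p p.2 w w.2⟩ : X₁) :=
    fun p w => rfl
  have hdvd : 2 ∣ Nat.card Q := by
    have hp : IsPGroup 2 Q := ((isPGroup_U hU).to_subgroup X₁).to_quotient _
    obtain ⟨n, hn⟩ := IsPGroup.iff_card.1 hp
    have hn0 : n ≠ 0 := by
      rintro rfl
      rw [pow_zero] at hn
      have h3 : (X₂.subgroupOf X₁).index = 1 := hn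
      have h4 : X₁ ≤ X₂ := by
        rw [← Subgroup.relIndex_eq_one]; exact h3
      exact hne (le_antisymm h21 h4)
    rw [hn]; exact dvd_pow_self 2 hn0
  have h3 : ((1 : X₁) : Q) ∈ MulAction.fixedPoints P Q := by
    intro p
    rw [hact]
    congr 1
    exact Subtype.ext (map_one (p : MulAut U))
  obtain ⟨d, hd, hd1⟩ := hP.exists_fixed_point_of_prime_dvd_card_of_fixed_point Q hdvd h3
  obtain ⟨w, rfl⟩ := QuotientGroup.mk_surjective d
  refine ⟨w, w.2, ?_, ?_⟩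
  · intro hw
    apply hd1
    rw [QuotientGroup.eq, mem_subgroupOf]
    simpa using hw
  · intro p hp
    have h4 := hd ⟨p, hp⟩
    rw [hact, QuotientGroup.eq, mem_subgroupOf] at h4
    have h5 := inv_mem h4
    simpa [mul_comm] using h5

end

end Cfsg.Agent.H33.GF
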