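import Cfsg.Agent.H33.GF9
import Cfsg.Agent.Cop.GenAb

set_option autoImplicit false
set_option linter.unusedVariables false
set_option linter.unusedSectionVars false
set_option linter.style.haveILetI false
set_option linter.deprecated false

/-!
Elements attached to an elementary abelian 2-group: odd normal subgroups.
-/

namespace Cfsg.Agent.H33.GF

open Subgroup Cfsg
open H33 (cj mem_cj conj_mem_cj cj_mul cj_mono IsSyl mem_norm_iff)
open H34 (fixedBy mem_fixedBy fixedBy_anti maxEA)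
open H62 (EA EA_iff Quad ncl o2 omZ cj_le_ncl le_ncl ncl_le ncl_le_of_norm norm_ncl EA_ncl norm_o2 o2_le isPGroup_o2 le_o2)

universe u

section

variable {X : Type u} [Group X] [Finite X]

/-- the numerical bound for a single inverted element -/
theorem bd_of_inv (hfree : ¬ Involves (Equiv.Perm (Fin 3)) X) {a x : X} (ha : a * a = 1) (hxo : Odd (orderOf x))
    (hinv : a * x * a⁻¹ = x⁻¹) : ∀ r k : ℕ, r.Prime → r ∣ orderOf x → 0 < k → r ∣ 2 ^ k - 1 → 2 ^ 4 < 4 * 2 ^ k := by
  intro r k hr hrx hk0 hk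
  have hr2 : r ≠ 2 := by
    rintro rfl
    exact absurd (hxo.of_dvd_nat hrx) (by decide)
  have hr3 : r ≠ 3 := by
    rintro rfl
    obtain ⟨m, hm⟩ := hrx
    have hm0 : m ≠ 0 := by
      rintro rfl
      exact (orderOf_pos x).ne' (by omega)
    have h1 : orderOf (x ^ m) = 3 := by
      rw [orderOf_pow_of_dvd hm0 (by rw [hm]; exact Dvd.intro_left _ rfl), hm]
      exact Nat.mul_div_cancel _ (Nat.pos_of_ne_zero hm0)
    apply hfree
    refine H62.involves_S3_of_inverted (x := a) (y := x ^ m) ?_ ?_ ?_ ?_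
    · obtain ⟨k, -, hk⟩ := (Nat.dvd_prime_pow Nat.prime_two).1 (show orderOf a ∣ 2 ^ 1 from
        orderOf_dvd_of_pow_eq_one (by rw [pow_one, sq]; exact ha))
      exact ⟨k, hk⟩
    · have := pow_orderOf_eq_one (x ^ m)
      rwa [h1] at this
    · intro h
      rw [h, orderOf_one] at h1
      omega
    · rw [← conj_pow, hinv, inv_pow]
  have hr5 : 5 ≤ r := by
    have h2 := hr.two_le
    have h4 : r ≠ 4 := by rintro rfl; exact absurd hr (by decide)
    omega
  have h1 : 0 < 2 ^ k - 1 := by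
    have : 1 < 2 ^ k := Nat.one_lt_pow hk0.ne' (by norm_num)
    omega
  have h2 := Nat.le_of_dvd h1 hk
  omega

/-- the chain element in a hyperplane situation -/
theorem chain_hyper (hfree : ¬ Involves (Equiv.Perm (Fin 3)) X) {A B : Subgroup X} {a x : X} (hA : EA A) (hBA : B ≤ A)
    (ha : a ∈ A) (hBa : B ⊔ zpowers a = A) (hx : x ≠ 1) (hxo : Odd (orderOf x)) (hinv : a * x * a⁻¹ = x⁻¹)
    (hc : ∀ b ∈ B, b * x = x * b) : Chain A B a x :=
  ⟨hx, hxo, hBA, ha, hinv, hc, fun r k hr hrx hk0 hk =>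
    lt_of_le_of_lt (Nat.pow_le_pow_left (H62.relIndex_le_two hA ha hBA hBa) 4)
      (bd_of_inv hfree (hA.2 a ha) hxo hinv r k hr hrx hk0 hk)⟩

theorem chain_of_odd (hfree : ¬ Involves (Equiv.Perm (Fin 3)) X) {A N : Subgroup X} (hA : EA A)
    (hAN : A ≤ normalizer (N : Set X)) (hN : Odd (Nat.card N)) (hnot : ¬ A ≤ centralizer (N : Set X)) :
    ∃ B a x, Chain A B a x := by
  obtain ⟨B, hBA, a, ha, hBa, x, hxN, hx1, hinv, hc⟩ := H62.exists_hyper hA hAN hN hnot
  exact ⟨B, a, x, chain_hyper hfree hA hBA ha hBa hx1 (hN.of_dvd_nat (Subgroup.orderOf_dvd_natCard N hxN)) hinv hc⟩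

/-- commutators of an odd normalized subgroup -/
theorem comm_mem_of_chain (hfree : ¬ Involves (Equiv.Perm (Fin 3)) X) {A N M : Subgroup X} (hA : EA A)
    (hAN : A ≤ normalizer (N : Set X)) (hN : Odd (Nat.card N)) (hch : ∀ B a x, Chain A B a x → x ∈ M) {o a : X}
    (ho : o ∈ N) (ha : a ∈ A) : o * a * o⁻¹ * a⁻¹ ∈ M := by
  have hcop : (Nat.card A).Coprime (Nat.card N) := by
    haveI : Fact (Nat.Prime 2) := ⟨Nat.prime_two⟩
    obtain ⟨k, hk⟩ := IsPGroup.iff_card.1 hA.isPGroup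
    rw [hk]
    exact Nat.Coprime.pow_left k (Nat.coprime_two_left.2 hN)
  have hcA : IsMulCommutative A := ⟨⟨fun a b => Subtype.ext (hA.1 a a.2 b b.2)⟩⟩
  have hgen := Cop.commutator_le_genD hcA _ N rfl hAN hcop
  have h1 : Cop.genD A N ≤ M := by
    unfold Cop.genD
    refine iSup₂_le fun B hB => ?_
    obtain ⟨hBA, v, hv, hBv⟩ := hB
    rw [commutator_le]
    rintro o' ⟨ho', hoB⟩ a' ha'
    rw [commutatorElement_def]
    set x := o' * a' * o'⁻¹ * a'⁻¹ with hx
    by_cases hx1 : x = 1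
    · rw [hx1]; exact one_mem _
    -- `A = B ⟨a'⟩`
    have haa : a' * a' = 1 := hA.2 a' ha'
    have hai : a'⁻¹ = a' := inv_eq_of_mul_eq_one_left haa
    have haB : a' ∉ B := by
      intro h
      apply hx1
      rw [hx, ← mem_centralizer_iff.1 hoB a' h, mul_inv_cancel_right, mul_inv_cancel]
    have hBa' : B ⊔ zpowers a' = A := by
      apply le_antisymm (sup_le hBA (by rwa [zpowers_le]))
      have h2 := H62.relIndex_le_two hA hv hBA hBv
      have h3 := Subgroup.relIndex_mul_relIndex B (B ⊔ zpowers a') A le_sup_left (sup_le hBA (by rwa [zpowers_le]))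
      have h4 : B.relIndex (B ⊔ zpowers a') ≠ 1 := by
        intro h
        exact haB (Subgroup.relIndex_eq_one.1 h (mem_sup_right (mem_zpowers a')))
      have h5 : B.relIndex (B ⊔ zpowers a') ≠ 0 := H62.relIndex_ne_zero' _ _
      have h6 : (B ⊔ zpowers a').relIndex A ≠ 0 := H62.relIndex_ne_zero' _ _
      rw [← Subgroup.relIndex_eq_one]
      have h7 : 2 ≤ B.relIndex (B ⊔ zpowers a') := by omega
      by_contra h8
      have h9 : 2 ≤ (B ⊔ zpowers a').relIndex A := by omega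
      have := Nat.mul_le_mul h7 h9
      omega
    have hxN : x ∈ N := by
      have h2 : x = o' * (a' * o'⁻¹ * a'⁻¹) := by rw [hx]; group
      rw [h2]
      exact mul_mem ho' ((mem_normalizer_iff.1 (hAN ha') _).1 (inv_mem ho'))
    refine hch B a' x (chain_hyper hfree hA hBA ha' hBa' hx1 (hN.of_dvd_nat (Subgroup.orderOf_dvd_natCard N hxN)) ?_ ?_)
    · rw [hx]
      calc a' * (o' * a' * o'⁻¹ * a'⁻¹) * a'⁻¹ = (a' * o' * a'⁻¹) * ((a' * a') * o'⁻¹ * (a' * a')⁻¹) := by group
        _ = (a' * o' * a'⁻¹) * o'⁻¹ := by rw [haa]; group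
        _ = (o' * a' * o'⁻¹ * a'⁻¹)⁻¹ := by group
    · intro b hb
      have c1 : Commute b o' := mem_centralizer_iff.1 hoB b hb
      have c2 : Commute b a' := hA.1 b (hBA hb) a' ha'
      exact ((c1.mul_right c2).mul_right c1.inv_right).mul_right c2.inv_right
  apply h1
  apply hgen
  have := commutator_mem_commutator ho ha
  rwa [commutatorElement_def] at this

/-- a 2-group acting modulo an odd kernel -/
theorem exists_fixed_lift {Y : Type u} [Group Y] (f : X →* Y) (hk : Odd (Nat.card f.ker)) {B : Subgroup X}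
    (hB : IsPGroup 2 B) (x : X) (h : ∀ b ∈ B, Commute (f b) (f x)) :
    ∃ y : X, f y = f x ∧ ∀ b ∈ B, Commute b y := by
  classical
  haveI : Fact (Nat.Prime 2) := ⟨Nat.prime_two⟩
  let Ω := {y : X // f y = f x}
  letI act : MulAction B Ω :=
    { smul := fun b y => ⟨b * y * (b : X)⁻¹, by
        rw [map_mul, map_mul, map_inv, y.2, (h b b.2).eq, mul_inv_cancel_right]⟩
      one_smul := fun y => Subtype.ext (by
        change (1 : X) * y * (1 : X)⁻¹ = y
        group)
      mul_smul := fun b c y => Subtype.ext (by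
        change ((b : X) * c) * y * ((b : X) * c)⁻¹ = b * (c * y * (c : X)⁻¹) * (b : X)⁻¹
        group) }
  have hact : ∀ (b : B) (y : Ω), ((b • y : Ω) : X) = b * y * (b : X)⁻¹ := fun b y => rfl
  have hcard : Nat.card Ω = Nat.card f.ker := by
    refine Nat.card_congr
      { toFun := fun y => ⟨x⁻¹ * y, by rw [MonoidHom.mem_ker, map_mul, map_inv, y.2, inv_mul_cancel]⟩
        invFun := fun k => ⟨x * k, by rw [map_mul, MonoidHom.mem_ker.1 k.2, mul_one]⟩
        left_inv := fun y => Subtype.ext (by simp)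
        right_inv := fun k => Subtype.ext (by simp) }
  have h1 := hB.card_modEq_card_fixedPoints Ω
  have h2 : (MulAction.fixedPoints B Ω).Nonempty := by
    by_contra hne
    rw [Set.not_nonempty_iff_eq_empty] at hne
    have h3 : Nat.card (MulAction.fixedPoints B Ω) = 0 := by rw [hne]; simp
    rw [h3, hcard, Nat.modEq_zero_iff_dvd] at h1
    exact (Nat.not_even_iff_odd.2 hk) (even_iff_two_dvd.2 h1)
  obtain ⟨y, hy⟩ := h2
  refine ⟨y, y.2, fun b hb => ?_⟩
  have h3 := congrArg Subtype.val (hy ⟨b, hb⟩)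
  rw [hact] at h3
  exact mul_inv_eq_iff_eq_mul.1 h3

/-- lifting modulo an odd kernel -/
theorem chain_lift {Y : Type u} [Group Y] [Finite Y] (f : X →* Y) (hf : Function.Surjective f)
    (hk : Odd (Nat.card f.ker)) {A : Subgroup X} (hA : EA A) {B' : Subgroup Y} {a' x' : Y}
    (ch : Chain (A.map f) B' a' x') : ∃ B a x, Chain A B a x ∧ f x = x' := by
  classical
  set B := A ⊓ B'.comap f with hB
  obtain ⟨a, ha, haa'⟩ := ch.aA
  obtain ⟨x0, hx0⟩ := hf x'
  have hBp : IsPGroup 2 B := (hA.mono inf_le_left).isPGroup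
  obtain ⟨y₀, hy₀, hy₀B⟩ := exists_fixed_lift f hk hBp x0 (by
    rintro b ⟨-, hb⟩
    rw [hx0]
    exact ch.cent _ hb)
  rw [hx0] at hy₀
  have ha2 := hA.2 a ha
  have hai : a⁻¹ = a := inv_eq_of_mul_eq_one_left ha2
  set w := y₀ * (a * y₀ * a⁻¹)⁻¹ with hw
  have hwa : a * w * a⁻¹ = w⁻¹ := by
    rw [hw]
    calc a * (y₀ * (a * y₀ * a⁻¹)⁻¹) * a⁻¹ = (a * y₀ * a⁻¹) * ((a * a) * y₀⁻¹ * (a * a)⁻¹) := by group
      _ = (a * y₀ * a⁻¹) * y₀⁻¹ := by rw [ha2]; group
      _ = (y₀ * (a * y₀ * a⁻¹)⁻¹)⁻¹ := by group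
  have hwB : ∀ b ∈ B, Commute b w := by
    intro b hb
    have c1 := hy₀B b hb
    have c3 : Commute b a := hA.1 b hb.1 a ha
    have c2 : Commute b (a * y₀ * a⁻¹) := (c3.mul_right c1).mul_right c3.inv_right
    exact c1.mul_right c2.inv_right
  have hfw : f w = x' ^ 2 := by
    rw [hw, map_mul, map_inv, map_mul, map_mul, map_inv, hy₀, haa', ch.inv, sq, inv_inv]
  obtain ⟨k, hko⟩ := ch.odd
  -- the candidates
  have hex : ∃ n, ∃ y : X, f y = x' ∧ a * y * a⁻¹ = y⁻¹ ∧ (∀ b ∈ B, Commute b y) ∧ orderOf y = n := by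
    refine ⟨_, w ^ (k + 1), ?_, ?_, ?_, rfl⟩
    · rw [map_pow, hfw, ← pow_mul]
      have : 2 * (k + 1) = orderOf x' + 1 := by rw [hko]; ring
      rw [this, pow_succ, pow_orderOf_eq_one, one_mul]
    · rw [← conj_pow, hwa, inv_pow]
    · intro b hb
      exact (hwB b hb).pow_right _
  obtain ⟨y, hfy, hya, hyB, hyn⟩ := Nat.find_spec hex
  have hmin : ∀ y' : X, f y' = x' → a * y' * a⁻¹ = y'⁻¹ → (∀ b ∈ B, Commute b y') → orderOf y ≤ orderOf y' := by
    intro y' h1 h2 h3
    rw [hyn]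
    exact Nat.find_min' hex ⟨y', h1, h2, h3, rfl⟩
  have hprime : ∀ r, r.Prime → r ∣ orderOf y → r ∣ orderOf x' := by
    intro r hr hry
    by_contra hno
    have hco : r.Coprime (orderOf x') := (Nat.Prime.coprime_iff_not_dvd hr).2 hno
    obtain ⟨c, hc1, hc2⟩ := Nat.chineseRemainder hco 0 1
    have h1 := hmin (y ^ c) (by
        rw [map_pow, hfy]
        conv_rhs => rw [← pow_one x']
        rw [pow_eq_pow_iff_modEq]
        exact hc2) (by rw [← conj_pow, hya, inv_pow]) (fun b hb => (hyB b hb).pow_right _)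
    rw [orderOf_pow] at h1
    have h2 : r ∣ Nat.gcd (orderOf y) c := Nat.dvd_gcd hry ((Nat.modEq_zero_iff_dvd).1 hc1)
    have h3 : 1 < Nat.gcd (orderOf y) c := by
      have h4 : 0 < Nat.gcd (orderOf y) c := Nat.gcd_pos_of_pos_left _ (orderOf_pos y)
      exact lt_of_lt_of_le hr.one_lt (Nat.le_of_dvd h4 h2)
    have h5 := Nat.div_lt_self (orderOf_pos y) h3
    omega
  have hyo : Odd (orderOf y) := by
    rw [← Nat.not_even_iff_odd, even_iff_two_dvd]
    intro h2
    have h3 := hprime 2 Nat.prime_two h2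
    exact absurd (ch.odd.of_dvd_nat h3) (by decide)
  refine ⟨B, a, y, ⟨?_, hyo, inf_le_left, ha, hya, fun b hb => (hyB b hb).eq, ?_⟩, hfy⟩
  · rintro rfl
    rw [map_one] at hfy
    exact ch.ne hfy.symm
  · intro r k hr hrx hk0 hk'
    refine lt_of_le_of_lt (Nat.pow_le_pow_left ?_ 4) (ch.bd r k hr (hprime r hr hrx) hk0 hk')
    rw [hB, Subgroup.inf_relIndex_left, Subgroup.relIndex_comap]

/-- chains in subgroups -/
theorem Chain.of_sub {C : Subgroup X} {A : Subgroup X} (hAC : A ≤ C) {B : Subgroup C} {a x : C}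
    (ch : Chain (A.subgroupOf C) B a x) : Chain A (B.map C.subtype) a x := by
  have hm : (A.subgroupOf C).map C.subtype = A := by
    rw [Subgroup.subgroupOf_map_subtype, inf_eq_left.2 hAC]
  refine ⟨fun h => ch.ne (Subtype.ext h), by rw [Subgroup.orderOf_coe]; exact ch.odd, ?_, ch.aA, ?_, ?_, ?_⟩
  · rw [← hm]; exact Subgroup.map_mono ch.BA
  · exact congrArg Subtype.val ch.inv
  · rintro _ ⟨b, hb, rfl⟩
    exact congrArg Subtype.val (ch.cent b hb)
  · intro r k hr hrx hk0 hk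
    rw [Subgroup.orderOf_coe] at hrx
    have h1 := ch.bd r k hr hrx hk0 hk
    have h2 : (B.map C.subtype).relIndex A = B.relIndex (A.subgroupOf C) := by
      conv_lhs => rw [← hm]
      exact Subgroup.relIndex_map_map_of_injective _ _ C.subtype_injective
    rw [h2]; exact h1

end

end Cfsg.Agent.H33.GF
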