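import Cfsg.Agent.H33.GF10

set_option autoImplicit false
set_option linter.unusedVariables false
set_option linter.unusedSectionVars false
set_option linter.style.haveILetI false
set_option linter.deprecated false

/-!
Minimal normal subgroups.
-/

namespace Cfsg.Agent.H33.GF

open Subgroup Cfsg
open H33 (cj mem_cj conj_mem_cj cj_mul cj_mono IsSyl mem_norm_iff)
open H34 (fixedBy mem_fixedBy fixedBy_anti maxEA)
open H62 (EA EA_iff Quad ncl o2 omZ cj_le_ncl le_ncl ncl_le ncl_le_of_norm norm_ncl EA_ncl norm_o2 o2_le isPGroup_o2 le_o2)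

universe u

section

variable {X : Type u} [Group X] [Finite X]

structure Comp (L : Subgroup X) : Prop where
  simple : IsSimpleGroup L
  na : ¬ ∀ a b : L, a * b = b * a
  comm : ∀ g : X, g ∉ normalizer (L : Set X) → ∀ x ∈ L, ∀ y ∈ cj g L, x * y = y * x
  sub : L.IsSubnormal

theorem Comp.cj {L : Subgroup X} (c : Comp L) (g : X) : Comp (cj g L) := by
  have e : L ≃* (H33.cj g L : Subgroup X) := L.equivMapOfInjective _ (MulAut.conj g).injective
  refine ⟨(MulEquiv.isSimpleGroup_congr e).1 c.simple, ?_, ?_, c.sub.map (MulAut.conj g).surjective⟩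
  · intro h
    apply c.na
    intro a b
    apply e.injective
    rw [map_mul, map_mul]
    exact h _ _
  · intro h hh x hx y hy
    have h1 : g⁻¹ * h * g ∉ normalizer (L : Set X) := by
      intro hc
      apply hh
      rw [mem_norm_iff] at hc ⊢
      rw [← cj_mul]
      have e1 : h * g = g * (g⁻¹ * h * g) := by group
      rw [e1, cj_mul, hc]
    have h2 : g⁻¹ * x * g ∈ L := mem_cj.1 hx
    have h3 : g⁻¹ * y * g ∈ H33.cj (g⁻¹ * h * g) L := by
      rw [mem_cj] at hy ⊢
      rw [mem_cj] at hy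
      have e1 : (g⁻¹ * h * g)⁻¹ * (g⁻¹ * y * g) * (g⁻¹ * h * g) = g⁻¹ * (h⁻¹ * y * h) * g := by group
      rw [e1]; exact hy
    have h4 := c.comm _ h1 _ h2 _ h3
    have e1 : x * y = g * ((g⁻¹ * x * g) * (g⁻¹ * y * g)) * g⁻¹ := by group
    rw [e1, h4]; group

theorem min_struct {Y : Subgroup X} (hYn : Y.Normal) (hY0 : Y ≠ ⊥)
    (hmin : ∀ Z : Subgroup X, Z.Normal → Z ≤ Y → Z = ⊥ ∨ Z = Y) (hna : ¬ ∀ a ∈ Y, ∀ b ∈ Y, a * b = b * a) :
    ∃ L : Subgroup X, Comp L ∧ L ≤ Y ∧ Y ≤ normalizer (L : Set X) ∧ ncl ⊤ L = Y := by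
  classical
  have hYN : ∀ g : X, cj g Y = Y := fun g => H33.cj_normal g Y
  have hfin : {L : Subgroup X | L ≤ Y ∧ Y ≤ normalizer (L : Set X) ∧ L ≠ ⊥}.Finite := Set.toFinite _
  obtain ⟨L, ⟨hLY, hYL, hL0⟩, hLmin⟩ := Set.exists_min_image _ (fun D : Subgroup X => Nat.card D) hfin
    ⟨Y, le_rfl, le_normalizer, hY0⟩
  have hcj : ∀ g, cj g L ≤ Y ∧ Y ≤ normalizer (cj g L : Set X) := by
    intro g
    constructor
    · have := cj_mono (g := g) hLY
      rwa [hYN] at this
    · have := cj_mono (g := g) hYL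
      rwa [hYN, H33.cj_normalizer] at this
  have hdich : ∀ g, cj g L = L ∨ L ⊓ cj g L = ⊥ := by
    intro g
    by_cases h : L ⊓ cj g L = ⊥
    · exact Or.inr h
    · left
      have h1 := hLmin (L ⊓ cj g L) ⟨(inf_le_left : L ⊓ cj g L ≤ L).trans hLY,
        fun y hy => H33.norm_inf (hYL hy) ((hcj g).2 hy), h⟩
      have h2 := Subgroup.eq_of_le_of_card_ge (inf_le_left : L ⊓ cj g L ≤ L) h1
      have h3 : L ≤ cj g L := h2.ge.trans inf_le_right
      exact (Subgroup.eq_of_le_of_card_ge h3 (by rw [H33.card_cj])).symm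
  have hcomm : ∀ g, L ⊓ cj g L = ⊥ → ∀ x ∈ L, ∀ y ∈ cj g L, x * y = y * x := by
    intro g h x hx y hy
    have h1 : x * y * x⁻¹ * y⁻¹ ∈ L ⊓ cj g L := by
      constructor
      · have e1 : x * y * x⁻¹ * y⁻¹ = x * (y * x⁻¹ * y⁻¹) := by group
        rw [e1]
        exact L.mul_mem hx ((mem_normalizer_iff.1 (hYL ((hcj g).1 hy)) _).1 (L.inv_mem hx))
      · exact (cj g L).mul_mem ((mem_normalizer_iff.1 ((hcj g).2 (hLY hx)) _).1 hy) ((cj g L).inv_mem hy)
    rw [h, mem_bot] at h1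
    have e1 : x * y = (x * y * x⁻¹ * y⁻¹) * (y * x) := by group
    rw [e1, h1, one_mul]
  have hsup : ncl ⊤ L = Y := by
    have h1 : (ncl ⊤ L).Normal := Subgroup.normalizer_eq_top_iff.1 (top_le_iff.1 (norm_ncl ⊤ L))
    rcases hmin _ h1 (ncl_le fun x _ => (hcj x).1) with h | h
    · exfalso
      apply hL0
      rw [eq_bot_iff, ← h]
      exact le_ncl _ _
    · exact h
  have hcc : ∀ g h : X, (cj g L = cj h L) ∨ (∀ x ∈ cj g L, ∀ y ∈ cj h L, x * y = y * x) := by
    intro g h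
    rcases hdich (g⁻¹ * h) with h1 | h1
    · left
      have h2 := congrArg (cj g) h1
      rw [← cj_mul, mul_inv_cancel_left] at h2
      exact h2.symm
    · right
      intro x hx y hy
      have h2 : g⁻¹ * x * g ∈ L := mem_cj.1 hx
      have h3 : g⁻¹ * y * g ∈ cj (g⁻¹ * h) L := by
        rw [mem_cj] at hy ⊢
        have e1 : (g⁻¹ * h)⁻¹ * (g⁻¹ * y * g) * (g⁻¹ * h) = h⁻¹ * y * h := by group
        rw [e1]; exact hy
      have h4 := hcomm _ h1 _ h2 _ h3
      have e1 : x * y = g * ((g⁻¹ * x * g) * (g⁻¹ * y * g)) * g⁻¹ := by group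
      rw [e1, h4]; group
  haveI hLsub : (L.subgroupOf Y).Normal := H62.normal_subgroupOf hYL
  refine ⟨L, ⟨?_, ?_, ?_, IsSubnormal.step L Y hLY hYn.isSubnormal hLsub⟩, hLY, hYL, hsup⟩
  · haveI : Nontrivial L := (Subgroup.nontrivial_iff_ne_bot L).2 hL0
    refine IsSimpleGroup.mk ?_
    intro R hR
    set R' := R.map L.subtype with hR'
    have hR'L : R' ≤ L := Subgroup.map_subtype_le _
    have hYR : Y ≤ normalizer (R' : Set X) := by
      rw [← hsup]
      apply ncl_le
      intro g _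
      rcases hcc g 1 with h | h
      · rw [h, H33.cj_one]
        intro l hl
        apply H33.mem_norm_of_le
        rw [H33.cj_le_iff]
        rintro _ ⟨r, hr, rfl⟩
        exact ⟨⟨l, hl⟩ * r * ⟨l, hl⟩⁻¹, hR.conj_mem r hr _, rfl⟩
      · rw [H33.cj_one] at h
        intro l hl
        apply H33.mem_norm_of_le
        rw [H33.cj_le_iff]
        intro r hr
        rw [h l hl r (hR'L hr), mul_inv_cancel_right]; exact hr
    by_cases hR0 : R' = ⊥
    · left
      rw [eq_bot_iff]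
      intro r hr
      have h1 : (r : X) ∈ R' := ⟨r, hr, rfl⟩
      rw [hR0, mem_bot] at h1
      exact mem_bot.2 (Subtype.ext h1)
    · right
      have h1 := hLmin R' ⟨hR'L.trans hLY, hYR, hR0⟩
      have h2 := Subgroup.eq_of_le_of_card_ge hR'L h1
      rw [eq_top_iff]
      intro r _
      have h3 : (r : X) ∈ R' := by rw [h2]; exact r.2
      obtain ⟨r', hr', he⟩ := h3
      have : r' = r := Subtype.ext he
      rw [← this]; exact hr'
  · intro hab
    apply hna
    have h1 : Y ≤ centralizer (Y : Set X) := by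
      conv_lhs => rw [← hsup]
      apply ncl_le
      intro g _
      rw [le_centralizer_iff]
      conv_lhs => rw [← hsup]
      apply ncl_le
      intro h _
      intro x hx
      rw [mem_centralizer_iff]
      intro y hy
      rcases hcc g h with h2 | h2
      · rw [← h2] at hx
        rw [SetLike.mem_coe, mem_cj] at hy
        rw [mem_cj] at hx
        have h3 := congrArg Subtype.val (hab ⟨_, hy⟩ ⟨_, hx⟩)
        change (g⁻¹ * y * g) * (g⁻¹ * x * g) = (g⁻¹ * x * g) * (g⁻¹ * y * g) at h3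
        have e1 : y * x = g * ((g⁻¹ * y * g) * (g⁻¹ * x * g)) * g⁻¹ := by group
        rw [e1, h3]; group
      · exact h2 y hy x hx
    intro a ha b hb
    exact (mem_centralizer_iff.1 (h1 ha) b hb).symm
  · intro g hg x hx y hy
    rcases hdich g with h | h
    · exact absurd (mem_norm_iff.2 h) hg
    · exact hcomm g h x hx y hy

/-- Sylow subgroups of subgroups that are subnormal of defect 2 -/
theorem syl_comp {T Y L : Subgroup X} (hT : IsSyl 2 T ⊤) (hYn : Y.Normal) (hLY : L ≤ Y)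
    (hYL : Y ≤ normalizer (L : Set X)) : IsSyl 2 (T ⊓ L) L := by
  haveI : Fact (Nat.Prime 2) := ⟨Nat.prime_two⟩
  have h1 := hT.inf_normal (N := Y) le_top (by rw [normalizer_eq_top])
  have h2 := h1.inf_normal hLY hYL
  have h3 : T ⊓ Y ⊓ L = T ⊓ L := by
    rw [inf_assoc, inf_eq_right.2 hLY]
  rwa [h3] at h2

/-- abelian normal subgroups are trivial -/
theorem abelian_normal (h2 : pCore 2 X = ⊥) (hO : pPrimeCore 2 X = ⊥) {Y : Subgroup X} (hYn : Y.Normal)
    (hab : ∀ a ∈ Y, ∀ b ∈ Y, a * b = b * a) : Y = ⊥ := by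
  haveI : Fact (Nat.Prime 2) := ⟨Nat.prime_two⟩
  let Y2 : Subgroup X :=
    { carrier := {y | y ∈ Y ∧ y * y = 1}
      one_mem' := ⟨Y.one_mem, one_mul 1⟩
      mul_mem' := by
        rintro a b ⟨ha, ha2⟩ ⟨hb, hb2⟩
        refine ⟨Y.mul_mem ha hb, ?_⟩
        calc a * b * (a * b) = a * (b * a) * b := by group
          _ = a * (a * b) * b := by rw [hab b hb a ha]
          _ = (a * a) * (b * b) := by group
          _ = 1 := by rw [ha2, hb2, one_mul]
      inv_mem' := by
        rintro a ⟨ha, ha2⟩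
        exact ⟨Y.inv_mem ha, by rw [← mul_inv_rev, ha2, inv_one]⟩ }
  have hY2n : Y2.Normal := by
    constructor
    rintro a ⟨ha, ha2⟩ g
    refine ⟨hYn.conj_mem a ha g, ?_⟩
    have : g * a * g⁻¹ * (g * a * g⁻¹) = g * (a * a) * g⁻¹ := by group
    rw [this, ha2]; group
  have hY2p : IsPGroup 2 Y2 := H62.isPGroup_two_of_sq Y2 (fun a ha => ha.2)
  have hY2 : Y2 = ⊥ := by
    rw [eq_bot_iff, ← h2]
    exact Solv.le_pCore hY2n hY2p
  rw [eq_bot_iff, ← hO]
  apply Solv.le_pPrimeCore hYn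
  rw [Nat.coprime_two_right]
  rw [← Nat.not_even_iff_odd, even_iff_two_dvd]
  intro hd
  obtain ⟨t, ht⟩ := exists_prime_orderOf_dvd_card' 2 hd
  have h3 : (t : X) ∈ Y2 := by
    refine ⟨t.2, ?_⟩
    have h4 := pow_orderOf_eq_one t
    rw [ht, sq] at h4
    exact congrArg Subtype.val h4
  rw [hY2, mem_bot] at h3
  have h5 : t = 1 := Subtype.ext h3
  rw [h5, orderOf_one] at ht
  omega

end

end Cfsg.Agent.H33.GF
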