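import Cfsg.Agent.H33.GF11

set_option autoImplicit false
set_option linter.unusedVariables false
set_option linter.unusedSectionVars false
set_option linter.style.haveILetI false
set_option linter.deprecated false

/-!
Existence of elements inverted by an elementary abelian group.
-/

namespace Cfsg.Agent.H33.GF

open Subgroup Cfsg
open H33 (cj mem_cj conj_mem_cj cj_mul cj_mono IsSyl mem_norm_iff)
open H34 (fixedBy mem_fixedBy fixedBy_anti maxEA)
open H62 (EA EA_iff Quad ncl o2 omZ cj_le_ncl le_ncl ncl_le ncl_le_of_norm norm_ncl EA_ncl norm_o2 o2_le isPGroup_o2 le_o2)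

universe u

/-- the properties of the simple groups in question -/
def GI : Prop := ∀ (L : Type u) [Group L] [Finite L], IsSimpleGroup L → (¬ ∀ a b : L, a * b = b * a) →
  IsSuzukiOrPSL2OddPowerThree L → Good L ∧ InnerTwo.{u, u} L

section

variable {X : Type u} [Group X] [Finite X]

theorem comp_in (hFT : FT.{u}) (hG : GI.{u}) {A T L Y : Subgroup X} (hA : EA A)
    (hfree : ¬ Involves (Equiv.Perm (Fin 3)) X) (hkc : KC X) (hT : IsSyl 2 T ⊤) (hAT : A ≤ T)
    (c : Comp L) (hYn : Y.Normal) (hLY : L ≤ Y) (hYL : Y ≤ normalizer (L : Set X)) (hAL : ¬ A ≤ centralizer (L : Set X)) :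
    ∃ B a x, Chain A B a x ∧ ∀ M : Subgroup X, L ⊓ normalizer ((T ⊓ L : Subgroup X) : Set X) ≤ M → x ∈ M → L ≤ M := by
  obtain ⟨h1, h2⟩ := hG L c.simple c.na (hkc.simple c.sub c.simple c.na)
  refine comp_chain hFT hA hfree c.simple c.na h1 h2 ?_ (syl_comp hT hYn hLY hYL) ?_ hAL
  · intro g hg hgn x y
    exact c.comm g hgn x x.2 _ (conj_mem_cj y.2)
  · intro a ha haL
    exact H33.norm_inf (le_normalizer (hAT ha)) haL

theorem exists_min {K : Subgroup X} (hK : K.Normal) (hK0 : K ≠ ⊥) :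
    ∃ Y ≤ K, Y.Normal ∧ Y ≠ ⊥ ∧ ∀ Z : Subgroup X, Z.Normal → Z ≤ Y → Z = ⊥ ∨ Z = Y := by
  classical
  have hfin : {L : Subgroup X | L ≤ K ∧ L.Normal ∧ L ≠ ⊥}.Finite := Set.toFinite _
  obtain ⟨Y, ⟨hYK, hYn, hY0⟩, hmin⟩ := Set.exists_min_image _ (fun D : Subgroup X => Nat.card D) hfin
    ⟨K, le_rfl, hK, hK0⟩
  refine ⟨Y, hYK, hYn, hY0, fun Z hZn hZY => ?_⟩
  by_cases hZ : Z = ⊥
  · exact Or.inl hZ
  · right
    exact Subgroup.eq_of_le_of_card_ge hZY (hmin Z ⟨hZY.trans hYK, hZn, hZ⟩)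

theorem EA.map' {Y : Type*} [Group Y] {A : Subgroup X} (hA : EA A) (f : X →* Y) : EA (A.map f) := by
  constructor
  · rintro _ ⟨a, ha, rfl⟩ _ ⟨b, hb, rfl⟩
    rw [← map_mul, hA.1 a ha b hb, map_mul]
  · rintro _ ⟨a, ha, rfl⟩
    rw [← map_mul, hA.2 a ha, map_one]

theorem odd_pPrimeCore : Odd (Nat.card (pPrimeCore 2 X)) :=
  Nat.coprime_two_right.1 (Solv.pPrimeCore_card_coprime (G := X) 2)

theorem EA.inf_odd {A N : Subgroup X} (hA : EA A) (hN : Odd (Nat.card N)) {a : X} (ha : a ∈ A) (haN : a ∈ N) : a = 1 := by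
  by_contra hne
  have h1 : Odd (orderOf a) := hN.of_dvd_nat (Subgroup.orderOf_dvd_natCard N haN)
  apply H62.pow_two_pow_ne_one hne h1 1
  rw [pow_one, sq]; exact hA.2 a ha

theorem G1 (hFT : FT.{u}) (hG : GI.{u}) (hfree : ¬ Involves (Equiv.Perm (Fin 3)) X) (hkc : KC X) (h2 : pCore 2 X = ⊥)
    {A : Subgroup X} (hA : EA A) (hA0 : A ≠ ⊥) : ∃ B a x, Chain A B a x := by
  classical
  haveI : Fact (Nat.Prime 2) := ⟨Nat.prime_two⟩
  set O := pPrimeCore 2 X with hO
  have hOn : O.Normal := by rw [hO]; infer_instance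
  by_cases hAO : A ≤ centralizer (O : Set X)
  swap
  · exact chain_of_odd hfree hA (by rw [normalizer_eq_top]; exact le_top) odd_pPrimeCore hAO
  set C := centralizer (O : Set X) with hC
  haveI hCn : C.Normal := by rw [hC]; infer_instance
  set OC := pPrimeCore 2 C with hOC
  haveI hOCn : OC.Normal := by rw [hOC]; infer_instance
  have hOCc : ∀ z ∈ OC, ∀ c : C, c * z = z * c := by
    haveI hch : OC.Characteristic := by rw [hOC]; infer_instance
    have h3 : (OC.map C.subtype).Normal := inferInstance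
    have h4 : OC.map C.subtype ≤ O := by
      apply Solv.le_pPrimeCore h3
      rw [Subgroup.card_map_of_injective C.subtype_injective]
      exact Solv.pPrimeCore_card_coprime (G := C) 2
    intro z hz c
    apply Subtype.ext
    exact (mem_centralizer_iff.1 c.2 (z : X) (h4 ⟨z, hz, rfl⟩)).symm
  set q := QuotientGroup.mk' OC with hq
  have hqs : Function.Surjective q := QuotientGroup.mk'_surjective OC
  have hqk : q.ker = OC := QuotientGroup.ker_mk' OC
  have hO' : pPrimeCore 2 (C ⧸ OC) = ⊥ := Solv.pPrimeCore_quotient_pPrimeCore (G := C) 2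
  -- O₂
  have h2' : pCore 2 (C ⧸ OC) = ⊥ := by
    set P' := pCore 2 (C ⧸ OC) with hP'
    have hP'n : P'.Normal := by rw [hP']; infer_instance
    obtain ⟨T⟩ : Nonempty (Sylow 2 C) := inferInstance
    have hP'T : P' ≤ (T : Subgroup C).map q := by
      have h3 := (Solv.pCore_isPGroup (G := C ⧸ OC) 2)
      obtain ⟨S, hS⟩ := h3.exists_le_sylow
      obtain ⟨g, hg⟩ := MulAction.exists_smul_eq (C ⧸ OC) S (T.mapSurjective hqs)
      have h4 : (T.mapSurjective hqs : Subgroup (C ⧸ OC)) = (T : Subgroup C).map q := rfl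
      rw [← h4, ← hg]
      intro p hp
      rw [Sylow.coe_subgroup_smul, Subgroup.mem_pointwise_smul_iff_inv_smul_mem]
      apply hS
      have := hP'n.conj_mem p hp g⁻¹
      rw [inv_inv] at this
      convert this using 1
      simp [MulAut.conj_apply]
    set P := (T : Subgroup C) ⊓ P'.comap q with hP
    have hPn : P.Normal := by
      constructor
      rintro t ⟨htT, htP⟩ c
      have h5 : q (c * t * c⁻¹) ∈ P' := by
        rw [map_mul, map_mul, map_inv]
        exact hP'n.conj_mem _ htP _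
      obtain ⟨p, hpT, hp⟩ := hP'T h5
      have h6 : p⁻¹ * (c * t * c⁻¹) ∈ OC := by
        rw [← hqk, MonoidHom.mem_ker, map_mul, map_inv, hp, inv_mul_cancel]
      set z := p⁻¹ * (c * t * c⁻¹) with hz
      have h7 : c * t * c⁻¹ = p * z := by rw [hz]; group
      obtain ⟨k, hk⟩ := T.isPGroup' ⟨t, htT⟩
      obtain ⟨l, hl⟩ := T.isPGroup' ⟨p, hpT⟩
      have hk' : t ^ 2 ^ k = 1 := congrArg Subtype.val hk
      have hl' : p ^ 2 ^ l = 1 := congrArg Subtype.val hl
      have h8 : z ^ 2 ^ (k + l) = 1 := by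
        have c1 : Commute p z := hOCc z h6 p
        have c2 : (c * t * c⁻¹) ^ 2 ^ (k + l) = 1 := by
          rw [conj_pow, pow_add, pow_mul, hk', one_pow]; group
        rw [h7, c1.mul_pow] at c2
        have c3 : p ^ 2 ^ (k + l) = 1 := by rw [pow_add, mul_comm, pow_mul, hl', one_pow]
        rwa [c3, one_mul] at c2
      have h9 : z = 1 := by
        by_contra hne
        exact H62.pow_two_pow_ne_one hne (odd_pPrimeCore.of_dvd_nat (Subgroup.orderOf_dvd_natCard _ h6)) _ h8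
      rw [h7, h9, mul_one]
      refine ⟨hpT, ?_⟩
      change q p ∈ P'
      rw [hp]; exact h5
    have hPp : IsPGroup 2 P := T.isPGroup'.to_le inf_le_left
    have hPc : P ≤ pCore 2 C := Solv.le_pCore hPn hPp
    haveI hch : (pCore 2 C).Characteristic := inferInstance
    have h3 : ((pCore 2 C).map C.subtype).Normal := inferInstance
    have h4 : (pCore 2 C).map C.subtype ≤ pCore 2 X :=
      Solv.le_pCore h3 ((Solv.pCore_isPGroup (G := C) 2).map _)
    rw [h2] at h4
    have h5 : P = ⊥ := by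
      rw [eq_bot_iff]
      intro p hp
      have h6 : (p : X) ∈ (⊥ : Subgroup X) := h4 ⟨p, hPc hp, rfl⟩
      exact mem_bot.2 (Subtype.ext (mem_bot.1 h6))
    rw [eq_bot_iff]
    intro p' hp'
    obtain ⟨p, hpT, rfl⟩ := hP'T hp'
    have h6 : p ∈ P := ⟨hpT, hp'⟩
    rw [h5, mem_bot] at h6
    rw [h6, map_one]; exact one_mem _
  set A' := A.subgroupOf C with hA'
  have hA'e : EA A' := H62.EA.subgroupOf hA
  set A'' := A'.map q with hA''
  have hA''e : EA A'' := EA.map' hA'e q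
  have hA''0 : A'' ≠ ⊥ := by
    intro h
    apply hA0
    rw [eq_bot_iff]
    intro a ha
    have h3 : (⟨a, hAO ha⟩ : C) ∈ OC := by
      rw [← hqk, MonoidHom.mem_ker, ← mem_bot, ← h]
      exact ⟨⟨a, hAO ha⟩, ha, rfl⟩
    have h4 := EA.inf_odd hA'e odd_pPrimeCore (show (⟨a, hAO ha⟩ : C) ∈ A' from ha) h3
    exact mem_bot.2 (congrArg Subtype.val h4)
  have hkc' : KC (C ⧸ OC) := (hkc.sub hCn.isSubnormal).surj q hqs
  have hfree' : ¬ Involves (Equiv.Perm (Fin 3)) (C ⧸ OC) := fun h =>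
    hfree (H46.involves_of_subgroup (H46.involves_of_surj h q hqs))
  -- a minimal normal subgroup not centralized
  obtain ⟨Y, hYn, hY0, hYmin, hYA⟩ : ∃ Y : Subgroup (C ⧸ OC), Y.Normal ∧ Y ≠ ⊥ ∧
      (∀ Z : Subgroup (C ⧸ OC), Z.Normal → Z ≤ Y → Z = ⊥ ∨ Z = Y) ∧ ¬ A'' ≤ centralizer (Y : Set (C ⧸ OC)) := by
    by_contra hcon
    push Not at hcon
    set K := sInf {D : Subgroup (C ⧸ OC) | ∃ Y : Subgroup (C ⧸ OC), Y.Normal ∧ Y ≠ ⊥ ∧
      (∀ Z : Subgroup (C ⧸ OC), Z.Normal → Z ≤ Y → Z = ⊥ ∨ Z = Y) ∧ D = centralizer (Y : Set (C ⧸ OC))} with hK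
    have hKn : K.Normal := by
      constructor
      intro x hx g
      rw [hK, mem_sInf] at hx ⊢
      rintro D ⟨Y, h1, h2, h3, rfl⟩
      haveI := h1
      exact (inferInstance : (centralizer (Y : Set (C ⧸ OC))).Normal).conj_mem x (hx _ ⟨Y, h1, h2, h3, rfl⟩) g
    have hAK : A'' ≤ K := by
      rw [hK]
      apply le_sInf
      rintro D ⟨Y, h1, h2, h3, rfl⟩
      exact hcon Y h1 h2 h3
    have hK0 : K ≠ ⊥ := fun h => hA''0 (by rw [eq_bot_iff, ← h]; exact hAK)
    obtain ⟨Y, hYK, h1, h2, h3⟩ := exists_min hKn hK0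
    apply h2
    apply abelian_normal h2' hO' h1
    intro a ha b hb
    have h4 : a ∈ centralizer (Y : Set (C ⧸ OC)) := by
      have := hYK ha
      rw [hK, mem_sInf] at this
      exact this _ ⟨Y, h1, h2, h3, rfl⟩
    exact (mem_centralizer_iff.1 h4 b hb).symm
  obtain ⟨L, hL, hLY, hYL, hsup⟩ := min_struct hYn hY0 hYmin (fun h => hY0 (abelian_normal h2' hO' hYn h))
  obtain ⟨g, hg⟩ : ∃ g, ¬ A'' ≤ centralizer (H33.cj g L : Set (C ⧸ OC)) := by
    by_contra hcon
    push Not at hcon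
    apply hYA
    rw [le_centralizer_iff, ← hsup]
    apply ncl_le
    intro g _
    rw [← le_centralizer_iff]
    exact hcon g
  obtain ⟨T, hAT, hT⟩ := IsSyl.exists_of_le (p := 2) (H := ⊤) (R := A'') le_top hA''e.isPGroup
  have hcjY : H33.cj g Y = Y := H33.cj_normal g Y
  obtain ⟨B, a, x, ch, -⟩ := comp_in hFT hG hA''e hfree' hkc' hT hAT (hL.cj g) hYn (by
      have := cj_mono (g := g) hLY
      rwa [hcjY] at this) (by
      have := cj_mono (g := g) hYL
      rwa [hcjY, H33.cj_normalizer] at this) hg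
  obtain ⟨B', a', x', ch', -⟩ := chain_lift q hqs (by rw [hqk]; exact odd_pPrimeCore) hA'e ch
  exact ⟨_, _, _, ch'.of_sub hAO⟩

end

end Cfsg.Agent.H33.GF
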