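import Cfsg.Agent.H33.GF12

set_option autoImplicit false
set_option linter.unusedVariables false
set_option linter.unusedSectionVars false
set_option linter.style.haveILetI false
set_option linter.deprecated false

/-!
A subgroup containing a Sylow normalizer and the inverted elements contains conjugates of `A`.
-/

namespace Cfsg.Agent.H33.GF

open Subgroup Cfsg
open H33 (cj mem_cj conj_mem_cj cj_mul cj_mono IsSyl mem_norm_iff)
open H34 (fixedBy mem_fixedBy fixedBy_anti maxEA)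
open H62 (EA EA_iff Quad ncl o2 omZ cj_le_ncl le_ncl ncl_le ncl_le_of_norm norm_ncl EA_ncl norm_o2 o2_le isPGroup_o2 le_o2)

universe u

section

variable {X : Type u} [Group X] [Finite X]

theorem syl_map {X' : Type*} [Group X'] [Finite X'] (q : X →* X') (hq : Function.Surjective q) {T : Subgroup X}
    (hT : IsSyl 2 T ⊤) : IsSyl 2 (T.map q) ⊤ := by
  haveI : Fact (Nat.Prime 2) := ⟨Nat.prime_two⟩
  refine ⟨le_top, hT.2.1.map q, ?_⟩
  have h1 := hT.2.2
  rw [Subgroup.relIndex_top_right] at h1 ⊢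
  intro h
  exact h1 (h.trans (Subgroup.index_map_dvd T hq))

theorem normal_le_syl {T Y : Subgroup X} (hT : IsSyl 2 T ⊤) (hYn : Y.Normal) (hY : IsPGroup 2 Y) : Y ≤ T := by
  haveI : Fact (Nat.Prime 2) := ⟨Nat.prime_two⟩
  obtain ⟨x, -, hx⟩ := hT.conj_le (R := Y) le_top hY
  rwa [H33.cj_normal x Y] at hx

/-- abelian minimal normal subgroups of groups without odd normal subgroups are 2-groups -/
theorem abelian_min (hO : pPrimeCore 2 X = ⊥) {Y : Subgroup X} (hYn : Y.Normal) (hY0 : Y ≠ ⊥)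
    (hmin : ∀ Z : Subgroup X, Z.Normal → Z ≤ Y → Z = ⊥ ∨ Z = Y)
    (hab : ∀ a ∈ Y, ∀ b ∈ Y, a * b = b * a) : IsPGroup 2 Y := by
  haveI : Fact (Nat.Prime 2) := ⟨Nat.prime_two⟩
  let Y2 : Subgroup X :=
    { carrier := {y | y ∈ Y ∧ y * y = 1}
      one_mem' := ⟨Y.one_mem, one_mul 1⟩
      mul_mem' := by
        rintro a b ⟨ha, ha2⟩ ⟨hb, hb2⟩
        refine ⟨Y.mul_mem ha hb, ?_⟩
        calc a * b * (a * b) = a * (b * a) * b := by group
          _ = a * (a * b) * b := by rw [hab b hb a ha]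
          _ = (a * a) * (b * b) := by group
          _ = 1 := by rw [ha2, hb2, one_mul]
      inv_mem' := by
        rintro a ⟨ha, ha2⟩
        exact ⟨Y.inv_mem ha, by rw [← mul_inv_rev, ha2, inv_one]⟩ }
  have hY2n : Y2.Normal := by
    constructor
    rintro a ⟨ha, ha2⟩ g
    refine ⟨hYn.conj_mem a ha g, ?_⟩
    have : g * a * g⁻¹ * (g * a * g⁻¹) = g * (a * a) * g⁻¹ := by group
    rw [this, ha2]; group
  have hY2p : IsPGroup 2 Y2 := H62.isPGroup_two_of_sq Y2 (fun a ha => ha.2)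
  rcases hmin Y2 hY2n (fun a ha => ha.1) with h | h
  · exfalso
    apply hY0
    rw [eq_bot_iff, ← hO]
    apply Solv.le_pPrimeCore hYn
    rw [Nat.coprime_two_right]
    rw [← Nat.not_even_iff_odd, even_iff_two_dvd]
    intro hd
    obtain ⟨t, ht⟩ := exists_prime_orderOf_dvd_card' 2 hd
    have h3 : (t : X) ∈ Y2 := by
      refine ⟨t.2, ?_⟩
      have h4 := pow_orderOf_eq_one t
      rw [ht, sq] at h4
      exact congrArg Subtype.val h4
    rw [h, mem_bot] at h3
    have h5 : t = 1 := Subtype.ext h3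
    rw [h5, orderOf_one] at ht
    omega
  · rw [← h]; exact hY2p

/-- normalizers of Sylow subgroups of a direct factor -/
theorem norm_factor {T Y L : Subgroup X} (hT : IsSyl 2 T ⊤) (hYn : Y.Normal) (hL : Comp L) (hLY : L ≤ Y)
    (hYL : Y ≤ normalizer (L : Set X)) (hsup : ∀ y ∈ Y, ∃ l ∈ L, ∃ c ∈ centralizer (L : Set X), y = l * c) :
    L ⊓ normalizer ((T ⊓ L : Subgroup X) : Set X) ≤ normalizer ((T ⊓ Y : Subgroup X) : Set X) := by
  classical
  haveI : Fact (Nat.Prime 2) := ⟨Nat.prime_two⟩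
  have hS := syl_comp hT hYn hLY hYL
  -- the projection
  let P₁ : Subgroup X :=
    { carrier := {l | l ∈ L ∧ ∃ c ∈ centralizer (L : Set X), l * c ∈ T ⊓ Y}
      one_mem' := ⟨one_mem _, 1, one_mem _, by rw [mul_one]; exact one_mem _⟩
      mul_mem' := by
        rintro l l' ⟨hl, c, hc, h⟩ ⟨hl', c', hc', h'⟩
        refine ⟨mul_mem hl hl', c * c', mul_mem hc hc', ?_⟩
        have e1 : l * l' * (c * c') = (l * c) * (l' * c') := by
          calc l * l' * (c * c') = l * (l' * c) * c' := by group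
            _ = l * (c * l') * c' := by rw [mem_centralizer_iff.1 hc l' hl']
            _ = _ := by group
        rw [e1]; exact mul_mem h h'
      inv_mem' := by
        rintro l ⟨hl, c, hc, h⟩
        refine ⟨inv_mem hl, c⁻¹, inv_mem hc, ?_⟩
        have e1 : l⁻¹ * c⁻¹ = (l * c)⁻¹ := by
          rw [mem_centralizer_iff.1 hc l hl]; group
        rw [e1]; exact inv_mem h }
  have hP1 : ∀ l, l ∈ P₁ ↔ l ∈ L ∧ ∃ c ∈ centralizer (L : Set X), l * c ∈ T ⊓ Y := fun l => Iff.rfl
  have hP1p : IsPGroup 2 P₁ := by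
    rintro ⟨l, hl⟩
    obtain ⟨hlL, c, hc, hlc, -⟩ := (hP1 l).1 hl
    obtain ⟨k, hk⟩ := hT.2.1 ⟨l * c, hlc⟩
    refine ⟨k, Subtype.ext ?_⟩
    have h1 : (l * c) ^ 2 ^ k = 1 := congrArg Subtype.val hk
    have c1 : Commute l c := mem_centralizer_iff.1 hc l hlL
    rw [c1.mul_pow] at h1
    have h2 : l ^ 2 ^ k = (c ^ 2 ^ k)⁻¹ := eq_inv_of_mul_eq_one_left h1
    have h3 : l ^ 2 ^ k ∈ centralizer (L : Set X) := by
      rw [h2]; exact inv_mem (pow_mem hc _)
    have h4 : (⟨l ^ 2 ^ k, pow_mem hlL _⟩ : L) = 1 := by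
      apply center_triv hL.simple hL.na
      intro s
      apply Subtype.ext
      change l ^ 2 ^ k * s * (l ^ 2 ^ k)⁻¹ = s
      rw [← mem_centralizer_iff.1 h3 s s.2, mul_inv_cancel_right]
    have h5 : l ^ 2 ^ k = 1 := congrArg Subtype.val h4
    exact h5
  have hP1S : P₁ = T ⊓ L := by
    apply hS.eq_of_le _ (fun l hl => ((hP1 l).1 hl).1) hP1p
    rintro l ⟨hlT, hlL⟩
    exact (hP1 l).2 ⟨hlL, 1, one_mem _, by rw [mul_one]; exact ⟨hlT, hLY hlL⟩⟩
  rintro l ⟨hlL, hln⟩
  apply H33.mem_norm_of_le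
  rw [H33.cj_le_iff]
  rintro t ⟨htT, htY⟩
  obtain ⟨l₁, hl₁, c₁, hc₁, rfl⟩ := hsup t htY
  have h1 : l₁ ∈ T ⊓ L := by
    rw [← hP1S]; exact (hP1 l₁).2 ⟨hl₁, c₁, hc₁, htT, htY⟩
  have h2 : l * l₁ * l⁻¹ ∈ T ⊓ L := (mem_normalizer_iff.1 hln l₁).1 h1
  have h3 : l * (l₁ * c₁) * l⁻¹ = (l * l₁ * l⁻¹) * (l₁⁻¹ * (l₁ * c₁)) := by
    have e1 := mem_centralizer_iff.1 hc₁ l⁻¹ (L.inv_mem hlL)
    calc l * (l₁ * c₁) * l⁻¹ = l * l₁ * (c₁ * l⁻¹) := by group
      _ = l * l₁ * (l⁻¹ * c₁) := by rw [e1]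
      _ = _ := by group
  refine ⟨?_, ?_⟩
  · rw [h3]
    exact T.mul_mem h2.1 (T.mul_mem (T.inv_mem h1.1) htT)
  · rw [h3]
    exact Y.mul_mem (hLY h2.2) (Y.mul_mem (Y.inv_mem (hLY h1.2)) htY)

theorem alpha (hFT : FT.{u}) (hG : GI.{u}) (hfree : ¬ Involves (Equiv.Perm (Fin 3)) X) (hkc : KC X)
    {A T M : Subgroup X} (hA : EA A) (hT : IsSyl 2 T ⊤) (hAT : A ≤ T) (hTM : T ≤ M)
    (hch : ∀ B a x, Chain A B a x → x ∈ M) {X' : Type u} [Group X'] [Finite X'] (q : X →* X')
    (hq : Function.Surjective q) (hqk : q.ker = pPrimeCore 2 X) {Y : Subgroup X'} (hYn : Y.Normal) (hY0 : Y ≠ ⊥)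
    (hmin : ∀ Z : Subgroup X', Z.Normal → Z ≤ Y → Z = ⊥ ∨ Z = Y) (hO' : pPrimeCore 2 X' = ⊥)
    (hNM : normalizer ((T ⊓ Y.comap q : Subgroup X) : Set X) ≤ M) :
    ∀ y ∈ Y.comap q, ∀ a ∈ A, y * a * y⁻¹ ∈ M := by
  classical
  haveI : Fact (Nat.Prime 2) := ⟨Nat.prime_two⟩
  have hOodd : Odd (Nat.card q.ker) := by rw [hqk]; exact odd_pPrimeCore
  have hkc' : KC X' := hkc.surj q hq
  have hfree' : ¬ Involves (Equiv.Perm (Fin 3)) X' := fun h => hfree (H46.involves_of_surj h q hq)
  -- step 1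
  have s1 : ∀ o ∈ q.ker, ∀ a ∈ A, o * a * o⁻¹ * a⁻¹ ∈ M := by
    intro o ho a ha
    refine comm_mem_of_chain hfree hA ?_ hOodd hch ho ha
    intro x _
    have : q.ker.Normal := inferInstance
    rw [normalizer_eq_top]; exact mem_top x
  -- step 3
  have s3 : ∀ y ∈ Y, ∃ m ∈ M, ∃ c, (∀ a ∈ A, Commute (q a) c) ∧ y = q m * c := by
    by_cases hab : ∀ a ∈ Y, ∀ b ∈ Y, a * b = b * a
    · intro y hy
      have h1 := normal_le_syl (syl_map q hq hT) hYn (abelian_min hO' hYn hY0 hmin hab) hy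
      obtain ⟨t, ht, rfl⟩ := h1
      exact ⟨t, hTM ht, 1, fun a _ => Commute.one_right _, by rw [mul_one]⟩
    · obtain ⟨L, hL, hLY, hYL, hsup⟩ := min_struct hYn hY0 hmin hab
      have hcjY : ∀ g, H33.cj g Y = Y := fun g => H33.cj_normal g Y
      have hcLY : ∀ g, H33.cj g L ≤ Y := by
        intro g
        have := cj_mono (g := g) hLY
        rwa [hcjY] at this
      have hcYL : ∀ g, Y ≤ normalizer (H33.cj g L : Set X') := by
        intro g
        have := cj_mono (g := g) hYL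
        rwa [hcjY, H33.cj_normalizer] at this
      have hT' := syl_map q hq hT
      -- decomposition with respect to one component
      have hdec : ∀ g, ∀ y ∈ Y, ∃ l ∈ H33.cj g L, ∃ c ∈ centralizer (H33.cj g L : Set X'), y = l * c := by
        intro g y hy
        have hle : Y ≤ H33.cj g L ⊔ centralizer (H33.cj g L : Set X') := by
          conv_lhs => rw [← hsup]
          apply ncl_le
          intro h _
          by_cases hgh : g⁻¹ * h ∈ normalizer (L : Set X')
          · have h1 := congrArg (H33.cj g) (mem_norm_iff.1 hgh)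
            rw [← cj_mul, mul_inv_cancel_left] at h1
            rw [h1]; exact le_sup_left
          · refine le_trans ?_ le_sup_right
            intro x hx
            rw [mem_centralizer_iff]
            intro z hz
            have h2 : g⁻¹ * z * g ∈ L := mem_cj.1 hz
            have h3 : g⁻¹ * x * g ∈ H33.cj (g⁻¹ * h) L := by
              rw [mem_cj] at hx ⊢
              have e1 : (g⁻¹ * h)⁻¹ * (g⁻¹ * x * g) * (g⁻¹ * h) = h⁻¹ * x * h := by group
              rw [e1]; exact hx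
            have h4 := hL.comm _ hgh _ h2 _ h3
            have e1 : z * x = g * ((g⁻¹ * z * g) * (g⁻¹ * x * g)) * g⁻¹ := by group
            rw [e1, h4]; group
        obtain ⟨l, hl, c, hc, h⟩ := (H33.mem_sup_left_norm (H33.cent_le_norm' (H33.cj g L))).1 (hle hy)
        exact ⟨l, hl, c, hc, h⟩
      have hnorm : normalizer ((T.map q ⊓ Y : Subgroup X') : Set X') ⊓ Y ≤ M.map q := by
        rintro y ⟨hyn, hyY⟩
        obtain ⟨x, rfl⟩ := hq y
        set R := T ⊓ Y.comap q with hR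
        have hRm : R.map q = T.map q ⊓ Y := by
          apply le_antisymm
          · rintro _ ⟨t, ⟨ht, htY⟩, rfl⟩
            exact ⟨⟨t, ht, rfl⟩, htY⟩
          · rintro _ ⟨⟨t, ht, rfl⟩, htY⟩
            exact ⟨t, ⟨ht, htY⟩, rfl⟩
        set N := q.ker ⊔ R with hN
        have hNc : N = (R.map q).comap q := by
          rw [Subgroup.comap_map_eq, sup_comm]
        have hxN : x ∈ normalizer (N : Set X) := by
          rw [mem_normalizer_iff]
          intro z
          rw [hNc, mem_comap, mem_comap, map_mul, map_mul, map_inv, hRm]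
          exact mem_normalizer_iff.1 hyn (q z)
        have hRN : IsSyl 2 R N := by
          have hRY : IsSyl 2 R (Y.comap q) := hT.inf_normal (N := Y.comap q) le_top (by
            rw [normalizer_eq_top])
          refine hRY.mono le_sup_right (sup_le ?_ inf_le_right)
          intro z hz
          rw [mem_comap, MonoidHom.mem_ker.1 hz]; exact one_mem _
        obtain ⟨n, hn, hnx⟩ := hRN.frattini hxN
        have h1 : n * x ∈ M := hNM hnx
        have h2 : q n ∈ M.map q := by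
          have h3 : q n ∈ R.map q := by
            rw [hNc] at hn; exact hn
          exact Subgroup.map_mono ((inf_le_left : R ≤ T).trans hTM) h3
        have h3 : q x = (q n)⁻¹ * q (n * x) := by rw [map_mul]; group
        rw [h3]
        exact mul_mem (inv_mem h2) ⟨_, h1, rfl⟩
      have hTM' : T.map q ≤ M.map q := Subgroup.map_mono hTM
      have hcases : ∀ g, H33.cj g L ≤ M.map q ∨ A.map q ≤ centralizer (H33.cj g L : Set X') := by
        intro g
        by_cases hc : A.map q ≤ centralizer (H33.cj g L : Set X')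
        · exact Or.inr hc
        · left
          obtain ⟨B, a, x, ch, hM⟩ := comp_in hFT hG (EA.map' hA q) hfree' hkc' hT' (Subgroup.map_mono hAT)
            (hL.cj g) hYn (hcLY g) (hcYL g) hc
          obtain ⟨B', a', x', ch', rfl⟩ := chain_lift q hq hOodd hA ch
          refine hM (M.map q) ?_ ⟨x', hch _ _ _ ch', rfl⟩
          refine le_trans (le_inf (norm_factor hT' hYn (hL.cj g) (hcLY g) (hcYL g) (hdec g)) ?_) hnorm
          exact inf_le_left.trans (hcLY g)
      set Y1 := ⨆ g : {g : X' // H33.cj g L ≤ M.map q}, H33.cj (g : X') L with hY1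
      set Y2 := ⨆ g : {g : X' // A.map q ≤ centralizer (H33.cj g L : Set X')}, H33.cj (g : X') L with hY2
      have hY1M : Y1 ≤ M.map q := iSup_le fun g => g.2
      have hY2A : Y2 ≤ centralizer ((A.map q : Subgroup X') : Set X') := by
        rw [hY2]
        refine iSup_le fun g => ?_
        rw [le_centralizer_iff]; exact g.2
      have hY2Y : Y2 ≤ Y := iSup_le fun g => hcLY g
      have hY2n : Y2 ≤ normalizer (Y1 : Set X') := by
        refine hY2Y.trans ?_
        intro y hy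
        rw [mem_norm_iff, hY1]
        unfold H33.cj
        rw [Subgroup.map_iSup]
        refine iSup_congr fun g => ?_
        exact mem_norm_iff.1 (hcYL g hy)
      have hYY : Y ≤ Y1 ⊔ Y2 := by
        conv_lhs => rw [← hsup]
        apply ncl_le
        intro g _
        rcases hcases g with h | h
        · exact (le_iSup (fun g : {g : X' // H33.cj g L ≤ M.map q} => H33.cj (g : X') L) ⟨g, h⟩).trans le_sup_left
        · exact (le_iSup (fun g : {g : X' // A.map q ≤ centralizer (H33.cj g L : Set X')} => H33.cj (g : X') L)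
            ⟨g, h⟩).trans le_sup_right
      intro y hy
      obtain ⟨y1, hy1, y2, hy2, rfl⟩ := (H33.mem_sup_left_norm hY2n).1 (hYY hy)
      obtain ⟨m, hm, hmy⟩ := hY1M hy1
      refine ⟨m, hm, y2, fun a ha => ?_, by rw [hmy]⟩
      exact mem_centralizer_iff.1 (hY2A hy2) (q a) ⟨a, ha, rfl⟩
  intro y hy a ha
  obtain ⟨m, hm, c', hc', hyc⟩ := s3 (q y) hy
  obtain ⟨c0, rfl⟩ := hq c'
  obtain ⟨c, hcc, hcA⟩ := exists_fixed_lift q hOodd hA.isPGroup c0 hc'
  set o := m⁻¹ * y * c⁻¹ with ho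
  have hok : o ∈ q.ker := by
    rw [MonoidHom.mem_ker, ho, map_mul, map_mul, map_inv, map_inv, hyc, hcc]; group
  have h1 : y = m * o * c := by rw [ho]; group
  have h2 : y * a * y⁻¹ = m * ((o * a * o⁻¹ * a⁻¹) * a) * m⁻¹ := by
    rw [h1]
    calc m * o * c * a * (m * o * c)⁻¹ = m * o * (c * a * c⁻¹) * o⁻¹ * m⁻¹ := by group
      _ = m * o * a * o⁻¹ * m⁻¹ := by rw [← (hcA a ha).eq]; group
      _ = _ := by group
  rw [h2]
  exact M.mul_mem (M.mul_mem hm (M.mul_mem (s1 o hok a ha) (hTM (hAT ha)))) (M.inv_mem hm)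

end

end Cfsg.Agent.H33.GF
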