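import Cfsg.Agent.H33.GF13

set_option autoImplicit false
set_option linter.unusedVariables false
set_option linter.unusedSectionVars false
set_option linter.style.haveILetI false
set_option linter.deprecated false

/-!
Preparations for the theorem on `J_e(T)` and conjugates of `V`.
-/

namespace Cfsg.Agent.H33.GF

open Subgroup Cfsg
open H33 (cj mem_cj conj_mem_cj cj_mul cj_mono IsSyl mem_norm_iff)
open H34 (fixedBy mem_fixedBy fixedBy_anti maxEA)
open H62 (EA EA_iff Quad ncl o2 omZ cj_le_ncl le_ncl ncl_le ncl_le_of_norm norm_ncl EA_ncl norm_o2 o2_le isPGroup_o2 le_o2 JJ)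

universe u

section

variable {G : Type u} [Group G] [Finite G]

theorem lift_odd {H X : Type*} [Group H] [Finite H] [Group X] (π : H →* X) {x' : X} (hx : ∃ x, π x = x')
    (ho : Odd (orderOf x')) : ∃ x, π x = x' ∧ Odd (orderOf x) := by
  obtain ⟨x, hx⟩ := hx
  obtain ⟨e, n, hn, he⟩ := Nat.exists_eq_two_pow_mul_odd (orderOf_pos x).ne'
  obtain ⟨c, hc1, hc2⟩ := Nat.chineseRemainder (Nat.Coprime.pow_left e (Nat.coprime_two_left.2 ho)) 0 1
  refine ⟨x ^ c, ?_, ?_⟩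
  · rw [map_pow, hx]
    conv_rhs => rw [← pow_one x']
    rw [pow_eq_pow_iff_modEq]
    exact hc2
  · apply hn.of_dvd_nat
    apply orderOf_dvd_of_pow_eq_one
    rw [← pow_mul]
    apply orderOf_dvd_iff_pow_eq_one.1
    rw [he]
    exact Nat.mul_dvd_mul ((Nat.modEq_zero_iff_dvd).1 hc1) dvd_rfl

theorem cent_of_max {T A V : Subgroup G} (hA : A ∈ maxEA 2 T) (hV : EA V) (hVT : V ≤ T)
    (hTV : T ≤ normalizer (V : Set G)) (hsq : SqH V T) : A ≤ centralizer (V : Set G) := by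
  have h1 := H62.offender hA hV hVT (hA.1.trans hTV)
  have h2 := hsq A hA.1 ((EA_iff.2 hA.2.1).quad V)
  rcases h2 with h2 | h2
  · intro a ha
    exact (Subgroup.relIndex_eq_one.1 h2 ha).2
  · exfalso
    set p := (A ⊓ centralizer (V : Set G)).relIndex A
    set v := (V ⊓ centralizer (A : Set G)).relIndex V
    have hp : 0 < p := Nat.pos_of_ne_zero (H62.relIndex_ne_zero' _ _)
    have h3 : v ^ 2 ≤ p ^ 2 := Nat.pow_le_pow_left h1 2
    have h4 : p ^ 2 ≤ p ^ 3 := Nat.pow_le_pow_right hp (by norm_num)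
    omega

theorem le_o2_of_sqH (hFT : FT.{u}) (hG : GI.{u}) {T H V : Subgroup G} (h : LocK T H) (hV : EA V) (hVT : V ≤ T)
    (hTV : T ≤ normalizer (V : Set G)) (hsq : SqH V T) : V ≤ o2 H := by
  have hTH := h.syl.1
  have hQ : ∀ x : H, x ∈ pCore 2 H ↔ (x : G) ∈ o2 H := by
    intro x
    constructor
    · intro hx; exact ⟨x, hx, rfl⟩
    · rintro ⟨y, hy, hyx⟩
      have : y = x := Subtype.ext hyx
      rwa [← this]
  have h1 := le_core_of_sqH (Γ := H) (T := T.subgroupOf H) (V := V.subgroupOf H) (by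
      intro x hx
      rw [hQ]
      apply h.c2
      refine ⟨x.2, mem_centralizer_iff.2 ?_⟩
      rintro _ ⟨q, hq, rfl⟩
      exact congrArg Subtype.val (mem_centralizer_iff.1 hx q hq))
    (by
      intro x hx
      exact H62.o2_le_syl h.syl ((hQ x).1 hx))
    (H62.EA.subgroupOf hV) (fun x hx => hVT hx) (by
      intro x hx
      rw [mem_normalizer_iff]
      intro y
      exact mem_normalizer_iff.1 (hTV hx) (y : G)) (hsq.subgroupOf (hVT.trans hTH) hTH) (by
      intro hne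
      refine G1 hFT hG ?_ (h.kc.surj _ (QuotientGroup.mk'_surjective _)) (Solv.pCore_quotient_pCore (G := H) 2)
        (EA.map' (H62.EA.subgroupOf hV) _) hne
      intro hi
      exact h.free (H46.involves_of_surj hi _ (QuotientGroup.mk'_surjective _)))
  intro v hv
  exact (hQ ⟨v, hTH (hVT hv)⟩).1 (h1 (mem_subgroupOf.2 hv))

theorem comm_conj_of {T H V : Subgroup G} (h : IsSyl 2 T H) (hV : EA V) (hVQ : V ≤ o2 H) (hsq : SqH V T) :
    ∀ x ∈ H, ∀ a ∈ V, ∀ b ∈ cj x V, a * b = b * a := by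
  intro x hx
  have h1 : cj x V ≤ o2 H := by
    have := cj_mono (g := x) hVQ
    rwa [mem_norm_iff.1 (norm_o2 H hx)] at this
  have h2 : SqH V (o2 H) := hsq.mono (H62.o2_le_syl h)
  exact comm_of_sqH hV (hV.cj x) hVQ h1 h2 (h2.conj_norm (norm_o2 H hx))

theorem kctx {T H V N₁ : Subgroup G} (h : IsSyl 2 T H) (hV : EA V) (hVQ : V ≤ o2 H) (hsq : SqH V T) (hN : N₁ ≤ H)
    (hQN : o2 H ≤ N₁) : KCtx T H (ncl N₁ V) (ncl H V) := by
  have hE : EA (ncl H V) := EA_ncl hV (comm_conj_of h hV hVQ hsq)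
  have hle : ncl N₁ V ≤ ncl H V := ncl_le fun x hx => cj_le_ncl (hN hx)
  have hEQ : ncl H V ≤ o2 H := ncl_le_of_norm (norm_o2 H) hVQ
  refine ⟨h.1, h.2.1, H62.o2_le_syl h, hE, norm_ncl H V, hle, hEQ.trans (H62.o2_le_syl h), hQN.trans (norm_ncl N₁ V), ?_⟩
  apply SqH.ncl (hE.mono hle)
  intro x hx
  exact (hsq.mono (H62.o2_le_syl h)).conj_norm (norm_o2 H (hN hx))

/-- reduction to a normalizer -/
theorem ncl_le_norm {T H V N₁ : Subgroup G} (hQN : o2 H ≤ N₁) (hN : N₁ ≤ H)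
    (hfac : ∀ h ∈ H, ∃ k ∈ KE H (ncl H V), ∃ n ∈ N₁, h = k * n) : ncl H V ≤ ncl N₁ V := by
  apply ncl_le
  intro x hx
  obtain ⟨k, hk, n, hn, rfl⟩ := hfac x hx
  have hn' : o2 H ≤ normalizer ((H ⊓ centralizer (ncl H V : Set G) : Subgroup G) : Set G) :=
    (o2_le H).trans (norm_inf_cent (norm_ncl H V))
  unfold KE at hk
  rw [sup_comm] at hk
  obtain ⟨c, hc, q, hq, rfl⟩ := (H33.mem_sup_left_norm hn').1 hk
  have h1 : cj (q * n) V ≤ ncl N₁ V := cj_le_ncl (mul_mem (hQN hq) hn)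
  have h2 : cj (q * n) V ≤ ncl H V := cj_le_ncl (mul_mem (o2_le H hq) (hN hn))
  rw [mul_assoc, cj_mul]
  rw [H33.cj_le_iff]
  intro v hv
  rw [← mem_centralizer_iff.1 hc.2 v (h2 hv), mul_inv_cancel_right]
  exact h1 hv

end

end Cfsg.Agent.H33.GF
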