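import Cfsg.Agent.H33.GF14

set_option autoImplicit false
set_option linter.unusedVariables false
set_option linter.unusedSectionVars false
set_option linter.style.haveILetI false
set_option linter.deprecated false

/-!
`J_e(T)` centralizes all conjugates of `V`.
-/

namespace Cfsg.Agent.H33.GF

open Subgroup Cfsg
open H33 (cj mem_cj conj_mem_cj cj_mul cj_mono IsSyl mem_norm_iff)
open H34 (fixedBy mem_fixedBy fixedBy_anti maxEA)
open H62 (EA EA_iff Quad ncl o2 omZ cj_le_ncl le_ncl ncl_le ncl_le_of_norm norm_ncl EA_ncl norm_o2 o2_le isPGroup_o2 le_o2 JJ)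

universe u

section

variable {G : Type u} [Group G] [Finite G]

theorem red (hFT : FT.{u}) {T H V R' : Subgroup G} (n : ℕ)
    (ih : ∀ H' : Subgroup G, Nat.card H' ≤ n → LocK T H' → JJ T ≤ centralizer (ncl H' V : Set G))
    (hn : Nat.card H ≤ n + 1) (h : LocK T H) (hR'H : R' ≤ H) (hR'n : H ≤ normalizer (R' : Set G))
    (hfac : ∀ r ∈ R', ∃ k ∈ KE H (ncl H V), ∃ t ∈ T ⊓ R', r = k * t) :
    T ⊓ R' ≤ o2 H ∨ JJ T ≤ centralizer (ncl H V : Set G) := by
  set N₁ := H ⊓ normalizer ((T ⊓ R' : Subgroup G) : Set G) with hN₁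
  have hL := LocK.normalizer hFT h hR'H hR'n
  by_cases hNH : N₁ = H
  · left
    have h1 : H ≤ normalizer ((T ⊓ R' : Subgroup G) : Set G) := by
      rw [← hNH]; exact inf_le_right
    exact le_o2 (inf_le_left.trans h.syl.1) (h.syl.2.1.to_le inf_le_left) h1
  · right
    have hlt : Nat.card N₁ ≤ n := by
      by_contra hc
      apply hNH
      exact Subgroup.eq_of_le_of_card_ge inf_le_left (by omega)
    refine (ih N₁ hlt hL).trans (centralizer_le ?_)
    apply ncl_le_norm (T := T) ((H62.o2_le_syl h.syl).trans hL.syl.1) inf_le_left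
    intro x hx
    obtain ⟨r, hr, m, hm, rfl⟩ := frattini' h.syl hR'H hR'n hx
    obtain ⟨k, hk, t, ht, rfl⟩ := hfac r hr
    exact ⟨k, hk, t * m, N₁.mul_mem (hL.syl.1 ht.1) hm, by group⟩

theorem three (hFT : FT.{u}) (hG : GI.{u}) {T V : Subgroup G} (hV : EA V) (hVT : V ≤ T)
    (hTV : T ≤ normalizer (V : Set G)) (hsq : SqH V T) :
    ∀ (n : ℕ) (H : Subgroup G), Nat.card H ≤ n → LocK T H → JJ T ≤ centralizer (ncl H V : Set G) := by
  classical
  haveI : Fact (Nat.Prime 2) := ⟨Nat.prime_two⟩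
  intro n
  induction n with
  | zero => intro H h; exact absurd (Nat.card_pos (α := H)) (by omega)
  | succ n ih =>
  intro H hn h
  have hTH : T ≤ H := h.syl.1
  have hVQ := le_o2_of_sqH hFT hG h hV hVT hTV hsq
  set E := ncl H V with hE
  have hQT : o2 H ≤ T := H62.o2_le_syl h.syl
  set K := KE H E with hK
  have hKH : K ≤ H := KE_le H E
  have hKn : H ≤ normalizer (K : Set G) := norm_KE (norm_ncl H V)
  have hQK : o2 H ≤ K := le_sup_left
  rcases red hFT n ih hn h hKH hKn (fun r hr => ⟨r, hr, 1, one_mem _, by rw [mul_one]⟩) with hTK | hdone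
  swap
  · exact hdone
  -- the quotient
  haveI hKsn : (K.subgroupOf H).Normal := H62.normal_subgroupOf hKn
  obtain ⟨X, i1, i2, π, hπs, hπk⟩ : ∃ (X : Type u) (_ : Group X) (_ : Finite X) (π : H →* X), Function.Surjective π ∧
      ∀ x : H, π x = 1 ↔ (x : G) ∈ K :=
    ⟨H ⧸ K.subgroupOf H, inferInstance, inferInstance, QuotientGroup.mk' _, QuotientGroup.mk'_surjective _,
      fun x => QuotientGroup.eq_one_iff x⟩
  have hkcX : KC X := h.kc.surj π hπs
  have hfreeX : ¬ Involves (Equiv.Perm (Fin 3)) X := fun hi => h.free (H46.involves_of_surj hi π hπs)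
  have hπe : ∀ x y : H, π x = π y ↔ (x : G)⁻¹ * y ∈ K := by
    intro x y
    rw [← inv_mul_eq_one, ← map_inv, ← map_mul, hπk]
    rfl
  have hTs : IsSyl 2 (T.subgroupOf H) ⊤ := by
    refine ⟨le_top, h.syl.2.1.comap_subtype, ?_⟩
    rw [Subgroup.relIndex_top_right]
    exact h.syl.2.2
  set T' := (T.subgroupOf H).map π with hT'
  have hT's : IsSyl 2 T' ⊤ := syl_map π hπs hTs
  -- preimages of normal subgroups
  have hpre : ∀ Z : Subgroup X, Z.Normal → (Z.comap π).map H.subtype ≤ H ∧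
      H ≤ normalizer (((Z.comap π).map H.subtype : Subgroup G) : Set G) := by
    intro Z hZ
    refine ⟨Subgroup.map_subtype_le _, ?_⟩
    intro x hx
    apply H33.mem_norm_of_le
    rw [H33.cj_le_iff]
    rintro _ ⟨z, hz, rfl⟩
    refine ⟨⟨x, hx⟩ * z * ⟨x, hx⟩⁻¹, ?_, rfl⟩
    rw [SetLike.mem_coe, mem_comap, map_mul, map_mul, map_inv]
    exact hZ.conj_mem _ hz _
  have hpm : ∀ (Z : Subgroup X) (x : H), (x : G) ∈ (Z.comap π).map H.subtype ↔ π x ∈ Z := by
    intro Z x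
    constructor
    · rintro ⟨y, hy, hyx⟩
      have : y = x := Subtype.ext hyx
      rw [← this]; exact hy
    · intro hx
      exact ⟨x, hx, rfl⟩
  by_cases hJ : ∀ A ∈ maxEA 2 T, A ≤ o2 H
  · -- `J` is normal
    have hJn : ∀ x ∈ H, x ∈ normalizer (JJ T : Set G) := fun x hx => H62.norm_JJ hQT hJ (norm_o2 H hx)
    rw [le_centralizer_iff]
    apply ncl_le
    intro x hx
    have h1 : V ≤ centralizer (JJ T : Set G) := by
      rw [← le_centralizer_iff]
      exact H62.JJ_le_of fun A hA => cent_of_max hA hV hVT hTV hsq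
    have h2 := cj_mono (g := x) h1
    rwa [H33.cj_centralizer, mem_norm_iff.1 (hJn x hx)] at h2
  push Not at hJ
  obtain ⟨A₀, hA₀, hA₀Q⟩ := hJ
  set q := QuotientGroup.mk' (pPrimeCore 2 X) with hq
  have hqs : Function.Surjective q := QuotientGroup.mk'_surjective _
  have hqk : q.ker = pPrimeCore 2 X := QuotientGroup.ker_mk' _
  have hO' : pPrimeCore 2 (X ⧸ pPrimeCore 2 X) = ⊥ := Solv.pPrimeCore_quotient_pPrimeCore (G := X) 2
  have htop : (⊤ : Subgroup (X ⧸ pPrimeCore 2 X)) ≠ ⊥ := by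
    intro htb
    apply hA₀Q
    intro a ha
    apply hTK
    refine ⟨hA₀.1 ha, ?_⟩
    have haH : a ∈ H := hTH (hA₀.1 ha)
    have h1 : π ⟨a, haH⟩ ∈ pPrimeCore 2 X := by
      rw [← hqk, MonoidHom.mem_ker, ← mem_bot, ← htb]
      exact mem_top _
    have h2 : EA ((A₀.subgroupOf H).map π) := EA.map' (H62.EA.subgroupOf (EA_iff.2 hA₀.2.1)) π
    have h3 := EA.inf_odd h2 odd_pPrimeCore (show π ⟨a, haH⟩ ∈ (A₀.subgroupOf H).map π from ⟨⟨a, haH⟩, ha, rfl⟩) h1
    exact (hπk _).1 h3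
  obtain ⟨Y, -, hYn, hY0, hYmin⟩ := exists_min (X := X ⧸ pPrimeCore 2 X) (K := ⊤) inferInstance htop
  haveI hYc : (Y.comap q).Normal := hYn.comap q
  set R' := ((Y.comap q).comap π).map H.subtype with hR'
  obtain ⟨hR'H, hR'n⟩ := hpre (Y.comap q) hYc
  rw [← hR'] at hR'H hR'n
  have hR'm : ∀ x : H, (x : G) ∈ R' ↔ q (π x) ∈ Y := fun x => hpm (Y.comap q) x
  have hKR : K ≤ R' := by
    intro k hk
    have h1 := (hπk ⟨k, hKH hk⟩).2 hk
    exact (hR'm ⟨k, hKH hk⟩).2 (by rw [h1, map_one]; exact one_mem _)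
  set N₁ := H ⊓ normalizer ((T ⊓ R' : Subgroup G) : Set G) with hN₁
  have hL := LocK.normalizer hFT h hR'H hR'n
  rw [← hN₁] at hL
  have hN₁H : N₁ ≤ H := inf_le_left
  have hTN : T ≤ N₁ := hL.syl.1
  have hTRs : IsSyl 2 (T ⊓ R') R' := h.syl.inf_normal hR'H hR'n
  have himR : ((T ⊓ R').subgroupOf H).map π = T' ⊓ Y.comap q := by
    ext x'
    constructor
    · rintro ⟨t, ht, rfl⟩
      exact ⟨⟨t, ht.1, rfl⟩, (hR'm t).1 ht.2⟩
    · rintro ⟨⟨t, ht, rfl⟩, htY⟩
      exact ⟨t, ⟨ht, (hR'm t).2 htY⟩, rfl⟩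
  have hN₁ne : N₁ ≠ H := by
    intro hNH
    have h1 : H ≤ normalizer ((T ⊓ R' : Subgroup G) : Set G) := by
      rw [← hNH]; exact inf_le_right
    have h2 : T ⊓ R' ≤ o2 H := le_o2 (inf_le_left.trans hTH) (h.syl.2.1.to_le inf_le_left) h1
    have h3 : T' ⊓ Y.comap q = ⊥ := by
      rw [← himR, eq_bot_iff]
      rintro _ ⟨t, ht, rfl⟩
      rw [mem_bot, hπk]
      exact hQK (h2 ht)
    have h4 : IsSyl 2 (T' ⊓ Y.comap q) (Y.comap q) := hT's.inf_normal le_top (by rw [normalizer_eq_top])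
    have h5 : Odd (Nat.card (Y.comap q)) := by
      rw [← Nat.not_even_iff_odd, even_iff_two_dvd]
      have := h4.2.2
      rwa [h3, Subgroup.relIndex_bot_left] at this
    have h6 : Y.comap q ≤ pPrimeCore 2 X := Solv.le_pPrimeCore hYc (Nat.coprime_two_right.2 h5)
    apply hY0
    rw [eq_bot_iff]
    intro y hy
    obtain ⟨x, rfl⟩ := hqs y
    have h7 : x ∈ q.ker := by rw [hqk]; exact h6 hy
    exact mem_bot.2 h7
  have hlt : Nat.card N₁ ≤ n := by
    by_contra hc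
    apply hN₁ne
    exact Subgroup.eq_of_le_of_card_ge inf_le_left (by omega)
  have hJV₁ := ih N₁ hlt hL
  set V₁ := ncl N₁ V with hV₁
  have hctx : KCtx T H V₁ E := kctx h.syl hV hVQ hsq hN₁H (hQT.trans hTN)
  set M₁ := H ⊓ normalizer (V₁ : Set G) with hM₁
  have hNM₁ : N₁ ≤ M₁ := le_inf hN₁H (norm_ncl N₁ V)
  have hTM₁ : T ≤ M₁ := hTN.trans hNM₁
  have hcV : ∀ x, x ∈ centralizer (V₁ : Set G) → x ∈ normalizer (V₁ : Set G) := fun x hx =>
    H33.cent_le_norm' V₁ hx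
  have hKM₁ : K ≤ M₁ := by
    refine le_inf hKH (sup_le ?_ ?_)
    · exact (hQT.trans hTM₁).trans inf_le_right
    · intro c hc
      exact hcV c (centralizer_le hctx.vE hc.2)
  set M' := (M₁.subgroupOf H).map π with hM'
  have hM'm : ∀ x : H, π x ∈ M' → (x : G) ∈ M₁ := by
    rintro x ⟨m, hm, hmx⟩
    have h1 := (hπe m x).1 hmx
    have h2 : (x : G) = m * ((m : G)⁻¹ * x) := by group
    rw [h2]
    exact M₁.mul_mem hm (hKM₁ h1)
  have hT'M' : T' ≤ M' := Subgroup.map_mono (Subgroup.comap_mono hTM₁)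
  -- chain elements
  have hch : ∀ A ∈ maxEA 2 T, ∀ B' a' x', Chain ((A.subgroupOf H).map π) B' a' x' → x' ∈ M' := by
    intro A hA B' a' x' ch
    have hAe : EA A := EA_iff.2 hA.2.1
    have hAH : A ≤ H := hA.1.trans hTH
    obtain ⟨⟨a, haH⟩, ha, haa'⟩ := ch.aA
    obtain ⟨⟨x, hxH⟩, hxx', hxo⟩ := lift_odd π (hπs x') ch.odd
    rw [Subgroup.orderOf_mk] at hxo
    set B : Subgroup G := A ⊓ (B'.comap π).map H.subtype with hB
    have hVA₁ : V₁ ≤ centralizer (A : Set G) := by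
      rw [← le_centralizer_iff]
      exact (le_sSup hA : A ≤ JJ T).trans hJV₁
    have h1 := hctx.fix hA hVA₁ (B := B) inf_le_left (x := x) (a := a) hxH hxo ha ?_ ?_ (n := orderOf x') ?_ ?_
    · exact ⟨⟨x, hxH⟩, ⟨hxH, hcV x h1⟩, hxx'⟩
    · rintro b ⟨hbA, b', hb', rfl⟩
      have h2 : π (⟨x, hxH⟩ * b' * ⟨x, hxH⟩⁻¹ * b'⁻¹) = 1 := by
        rw [map_mul, map_mul, map_mul, map_inv, map_inv, hxx', ← ch.cent _ hb']; group
      exact (hπk _).1 h2
    · have h2 : π (⟨a, haH⟩ * ⟨x, hxH⟩ * ⟨a, haH⟩⁻¹ * ⟨x, hxH⟩) = 1 := by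
        rw [map_mul, map_mul, map_mul, map_inv, hxx', haa', ch.inv, inv_mul_cancel]
      exact (hπk _).1 h2
    · have h2 : π (⟨x, hxH⟩ ^ orderOf x') = 1 := by rw [map_pow, hxx', pow_orderOf_eq_one]
      exact (hπk _).1 h2
    · intro r k hr hrx hk0 hk
      have h2 : B.relIndex A = B'.relIndex ((A.subgroupOf H).map π) := by
        rw [hB, Subgroup.inf_relIndex_left, ← Subgroup.relIndex_comap]
        have h3 : (A.subgroupOf H).map H.subtype = A := by
          rw [Subgroup.subgroupOf_map_subtype, inf_eq_left.2 hAH]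
        have h4 := Subgroup.relIndex_map_map_of_injective (B'.comap π) (A.subgroupOf H) H.subtype_injective
        rwa [h3] at h4
      rw [h2]
      exact ch.bd r k hr hrx hk0 hk
  -- the Sylow normalizer
  have hNM : normalizer ((T' ⊓ Y.comap q : Subgroup X) : Set X) ≤ M' := by
    intro x' hx'
    obtain ⟨⟨x, hxH⟩, rfl⟩ := hπs x'
    set N := K ⊔ (T ⊓ R') with hN
    have hNR : N ≤ R' := sup_le hKR inf_le_right
    have hTRK : T ⊓ R' ≤ normalizer (K : Set G) := (inf_le_left.trans hTH).trans hKn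
    have hNm : ∀ z : H, (z : G) ∈ N ↔ π z ∈ ((T ⊓ R').subgroupOf H).map π := by
      intro z
      constructor
      · intro hz
        obtain ⟨k, hk, t, ht, hkt⟩ := (H33.mem_sup_left_norm hTRK).1 hz
        refine ⟨⟨t, hTH ht.1⟩, ht, ?_⟩
        rw [hπe]
        change t⁻¹ * (z : G) ∈ K
        rw [hkt]
        have e1 : t⁻¹ * (k * t) = t⁻¹ * k * t := by group
        rw [e1]
        exact (mem_normalizer_iff''.1 (hTRK ht) k).1 hk
      · rintro ⟨t, ht, htz⟩
        have h1 := (hπe t z).1 htz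
        have h2 : (z : G) = t * ((t : G)⁻¹ * z) := by group
        rw [h2]
        exact mul_mem (mem_sup_right ht) (mem_sup_left h1)
    have hxN : x ∈ normalizer (N : Set G) := by
      apply H33.mem_norm_of_le
      rw [H33.cj_le_iff]
      intro z hz
      have hzH : z ∈ H := hR'H (hNR hz)
      have h1 := (hNm ⟨z, hzH⟩).1 hz
      rw [himR] at h1
      have h2 := (mem_normalizer_iff.1 hx' _).1 h1
      rw [← himR, ← map_mul, ← map_inv, ← map_mul] at h2
      exact (hNm _).2 h2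
    have hRN : IsSyl 2 (T ⊓ R') N := hTRs.mono le_sup_right hNR
    obtain ⟨m, hm, hmx⟩ := hRN.frattini hxN
    have hmH : m ∈ H := hR'H (hNR hm)
    have h1 : m * x ∈ M₁ := hNM₁ ⟨H.mul_mem hmH hxH, hmx⟩
    have h2 : N ≤ M₁ := sup_le hKM₁ (inf_le_left.trans hTM₁)
    have h3 : x ∈ M₁ := by
      have e1 : x = m⁻¹ * (m * x) := by group
      rw [e1]
      exact M₁.mul_mem (M₁.inv_mem (h2 hm)) h1
    exact ⟨⟨x, hxH⟩, h3, rfl⟩
  have hTM₁s : IsSyl 2 T M₁ := h.syl.mono hTM₁ inf_le_left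
  -- conjugates
  have key : ∀ A ∈ maxEA 2 T, ∀ r ∈ R', cj r A ≤ centralizer (V₁ : Set G) := by
    intro A hA r hr
    have hrH : r ∈ H := hR'H hr
    have hAH : A ≤ H := hA.1.trans hTH
    have hAe : EA A := EA_iff.2 hA.2.1
    have h1 := alpha hFT hG hfreeX hkcX (A := (A.subgroupOf H).map π) (T := T') (M := M')
      (EA.map' (H62.EA.subgroupOf hAe) π) hT's (Subgroup.map_mono (Subgroup.comap_mono hA.1)) hT'M' (hch A hA)
      q hqs hqk hYn hY0 hYmin hO' hNM (π ⟨r, hrH⟩) ((hR'm ⟨r, hrH⟩).1 hr)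
    have h2 : cj r A ≤ M₁ := by
      rw [H33.cj_le_iff]
      intro a ha
      have h3 := h1 (π ⟨a, hAH ha⟩) ⟨⟨a, hAH ha⟩, ha, rfl⟩
      rw [← map_mul, ← map_inv, ← map_mul] at h3
      exact hM'm _ h3
    obtain ⟨m, hm, hmT⟩ := hTM₁s.conj_le h2 (H33.isPGroup_cj hAe.isPGroup)
    have h3 : cj m (cj r A) ≤ JJ T := by
      rw [← cj_mul] at hmT ⊢
      exact le_sSup (H62.cj_mem_maxEA hA hmT)
    have h4 := cj_mono (g := m⁻¹) (h3.trans hJV₁)
    rw [H33.cj_inv_cj, H33.cj_centralizer] at h4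
    have h5 : cj m⁻¹ V₁ = V₁ := mem_norm_iff.1 (inv_mem hm.2)
    rwa [h5] at h4
  apply H62.JJ_le_of
  intro A hA
  rw [le_centralizer_iff]
  apply ncl_le
  intro x hx
  obtain ⟨r, hr, m, hm, rfl⟩ := frattini' h.syl hR'H hR'n hx
  rw [cj_mul]
  have h1 : cj m V ≤ V₁ := cj_le_ncl hm
  have h2 := key A hA r⁻¹ (inv_mem hr)
  rw [le_centralizer_iff] at h2
  have h3 := cj_mono (g := r) (h1.trans h2)
  rwa [H33.cj_centralizer, H33.cj_cj_inv] at h3

end

end Cfsg.Agent.H33.GF
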