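import Cfsg.Agent.H33.GF14

set_option autoImplicit false
set_option linter.unusedVariables false
set_option linter.unusedSectionVars false
set_option linter.style.haveILetI false
set_option linter.deprecated false

/-!
Elementary abelian subgroups of linear groups without sections `Sym(3)`.
-/

namespace Cfsg.Agent.H33.GF

open Subgroup Cfsg
open H33 (cj mem_cj conj_mem_cj cj_mul cj_mono IsSyl mem_norm_iff)
open H34 (fixedBy mem_fixedBy fixedBy_anti maxEA)
open H62 (EA EA_iff Quad ncl o2 omZ cj_le_ncl le_ncl ncl_le ncl_le_of_norm norm_ncl EA_ncl norm_o2 o2_le isPGroup_o2 le_o2 JJ)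

universe u

section

variable {X : Type u} [Group X] [Finite X]

theorem offender_bound (hFT : FT.{u}) (hG : GI.{u}) (hfree : ¬ Involves (Equiv.Perm (Fin 3)) X) (hkc : KC X)
    (h2 : pCore 2 X = ⊥) {U : Type*} [CommGroup U] [Finite U] (hU : ∀ u : U, u * u = 1) (φ : X →* MulAut U)
    (hφ : Function.Injective φ) : ∀ (n : ℕ) (A : Subgroup X), Nat.card A ≤ n → EA A →
      Nat.card A ^ 2 * Nat.card (fixedBy (A.map φ)) ≤ Nat.card U := by
  classical
  haveI : Fact (Nat.Prime 2) := ⟨Nat.prime_two⟩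
  intro n
  induction n with
  | zero => intro A h; exact absurd (Nat.card_pos (α := A)) (by omega)
  | succ n ih =>
  intro A hn hA
  by_cases hA0 : A = ⊥
  · rw [hA0, Subgroup.card_bot, one_pow, one_mul]
    exact Nat.le_of_dvd Nat.card_pos (Subgroup.card_subgroup_dvd_card _)
  obtain ⟨B, a, x, ch⟩ := G1 hFT hG hfree hkc h2 hA hA0
  have hBA := ch.BA
  have haB : a ∉ B := by
    intro h
    have h1 := ch.cent a h
    have h3 := ch.inv
    rw [h1, mul_inv_cancel_right] at h3
    apply H62.pow_two_pow_ne_one ch.ne ch.odd 1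
    rw [pow_one, sq]
    nth_rewrite 1 [h3]
    exact inv_mul_cancel x
  have hBn : Nat.card B ≤ n := by
    by_contra hc
    apply haB
    have h1 := Subgroup.eq_of_le_of_card_ge hBA (by omega)
    rw [h1]; exact ch.aA
  have hBe := hA.mono hBA
  have ihB := ih B hBn hBe
  set F := fixedBy (B.map φ) with hF
  set FA := fixedBy (A.map φ) with hFA
  have hFAF : FA ≤ F := fixedBy_anti (Subgroup.map_mono hBA)
  have hFm : ∀ u, u ∈ F ↔ ∀ b ∈ B, φ b u = u := by
    intro u
    rw [hF, mem_fixedBy]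
    constructor
    · intro h b hb; exact h _ ⟨b, hb, rfl⟩
    · rintro h _ ⟨b, hb, rfl⟩; exact h b hb
  have hpres : ∀ g : X, (∀ b ∈ B, Commute b g) → ∀ u ∈ F, φ g u ∈ F := by
    intro g hg u hu
    rw [hFm] at hu ⊢
    intro b hb
    rw [← MulAut.mul_apply, ← map_mul, (hg b hb).eq, map_mul, MulAut.mul_apply, hu b hb]
  have hxF := hpres x ch.cent
  have haF := hpres a (fun b hb => hA.1 b (hBA hb) a ch.aA)
  have hpow : ∀ t : ℕ, ∀ u ∈ F, φ (x ^ t) u ∈ F := fun t => hpres (x ^ t) (fun b hb =>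
    (show Commute b x from ch.cent b hb).pow_right t)
  -- the subgroup acting trivially on `F`
  let D : Subgroup X :=
    { carrier := {y | ∀ u ∈ F, φ y u = u}
      one_mem' := fun u _ => by rw [map_one]; rfl
      mul_mem' := fun {y z} hy hz u hu => by rw [map_mul, MulAut.mul_apply, hz u hu, hy u hu]
      inv_mem' := fun {y} hy u hu => by
        rw [map_inv]
        calc (φ y)⁻¹ u = (φ y)⁻¹ (φ y u) := by rw [hy u hu]
          _ = u := by rw [← MulAut.mul_apply, inv_mul_cancel]; rfl }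
  have hxD : x ∉ D := by
    intro h
    have h1 : φ x = 1 := by
      apply H62.axb hU (B.map φ) ((hBe.isPGroup).map φ) (φ x)
      · exact ch.odd.of_dvd_nat (orderOf_map_dvd φ x)
      · rintro _ ⟨b, hb, rfl⟩
        rw [← map_mul, ch.cent b hb, map_mul]
      · intro u hu
        refine h u ((hFm u).2 fun b hb => hu _ ⟨b, hb, rfl⟩)
    rw [← map_one φ] at h1
    exact ch.ne (hφ h1)
  obtain ⟨r, s, t, hr, hrt, hst, htD⟩ : ∃ r s t : ℕ, r.Prime ∧ ¬ r ∣ t ∧ orderOf x = r ^ s * t ∧ x ^ t ∉ D := by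
    by_contra hcon
    apply hxD
    apply mem_of_parts
    intro r s t hr hrt hst
    by_contra hno
    exact hcon ⟨r, s, t, hr, hrt, hst, hno⟩
  haveI : Fact r.Prime := ⟨hr⟩
  have hs0 : s ≠ 0 := by
    rintro rfl
    rw [pow_zero, one_mul] at hst
    apply htD
    rw [← hst, pow_orderOf_eq_one]; exact one_mem _
  have hrx : r ∣ orderOf x := by
    rw [hst]; exact Dvd.dvd.mul_right (dvd_pow_self r hs0) t
  have hr2 : r ≠ 2 := by
    rintro rfl
    exact absurd (ch.odd.of_dvd_nat hrx) (by decide)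
  have ht0 : t ≠ 0 := by rintro rfl; exact hrt (dvd_zero r)
  have hoz : orderOf (x ^ t) = r ^ s := by
    rw [orderOf_pow_of_dvd ht0 (by rw [hst]; exact Dvd.intro_left _ rfl), hst]
    exact Nat.mul_div_cancel _ (Nat.pos_of_ne_zero ht0)
  obtain ⟨k, hk0, hk, hkF⟩ := fx_relIndex hU hr2 (x := φ (x ^ t)) (by
      obtain ⟨e, -, he⟩ := (Nat.dvd_prime_pow hr).1 (show orderOf (φ (x ^ t)) ∣ r ^ s by
        rw [← hoz]; exact orderOf_map_dvd φ _)
      exact ⟨e, he⟩) F (hpow t) (by
      by_contra hcon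
      apply htD
      intro u hu
      by_contra hne
      exact hcon ⟨u, hu, hne⟩)
  have hbd := ch.bd r k hr hrx hk0 hk
  set m := B.relIndex A with hm
  set i := FA.relIndex F with hi
  -- 2^k ≤ i^2
  have ha2 := hA.2 a ch.aA
  have hai : a⁻¹ = a := inv_eq_of_mul_eq_one_left ha2
  have hki : 2 ^ k ≤ i ^ 2 := by
    set Fa := fx1 (φ a) with hFa
    set Fb := fx1 (φ (x * a * x⁻¹)) with hFb
    have h3 : Fa ⊓ Fb ≤ fx1 (φ (x ^ t)) := by
      rintro u ⟨hu1, hu2⟩
      replace hu1 : φ a u = u := hu1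
      replace hu2 : φ (x * a * x⁻¹) u = u := hu2
      rw [mem_fx1]
      obtain ⟨e, he⟩ := ch.odd
      have h4 : x = ((x * a * x⁻¹) * a) ^ (e + 1) := by
        have h5 : (x * a * x⁻¹) * a = x ^ 2 := by
          have h6 : a * x⁻¹ * a⁻¹ = x := by
            have := congrArg (·⁻¹) ch.inv
            simpa [mul_assoc] using this
          calc (x * a * x⁻¹) * a = x * (a * x⁻¹ * a⁻¹) := by rw [hai]; group
            _ = x ^ 2 := by rw [h6, sq]
        rw [h5, ← pow_mul]
        have : 2 * (e + 1) = orderOf x + 1 := by rw [he]; ring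
        rw [this, pow_succ, pow_orderOf_eq_one, one_mul]
      let S : Subgroup X :=
        { carrier := {y | φ y u = u}
          one_mem' := by simp
          mul_mem' := fun {y z} hy hz => by
            simp only [Set.mem_setOf_eq] at *
            rw [map_mul, MulAut.mul_apply, hz, hy]
          inv_mem' := fun {y} hy => by
            simp only [Set.mem_setOf_eq] at *
            rw [map_inv]
            calc (φ y)⁻¹ u = (φ y)⁻¹ (φ y u) := by rw [hy]
              _ = u := by rw [← MulAut.mul_apply, inv_mul_cancel]; rfl }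
      have h5 : x ∈ S := by
        rw [h4]
        exact pow_mem (mul_mem (show _ ∈ S from hu2) (show a ∈ S from hu1)) _
      exact pow_mem h5 t
    have h4 : Fa.relIndex F ≤ i := by
      apply Subgroup.relIndex_le_of_le_left _ (H62.relIndex_ne_zero' _ _)
      intro u hu
      exact hu _ ⟨a, ch.aA, rfl⟩
    have hFx : F.map (φ x).toMonoidHom = F := by
      apply Subgroup.eq_of_le_of_card_ge
      · rintro _ ⟨u, hu, rfl⟩
        exact hxF u hu
      · rw [Subgroup.card_map_of_injective (f := (φ x).toMonoidHom) (φ x).injective]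
    have hFbx : Fa.map (φ x).toMonoidHom = Fb := by
      ext u
      constructor
      · rintro ⟨v, hv, rfl⟩
        rw [hFb, mem_fx1]
        change φ (x * a * x⁻¹) (φ x v) = φ x v
        rw [← MulAut.mul_apply, ← map_mul]
        have e1 : x * a * x⁻¹ * x = x * a := by group
        rw [e1, map_mul, MulAut.mul_apply]
        have : φ a v = v := hv
        rw [this]
      · intro hu
        rw [hFb, mem_fx1] at hu
        refine ⟨φ x⁻¹ u, ?_, ?_⟩
        · change φ a (φ x⁻¹ u) = φ x⁻¹ u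
          conv_rhs => rw [← hu]
          rw [← MulAut.mul_apply, ← MulAut.mul_apply, ← map_mul, ← map_mul]
          have e1 : x⁻¹ * (x * a * x⁻¹) = a * x⁻¹ := by group
          rw [e1]
        · change φ x (φ x⁻¹ u) = u
          rw [← MulAut.mul_apply, ← map_mul, mul_inv_cancel, map_one]; rfl
    have h5 : Fb.relIndex F = Fa.relIndex F := by
      rw [← hFbx]
      conv_lhs => rw [← hFx]
      exact Subgroup.relIndex_map_map_of_injective Fa F (f := (φ x).toMonoidHom) (φ x).injective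
    calc 2 ^ k = (fx1 (φ (x ^ t))).relIndex F := hkF.symm
      _ ≤ (Fa ⊓ Fb).relIndex F := Subgroup.relIndex_le_of_le_left h3 (H62.relIndex_ne_zero' _ _)
      _ ≤ Fa.relIndex F * Fb.relIndex F := Subgroup.relIndex_inf_le
      _ ≤ i * i := by rw [h5]; exact Nat.mul_le_mul h4 h4
      _ = i ^ 2 := (sq i).symm
  have e1 := H62.card_mul_relIndex' hBA
  have e2 := H62.card_mul_relIndex' hFAF
  rw [← hm] at e1
  rw [← hi] at e2
  obtain ⟨d, hd⟩ : ∃ d, m = 2 ^ d := by
    obtain ⟨c, hc⟩ := IsPGroup.iff_card.1 hA.isPGroup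
    obtain ⟨d, -, hd⟩ := (Nat.dvd_prime_pow Nat.prime_two).1 (show m ∣ 2 ^ c by
      rw [← hc]; exact ⟨Nat.card B, by rw [mul_comm]; exact e1.symm⟩)
    exact ⟨d, hd⟩
  obtain ⟨c, hc⟩ : ∃ c, i = 2 ^ c := by
    obtain ⟨c, hc⟩ := IsPGroup.iff_card.1 ((isPGroup_U hU).to_subgroup F)
    obtain ⟨d, -, hd⟩ := (Nat.dvd_prime_pow Nat.prime_two).1 (show i ∣ 2 ^ c by
      rw [← hc]; exact ⟨Nat.card FA, by rw [mul_comm]; exact e2.symm⟩)
    exact ⟨d, hd⟩
  have hmi : m ^ 2 ≤ i := by
    have h3 : m ^ 4 < 4 * i ^ 2 := by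
      calc m ^ 4 < 4 * 2 ^ k := hbd
        _ ≤ 4 * i ^ 2 := Nat.mul_le_mul_left _ hki
    rw [hd, hc, ← pow_mul, ← pow_mul] at h3
    have h4 : 4 * 2 ^ (c * 2) = 2 ^ (c * 2 + 2) := by rw [pow_add]; ring
    rw [h4] at h3
    have h5 := (Nat.pow_lt_pow_iff_right (by norm_num : 1 < 2)).1 h3
    rw [hd, hc, ← pow_mul]
    exact Nat.pow_le_pow_right (by norm_num) (by omega)
  calc Nat.card A ^ 2 * Nat.card FA = Nat.card B ^ 2 * (m ^ 2 * Nat.card FA) := by rw [← e1]; ring
    _ ≤ Nat.card B ^ 2 * (i * Nat.card FA) := Nat.mul_le_mul_left _ (Nat.mul_le_mul_right _ hmi)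
    _ = Nat.card B ^ 2 * Nat.card F := by rw [mul_comm i, e2]
    _ ≤ Nat.card U := ihB

end

end Cfsg.Agent.H33.GF
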