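import Cfsg.Agent.H33.GF16

set_option autoImplicit false
set_option linter.unusedVariables false
set_option linter.unusedSectionVars false
set_option linter.style.haveILetI false
set_option linter.deprecated false

/-!
The dual inequality.
-/

namespace Cfsg.Agent.H33.GF

open Subgroup Cfsg
open H33 (cj mem_cj conj_mem_cj cj_mul cj_mono IsSyl mem_norm_iff)
open H34 (fixedBy mem_fixedBy fixedBy_anti maxEA)
open H62 (EA EA_iff Quad ncl o2 omZ cj_le_ncl le_ncl ncl_le ncl_le_of_norm norm_ncl EA_ncl norm_o2 o2_le isPGroup_o2 le_o2 JJ)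

universe u

section

variable {X : Type u} [Group X] [Finite X]

/-- the dual group -/
def Dl (U : Type*) [CommGroup U] : Type _ := U →* ℂˣ

noncomputable instance (U : Type*) [CommGroup U] : CommGroup (Dl U) := inferInstanceAs (CommGroup (U →* ℂˣ))

instance (U : Type*) [CommGroup U] [Finite U] : Finite (Dl U) := inferInstanceAs (Finite (U →* ℂˣ))

/-- evaluation -/
def Dl.ev {U : Type*} [CommGroup U] (f : Dl U) : U →* ℂˣ := f

theorem Dl.ext {U : Type*} [CommGroup U] {f g : Dl U} (h : ∀ u, f.ev u = g.ev u) : f = g := MonoidHom.ext h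

theorem Dl.mul_ev {U : Type*} [CommGroup U] (f g : Dl U) (u : U) : (f * g).ev u = f.ev u * g.ev u := rfl

theorem Dl.one_ev {U : Type*} [CommGroup U] (u : U) : (1 : Dl U).ev u = 1 := rfl

theorem card_Dl (U : Type*) [CommGroup U] [Finite U] : Nat.card (Dl U) = Nat.card U :=
  CommGroup.card_monoidHom_of_hasEnoughRootsOfUnity U ℂ

/-- the action on the dual group -/
def dualAut {U : Type*} [CommGroup U] (σ : MulAut U) : MulAut (Dl U) where
  toFun f := (f.ev.comp (σ⁻¹ : MulAut U).toMonoidHom : U →* ℂˣ)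
  invFun f := (f.ev.comp (σ : MulAut U).toMonoidHom : U →* ℂˣ)
  left_inv f := by
    apply Dl.ext
    intro u
    change f.ev (σ⁻¹ (σ u)) = f.ev u
    rw [← MulAut.mul_apply, inv_mul_cancel]; rfl
  right_inv f := by
    apply Dl.ext
    intro u
    change f.ev (σ (σ⁻¹ u)) = f.ev u
    rw [← MulAut.mul_apply, mul_inv_cancel]; rfl
  map_mul' f g := rfl

theorem dualAut_apply {U : Type*} [CommGroup U] (σ : MulAut U) (f : Dl U) (u : U) :
    (dualAut σ f).ev u = f.ev (σ⁻¹ u) := rfl

def dualHom (U : Type*) [CommGroup U] : MulAut U →* MulAut (Dl U) where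
  toFun := dualAut
  map_one' := by
    ext f
    apply Dl.ext
    intro u
    rw [dualAut_apply, inv_one]; rfl
  map_mul' σ τ := by
    ext f
    apply Dl.ext
    intro u
    rw [MulAut.mul_apply, dualAut_apply, dualAut_apply, dualAut_apply, mul_inv_rev, MulAut.mul_apply]

theorem dualHom_injective (U : Type*) [CommGroup U] [Finite U] : Function.Injective (dualHom U) := by
  rw [injective_iff_map_eq_one]
  intro σ hσ
  ext u
  rw [MulAut.one_apply]
  by_contra hne
  have h1 : σ u * u⁻¹ ≠ 1 := fun h => hne (mul_inv_eq_one.1 h)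
  obtain ⟨f, hf⟩ := CommGroup.exists_apply_ne_one_of_hasEnoughRootsOfUnity U ℂ h1
  apply hf
  have h2 := DFunLike.congr_fun hσ (f : Dl U)
  have h3 := congrArg (fun g : Dl U => g.ev (σ u)) h2
  change f (σ⁻¹ (σ u)) = f (σ u) at h3
  rw [← MulAut.mul_apply, inv_mul_cancel] at h3
  change f u = f (σ u) at h3
  rw [map_mul, map_inv, h3, mul_inv_cancel]

theorem offender_bound2 (hFT : FT.{u}) (hG : GI.{u}) (hfree : ¬ Involves (Equiv.Perm (Fin 3)) X) (hkc : KC X)
    (h2 : pCore 2 X = ⊥) {U : Type*} [CommGroup U] [Finite U] (hU : ∀ u : U, u * u = 1) (φ : X →* MulAut U)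
    (hφ : Function.Injective φ) {A : Subgroup X} (hA : EA A) {D : Subgroup U} (hD : ∀ a ∈ A, ∀ u, φ a u * u⁻¹ ∈ D) :
    Nat.card A ^ 2 ≤ Nat.card D := by
  classical
  have h1 := offender_bound hFT hG hfree hkc h2 (U := Dl U) (by
      intro f
      apply Dl.ext
      intro u
      rw [Dl.mul_ev, Dl.one_ev, ← map_mul, hU, map_one]) ((dualHom U).comp φ) ((dualHom_injective U).comp hφ) _ A le_rfl hA
  rw [card_Dl] at h1
  set F := fixedBy (A.map ((dualHom U).comp φ)) with hF
  have h3 : D.index ≤ Nat.card F := by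
    have h4 : D.index = Nat.card (Dl (U ⧸ D)) := by
      rw [card_Dl]; rfl
    rw [h4]
    let g : Dl (U ⧸ D) → Dl U := fun f => (f.ev.comp (QuotientGroup.mk' D) : U →* ℂˣ)
    have hmem : ∀ f : Dl (U ⧸ D), g f ∈ F := by
      intro f
      rw [hF, mem_fixedBy]
      rintro _ ⟨a, ha, rfl⟩
      apply Dl.ext
      intro u
      change f.ev (QuotientGroup.mk' D ((φ a)⁻¹ u)) = f.ev (QuotientGroup.mk' D u)
      congr 1
      rw [QuotientGroup.mk'_apply, QuotientGroup.mk'_apply, QuotientGroup.eq]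
      have h5 := hD a⁻¹ (inv_mem ha) u
      rw [map_inv] at h5
      have h6 := inv_mem h5
      have h7 : ((φ a)⁻¹ u * u⁻¹)⁻¹ = ((φ a)⁻¹ u)⁻¹ * u := by rw [mul_inv_rev, inv_inv, mul_comm]
      rw [h7] at h6
      exact h6
    refine Nat.card_le_card_of_injective (fun f => (⟨g f, hmem f⟩ : F)) ?_
    intro f f' hfg
    have h5 : g f = g f' := congrArg Subtype.val hfg
    apply Dl.ext
    intro u
    obtain ⟨u, rfl⟩ := QuotientGroup.mk'_surjective D u
    exact congrArg (fun g : Dl U => g.ev u) h5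
  have h5 := D.card_mul_index
  have h6 : Nat.card A ^ 2 * D.index ≤ Nat.card D * D.index := by
    rw [h5]
    exact le_trans (Nat.mul_le_mul_left _ h3) h1
  exact Nat.le_of_mul_le_mul_right h6 (Nat.pos_of_ne_zero D.index_ne_zero_of_finite)

/-- the version for subgroups of a group -/
theorem bound_group (hFT : FT.{u}) (hG : GI.{u}) {L : Type u} [Group L] [Finite L] {M G A : Subgroup L} (hM : EA M)
    (hGM : G ≤ normalizer (M : Set L)) (hf : G ⊓ centralizer (M : Set L) = ⊥) (h2 : pCore 2 G = ⊥)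
    (hfree : ¬ Involves (Equiv.Perm (Fin 3)) G) (hkc : KC G) (hA : A ≤ G) (hAe : EA A) :
    Nat.card A ^ 2 * Nat.card (M ⊓ centralizer (A : Set L) : Subgroup L) ≤ Nat.card M ∧
      Nat.card A ^ 2 ≤ Nat.card (⁅M, A⁆ : Subgroup L) := by
  obtain ⟨U, i1, i2, π, φ, hU, hφ⟩ := exists_rep hGM hM
  have hinj : Function.Injective φ := by
    rw [← MonoidHom.ker_eq_bot_iff, ker_rep π φ hφ hGM, eq_bot_iff]
    intro x hx
    have h3 : (x : L) ∈ G ⊓ centralizer (M : Set L) := ⟨x.2, hx⟩
    rw [hf, mem_bot] at h3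
    exact mem_bot.2 (Subtype.ext h3)
  have hAs : EA (A.subgroupOf G) := H62.EA.subgroupOf hAe
  have hc : Nat.card (A.subgroupOf G) = Nat.card A := Nat.card_congr (Subgroup.subgroupOfEquivOfLe hA).toEquiv
  constructor
  · have h1 := offender_bound hFT hG hfree hkc h2 hU φ hinj _ (A.subgroupOf G) le_rfl hAs
    rw [hc] at h1
    have h3 := card_fixedBy_im π φ hφ hGM hA
    unfold im at h3
    rw [h3, ← Nat.card_congr π.toEquiv] at h1
    exact h1
  · have hMA : ⁅M, A⁆ ≤ M := by
      rw [commutator_le]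
      intro m hm a ha
      rw [commutatorElement_def]
      have e1 : m * a * m⁻¹ * a⁻¹ = m * (a * m⁻¹ * a⁻¹) := by group
      rw [e1]
      exact mul_mem hm ((mem_normalizer_iff.1 (hGM (hA ha)) _).1 (inv_mem hm))
    have h1 := offender_bound2 hFT hG hfree hkc h2 hU φ hinj hAs (D := (⁅M, A⁆.subgroupOf M).map π.toMonoidHom) (by
      intro a ha u
      obtain ⟨m, rfl⟩ := π.surjective u
      rw [rep_apply π φ hφ hGM]
      refine ⟨⟨(a : L) * m * (a : L)⁻¹, (mem_normalizer_iff.1 (hGM a.2) _).1 m.2⟩ * m⁻¹, ?_, ?_⟩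
      · change (a : L) * m * (a : L)⁻¹ * (m : L)⁻¹ ∈ ⁅M, A⁆
        rw [commutator_comm]
        have := commutator_mem_commutator (H₁ := A) (H₂ := M) (g₁ := (a : L)) (g₂ := (m : L)) ha m.2
        rwa [commutatorElement_def] at this
      · change π _ = _
        rw [map_mul, map_inv])
    rw [hc] at h1
    refine h1.trans ?_
    rw [Subgroup.card_map_of_injective (f := π.toMonoidHom) π.injective]
    exact (Nat.card_congr (Subgroup.subgroupOfEquivOfLe hMA).toEquiv).le

end

end Cfsg.Agent.H33.GF
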