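import Cfsg.Agent.H33.GF17

set_option autoImplicit false
set_option linter.unusedVariables false
set_option linter.unusedSectionVars false
set_option linter.style.haveILetI false
set_option linter.deprecated false

/-!
Inequalities for reduced modules inside a group.
-/

namespace Cfsg.Agent.H33.GF

open Subgroup Cfsg
open H33 (cj mem_cj conj_mem_cj cj_mul cj_mono IsSyl mem_norm_iff)
open H34 (fixedBy mem_fixedBy fixedBy_anti maxEA)
open H62 (EA EA_iff Quad ncl o2 omZ cj_le_ncl le_ncl ncl_le ncl_le_of_norm norm_ncl EA_ncl norm_o2 o2_le isPGroup_o2 le_o2 JJ)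

universe u

section

variable {G : Type u} [Group G] [Finite G]

/-- `O₂(H/C_H(Z^H)) = 1` for a subgroup centralized by a Sylow 2-subgroup -/
theorem reduced' {T H D Z : Subgroup G} (hs : IsSyl 2 T H) (hZ : Z ≤ centralizer (T : Set G)) (hDH : D ≤ H)
    (hn : H ≤ normalizer (D : Set G)) (hD : ∀ d ∈ D, ∃ k : ℕ, d ^ 2 ^ k ∈ centralizer (ncl H Z : Set G)) :
    D ≤ centralizer (ncl H Z : Set G) := by
  haveI : Fact (Nat.Prime 2) := ⟨Nat.prime_two⟩
  set V := ncl H Z with hV
  have hsyl : IsSyl 2 (T ⊓ D) D := hs.inf_normal hDH hn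
  have h1 : D ≤ centralizer (Z : Set G) := by
    set K := D ⊓ centralizer (Z : Set G) with hK
    have hKD : K ≤ D := inf_le_left
    have hTK : T ⊓ D ≤ K := by
      rintro t ⟨ht, htD⟩
      refine ⟨htD, mem_centralizer_iff.2 ?_⟩
      intro z hz
      exact (mem_centralizer_iff.1 (hZ hz) t ht).symm
    have hodd : ¬ 2 ∣ K.relIndex D := by
      intro h2
      apply hsyl.2.2
      rw [← Subgroup.relIndex_mul_relIndex _ _ _ hTK hKD]
      exact Dvd.dvd.mul_left h2 _
    set C := D ⊓ centralizer (V : Set G) with hC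
    have hVH : H ≤ normalizer (V : Set G) := norm_ncl _ _
    have hCn : (C.subgroupOf D).Normal := by
      apply H62.normal_subgroupOf
      intro d hd
      apply H33.norm_inf (le_normalizer hd)
      exact H33.norm_le_norm_cent V (hVH (hDH hd))
    have hp : IsPGroup 2 (D ⧸ C.subgroupOf D) := by
      intro x
      obtain ⟨d, rfl⟩ := QuotientGroup.mk_surjective x
      obtain ⟨k, hk⟩ := hD d d.2
      refine ⟨k, ?_⟩
      rw [← QuotientGroup.mk_pow, QuotientGroup.eq_one_iff]
      exact ⟨(d ^ 2 ^ k).2, hk⟩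
    obtain ⟨k, hk⟩ := IsPGroup.iff_card.1 hp
    rw [← Subgroup.index_eq_card] at hk
    have hCK : C ≤ K := inf_le_inf_left _ (centralizer_le (le_ncl _ _))
    have hdvd : K.relIndex D ∣ 2 ^ k := by
      rw [← hk]
      change _ ∣ C.relIndex D
      rw [← Subgroup.relIndex_mul_relIndex _ _ _ hCK hKD]
      exact Dvd.intro_left _ rfl
    obtain ⟨j, _, hj⟩ := (Nat.dvd_prime_pow Nat.prime_two).1 hdvd
    have hj0 : j = 0 := by
      by_contra hne
      apply hodd
      rw [hj]
      exact dvd_pow_self 2 hne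
    rw [hj0, pow_zero, Subgroup.relIndex_eq_one] at hj
    exact hj.trans inf_le_right
  rw [le_centralizer_iff]
  apply ncl_le
  intro x hx a ha
  rw [mem_centralizer_iff]
  intro d hd
  have ha' : x⁻¹ * a * x ∈ Z := mem_cj.1 ha
  have hd' : x⁻¹ * d * x ∈ D := (mem_normalizer_iff''.1 (hn hx) d).1 hd
  have h3 := mem_centralizer_iff.1 (h1 hd') _ ha'
  calc d * a = x * ((x⁻¹ * d * x) * (x⁻¹ * a * x)) * x⁻¹ := by group
    _ = x * ((x⁻¹ * a * x) * (x⁻¹ * d * x)) * x⁻¹ := by rw [h3]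
    _ = a * d := by group

/-- an element of odd order centralizing `Ω₁(A)` centralizes the abelian 2-group `A` -/
theorem odd_cent {A : Subgroup G} (hab : ∀ a ∈ A, ∀ b ∈ A, a * b = b * a) (hA : IsPGroup 2 A) {x : G}
    (hxA : x ∈ normalizer (A : Set G)) (hx : Odd (orderOf x)) (h : ∀ a ∈ A, a * a = 1 → x * a = a * x) :
    ∀ a ∈ A, x * a = a * x := by
  have key : ∀ n : ℕ, ∀ a ∈ A, a ^ 2 ^ n = 1 → x * a = a * x := by
    intro n
    induction n with
    | zero =>
      intro a _ h1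
      rw [pow_zero, pow_one] at h1
      rw [h1]; simp
    | succ n ih =>
      intro a ha h1
      have h2 : x * (a * a) = (a * a) * x := by
        apply ih _ (mul_mem ha ha)
        rw [← sq, ← pow_mul, ← pow_succ']; exact h1
      have hx' : x * a * x⁻¹ ∈ A := (mem_normalizer_iff.1 hxA a).1 ha
      set i := x * a * x⁻¹ * a⁻¹ with hi
      have hiA : i ∈ A := mul_mem hx' (inv_mem ha)
      have hi2 : i * i = 1 := by
        have h3 := hab _ (inv_mem ha) _ hx'
        calc i * i = (x * a * x⁻¹) * (a⁻¹ * (x * a * x⁻¹)) * a⁻¹ := by rw [hi]; group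
          _ = (x * a * x⁻¹) * ((x * a * x⁻¹) * a⁻¹) * a⁻¹ := by rw [h3]
          _ = (x * (a * a)) * x⁻¹ * (a * a)⁻¹ := by group
          _ = 1 := by rw [h2]; group
      refine H62.coprime_step hx hi.symm (h i hiA hi2) ⟨1, by rw [pow_one, sq]; exact hi2⟩
  intro a ha
  obtain ⟨k, hk⟩ := hA ⟨a, ha⟩
  exact key k a ha (congrArg Subtype.val hk)

/-- the inequalities for a reduced module -/
theorem bound_quad (hFT : FT.{u}) (hG : GI.{u}) {H W : Subgroup G} (hW : EA W) (hHW : H ≤ normalizer (W : Set G))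
    (hfree : ¬ Involves (Equiv.Perm (Fin 3)) H) (hkc : KC H)
    (hred : ∀ D ≤ H, H ≤ normalizer (D : Set G) → (∀ d ∈ D, ∃ k : ℕ, d ^ 2 ^ k ∈ centralizer (W : Set G)) →
      D ≤ centralizer (W : Set G)) {R : Subgroup G} (hR : R ≤ H) (hq : Quad R W) :
    ((R ⊓ centralizer (W : Set G)).relIndex R) ^ 2 ≤ (W ⊓ centralizer (R : Set G)).relIndex W ∧
      ((R ⊓ centralizer (W : Set G)).relIndex R) ^ 2 ≤ Nat.card (⁅W, R⁆ : Subgroup G) := by
  classical
  obtain ⟨U, i1, i2, π, φ, hU, hφ⟩ := exists_rep hHW hW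
  have hker := ker_rep π φ hφ hHW
  set X := φ.range with hX
  set φ' := φ.rangeRestrict with hφ'
  have hφs : Function.Surjective φ' := φ.rangeRestrict_surjective
  have h2 : pCore 2 X = ⊥ := by
    set D := ((pCore 2 X).comap φ').map H.subtype with hD
    have hDH : D ≤ H := Subgroup.map_subtype_le _
    have hDn : H ≤ normalizer (D : Set G) := by
      intro x hx
      apply H33.mem_norm_of_le
      rw [H33.cj_le_iff]
      rintro _ ⟨z, hz, rfl⟩
      refine ⟨⟨x, hx⟩ * z * ⟨x, hx⟩⁻¹, ?_, rfl⟩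
      rw [SetLike.mem_coe, mem_comap, map_mul, map_mul, map_inv]
      exact (inferInstance : (pCore 2 X).Normal).conj_mem _ hz _
    have h3 := hred D hDH hDn (by
      rintro _ ⟨d, hd, rfl⟩
      obtain ⟨k, hk⟩ := (Solv.pCore_isPGroup (G := X) 2) ⟨φ' d, hd⟩
      refine ⟨k, ?_⟩
      have h4 : φ (d ^ 2 ^ k) = 1 := by
        rw [map_pow]
        exact congrArg (fun y : (pCore 2 X : Subgroup X) => ((y : X) : MulAut U)) hk
      have h5 : d ^ 2 ^ k ∈ φ.ker := h4
      rw [hker] at h5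
      exact h5)
    rw [eq_bot_iff]
    intro x hx
    obtain ⟨d, rfl⟩ := hφs x
    have h4 : (d : G) ∈ D := ⟨d, hx, rfl⟩
    have h5 : d ∈ φ.ker := by rw [hker]; exact h3 h4
    rw [mem_bot]
    exact Subtype.ext h5
  have hfreeX : ¬ Involves (Equiv.Perm (Fin 3)) X := fun hi => hfree (H46.involves_of_surj hi φ' hφs)
  have hkcX : KC X := hkc.surj φ' hφs
  set A : Subgroup X := (im φ R).subgroupOf X with hA
  have himX : im φ R ≤ X := by
    intro f hf
    obtain ⟨k, hk, rfl⟩ := (mem_im φ).1 hf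
    exact ⟨k, rfl⟩
  have hkerm : ∀ y (hy : y ∈ H), y ∈ centralizer (W : Set G) → φ ⟨y, hy⟩ = 1 := by
    intro y hy h1
    have h3 : (⟨y, hy⟩ : H) ∈ φ.ker := by rw [hker]; exact h1
    exact h3
  have hAe : EA A := by
    apply H62.EA.subgroupOf
    constructor
    · intro f hf g hg
      obtain ⟨k, hk, rfl⟩ := (mem_im φ).1 hf
      obtain ⟨l, hl, rfl⟩ := (mem_im φ).1 hg
      have h3 := hkerm _ (mul_mem (mul_mem (mul_mem k.2 l.2) (inv_mem k.2)) (inv_mem l.2)) (hq.1 k hk l hl)
      have h4 : φ (k * l * k⁻¹ * l⁻¹) = 1 := h3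
      rw [map_mul, map_mul, map_mul, map_inv, map_inv] at h4
      calc φ k * φ l = (φ k * φ l * (φ k)⁻¹ * (φ l)⁻¹) * (φ l * φ k) := by group
        _ = φ l * φ k := by rw [h4, one_mul]
    · intro f hf
      obtain ⟨k, hk, rfl⟩ := (mem_im φ).1 hf
      have h3 := hkerm _ (mul_mem k.2 k.2) (hq.2 k hk)
      have h4 : φ (k * k) = 1 := h3
      rwa [map_mul] at h4
  have hmapA : A.map X.subtype = im φ R := by
    rw [hA, Subgroup.subgroupOf_map_subtype, inf_eq_left.2 himX]
  have hcardA : Nat.card A = (R ⊓ centralizer (W : Set G)).relIndex R := by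
    rw [← card_im π φ hφ hHW hR]
    exact Nat.card_congr (Subgroup.subgroupOfEquivOfLe himX).toEquiv
  constructor
  · have h1 := offender_bound hFT hG hfreeX hkcX h2 hU X.subtype X.subtype_injective _ A le_rfl hAe
    rw [hmapA, card_fixedBy_im π φ hφ hHW hR, hcardA, ← Nat.card_congr π.toEquiv] at h1
    have h3 := H62.card_mul_relIndex' (inf_le_left : W ⊓ centralizer (R : Set G) ≤ W)
    rw [← h3, mul_comm] at h1
    exact Nat.le_of_mul_le_mul_left h1 Nat.card_pos
  · have hMA : (⁅W, R⁆ : Subgroup G) ≤ W := by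
      rw [commutator_le]
      intro m hm a ha
      rw [commutatorElement_def]
      have e1 : m * a * m⁻¹ * a⁻¹ = m * (a * m⁻¹ * a⁻¹) := by group
      rw [e1]
      exact mul_mem hm ((mem_normalizer_iff.1 (hHW (hR ha)) _).1 (inv_mem hm))
    have h1 := offender_bound2 hFT hG hfreeX hkcX h2 hU X.subtype X.subtype_injective hAe
      (D := ((⁅W, R⁆ : Subgroup G).subgroupOf W).map π.toMonoidHom) (by
      intro f hf u
      obtain ⟨a, ha, haf⟩ := (mem_im φ).1 (show (f : MulAut U) ∈ im φ R from hf)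
      obtain ⟨m, rfl⟩ := π.surjective u
      change (f : MulAut U) (π m) * (π m)⁻¹ ∈ _
      rw [← haf, rep_apply π φ hφ hHW]
      refine ⟨⟨(a : G) * m * (a : G)⁻¹, (mem_normalizer_iff.1 (hHW a.2) _).1 m.2⟩ * m⁻¹, ?_, ?_⟩
      · change (a : G) * m * (a : G)⁻¹ * (m : G)⁻¹ ∈ (⁅W, R⁆ : Subgroup G)
        rw [commutator_comm]
        have := commutator_mem_commutator (H₁ := R) (H₂ := W) (g₁ := (a : G)) (g₂ := (m : G)) ha m.2
        rwa [commutatorElement_def] at this
      · change π _ = _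
        rw [map_mul, map_inv])
    rw [hcardA] at h1
    refine h1.trans ?_
    rw [Subgroup.card_map_of_injective (f := π.toMonoidHom) π.injective]
    exact (Nat.card_congr (Subgroup.subgroupOfEquivOfLe hMA).toEquiv).le

theorem SqH.of_sq {V P : Subgroup G} (h : ∀ R ≤ P, Quad R V →
    ((R ⊓ centralizer (V : Set G)).relIndex R) ^ 2 ≤ (V ⊓ centralizer (R : Set G)).relIndex V) : SqH V P := by
  intro R hR hq
  have h1 := h R hR hq
  set p := (R ⊓ centralizer (V : Set G)).relIndex R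
  set v := (V ⊓ centralizer (R : Set G)).relIndex V
  have hp : 0 < p := Nat.pos_of_ne_zero (H62.relIndex_ne_zero' _ _)
  rcases Nat.eq_or_lt_of_le (show 1 ≤ p from hp) with h2 | h2
  · exact Or.inl h2.symm
  · right
    calc p ^ 3 < p ^ 4 := Nat.pow_lt_pow_right h2 (by norm_num)
      _ = (p ^ 2) ^ 2 := by ring
      _ ≤ v ^ 2 := Nat.pow_le_pow_left h1 2

end

end Cfsg.Agent.H33.GF
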