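import Cfsg.Agent.H33.GF18

set_option autoImplicit false
set_option linter.unusedVariables false
set_option linter.unusedSectionVars false
set_option linter.style.haveILetI false
set_option linter.deprecated false

/-!
E-groups.
-/

namespace Cfsg.Agent.H33.GF

open Subgroup Cfsg
open H33 (cj mem_cj conj_mem_cj cj_mul cj_mono IsSyl mem_norm_iff)
open H34 (fixedBy mem_fixedBy fixedBy_anti maxEA)
open H62 (EA EA_iff Quad ncl o2 omZ cj_le_ncl le_ncl ncl_le ncl_le_of_norm norm_ncl EA_ncl norm_o2 o2_le isPGroup_o2 le_o2 JJ)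

universe u

section

variable {G : Type u} [Group G]

/-- the property in the definition of E-groups, for subgroups -/
def PP (W U : Subgroup G) : Prop := ∀ R ≤ U, Quad R W → ¬ R ≤ centralizer (W : Set G) →
  Nat.card W ^ 2 * Nat.card (R ⊓ centralizer (W : Set G) : Subgroup G) ^ 3 >
    Nat.card R ^ 3 * Nat.card (W ⊓ centralizer (R : Set G) : Subgroup G) ^ 2 ∧
  Nat.card (⁅W, R⁆ : Subgroup G) * Nat.card (R ⊓ centralizer (W : Set G) : Subgroup G) > Nat.card R

/-- E-subgroups -/
def EGp (U : Subgroup G) : Prop := ∀ W ≤ U, EA W → U ≤ normalizer (W : Set G) → PP W U → W ≤ centralizer (U : Set G)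

theorem map_inf_cent_inj {T : Type*} [Group T] (f : T →* G) (hf : Function.Injective f) (A B : Subgroup T) :
    (A ⊓ centralizer (B : Set T)).map f = A.map f ⊓ centralizer ((B.map f : Subgroup G) : Set G) := by
  ext x
  constructor
  · rintro ⟨a, ⟨haA, haB⟩, rfl⟩
    refine ⟨⟨a, haA, rfl⟩, mem_centralizer_iff.2 ?_⟩
    rintro _ ⟨b, hb, rfl⟩
    rw [← map_mul, ← map_mul, mem_centralizer_iff.1 haB b hb]
  · rintro ⟨⟨a, haA, rfl⟩, haB⟩
    refine ⟨a, ⟨haA, mem_centralizer_iff.2 ?_⟩, rfl⟩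
    intro b hb
    apply hf
    rw [map_mul, map_mul]
    exact mem_centralizer_iff.1 haB (f b) ⟨b, hb, rfl⟩

theorem le_cent_map {T : Type*} [Group T] (f : T →* G) (hf : Function.Injective f) (A B : Subgroup T) :
    A ≤ centralizer (B : Set T) ↔ A.map f ≤ centralizer ((B.map f : Subgroup G) : Set G) := by
  constructor
  · rintro h _ ⟨a, ha, rfl⟩
    rw [mem_centralizer_iff]
    rintro _ ⟨b, hb, rfl⟩
    rw [← map_mul, ← map_mul, mem_centralizer_iff.1 (h ha) b hb]
  · intro h a ha
    rw [mem_centralizer_iff]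
    intro b hb
    apply hf
    rw [map_mul, map_mul]
    exact mem_centralizer_iff.1 (h ⟨a, ha, rfl⟩) (f b) ⟨b, hb, rfl⟩

theorem quad_map {T : Type*} [Group T] (f : T →* G) (hf : Function.Injective f) (R V : Subgroup T) :
    (⁅R, R⁆ ≤ centralizer (V : Set T) ∧ ∀ r ∈ R, r ^ 2 ∈ centralizer (V : Set T)) ↔ Quad (R.map f) (V.map f) := by
  have key : ∀ x : T, x ∈ centralizer (V : Set T) ↔ f x ∈ centralizer ((V.map f : Subgroup G) : Set G) := by
    intro x
    rw [mem_centralizer_iff, mem_centralizer_iff]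
    constructor
    · rintro h _ ⟨b, hb, rfl⟩
      rw [← map_mul, ← map_mul, h b hb]
    · intro h b hb
      apply hf
      rw [map_mul, map_mul]
      exact h (f b) ⟨b, hb, rfl⟩
  constructor
  · rintro ⟨h1, h2⟩
    constructor
    · rintro _ ⟨a, ha, rfl⟩ _ ⟨b, hb, rfl⟩
      rw [← map_inv, ← map_inv, ← map_mul, ← map_mul, ← map_mul, ← key]
      have := h1 (commutator_mem_commutator ha hb)
      rwa [commutatorElement_def] at this
    · rintro _ ⟨a, ha, rfl⟩
      rw [← map_mul, ← key, ← sq]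
      exact h2 a ha
  · intro h
    constructor
    · rw [commutator_le]
      intro a ha b hb
      rw [commutatorElement_def, key, map_mul, map_mul, map_mul, map_inv, map_inv]
      exact h.1 _ ⟨a, ha, rfl⟩ _ ⟨b, hb, rfl⟩
    · intro r hr
      rw [key, sq, map_mul]
      exact h.2 _ ⟨r, hr, rfl⟩

theorem egroup_iff_range {T : Type*} [Group T] (f : T →* G) (hf : Function.Injective f) :
    IsEGroup T ↔ EGp f.range := by
  have hcard : ∀ A : Subgroup T, Nat.card (A.map f) = Nat.card A := fun A => Subgroup.card_map_of_injective hf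
  have hEA : ∀ V : Subgroup T, IsElementaryAbelian 2 V ↔ EA (V.map f) := by
    intro V
    rw [← EA_iff]
    constructor
    · rintro ⟨h1, h2⟩
      constructor
      · rintro _ ⟨a, ha, rfl⟩ _ ⟨b, hb, rfl⟩
        rw [← map_mul, ← map_mul, h1 a ha b hb]
      · rintro _ ⟨a, ha, rfl⟩
        rw [← map_mul, h2 a ha, map_one]
    · rintro ⟨h1, h2⟩
      constructor
      · intro a ha b hb
        apply hf
        rw [map_mul, map_mul]
        exact h1 _ ⟨a, ha, rfl⟩ _ ⟨b, hb, rfl⟩
      · intro a ha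
        apply hf
        rw [map_mul, map_one]
        exact h2 _ ⟨a, ha, rfl⟩
  have hrange : ∀ A : Subgroup T, A.map f ≤ f.range := by
    rintro A _ ⟨a, -, rfl⟩
    exact ⟨a, rfl⟩
  have hR : ∀ R' : Subgroup G, R' ≤ f.range → (R'.comap f).map f = R' := by
    intro R' h
    rw [Subgroup.map_comap_eq, inf_eq_right.2 h]
  constructor
  · intro h W hWU hW hWn hPP
    have h1 := h (W.comap f) ?_ ?_ ?_
    · rw [← hR W hWU]
      rintro _ ⟨w, hw, rfl⟩
      rw [mem_centralizer_iff]
      rintro _ ⟨t, rfl⟩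
      rw [← map_mul, ← map_mul, (Subgroup.mem_center_iff.1 (h1 hw) t)]
    · constructor
      intro w hw t
      rw [mem_comap, map_mul, map_mul, map_inv]
      exact (mem_normalizer_iff.1 (hWn ⟨t, rfl⟩) _).1 hw
    · rw [hEA, hR W hWU]; exact hW
    · intro R h1 h2 h3
      have h4 := hPP (R.map f) (hrange R) (by
        have := (quad_map f hf R (W.comap f)).1 ⟨h1, h2⟩
        rwa [hR W hWU] at this) (by
        intro hc
        apply h3
        rw [le_cent_map f hf, hR W hWU]; exact hc)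
      have e1 := map_inf_cent_inj f hf R (W.comap f)
      have e2 := map_inf_cent_inj f hf (W.comap f) R
      have e3 : (⁅W.comap f, R⁆ : Subgroup T).map f = ⁅W, R.map f⁆ := by
        rw [Subgroup.map_commutator, hR W hWU]
      rw [hR W hWU] at e1 e2
      rw [← e1, ← e2, ← e3, hcard, hcard, hcard, hcard] at h4
      have e4 : Nat.card W = Nat.card (W.comap f) := by rw [← hcard, hR W hWU]
      rw [e4] at h4
      exact h4
  · intro h V hVn hVe hP
    have h1 := h (V.map f) (hrange V) ((hEA V).1 hVe) ?_ ?_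
    · intro v hv
      rw [Subgroup.mem_center_iff]
      intro t
      apply hf
      rw [map_mul, map_mul]
      exact mem_centralizer_iff.1 (h1 ⟨v, hv, rfl⟩) (f t) ⟨t, rfl⟩
    · rintro _ ⟨t, rfl⟩
      rw [mem_normalizer_iff]
      intro x
      constructor
      · rintro ⟨v, hv, rfl⟩
        exact ⟨t * v * t⁻¹, hVn.conj_mem v hv t, by rw [map_mul, map_mul, map_inv]⟩
      · rintro ⟨v, hv, hvx⟩
        refine ⟨t⁻¹ * v * t, ?_, ?_⟩
        · have := hVn.conj_mem v hv t⁻¹
          rwa [inv_inv] at this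
        · rw [map_mul, map_mul, map_inv, hvx]; group
    · intro R' hR'U hq hnc
      have h2 := hP (R'.comap f) ?_ ?_ ?_
      · have e1 := map_inf_cent_inj f hf (R'.comap f) V
        have e2 := map_inf_cent_inj f hf V (R'.comap f)
        have e3 : (⁅V, R'.comap f⁆ : Subgroup T).map f = ⁅V.map f, R'⁆ := by
          rw [Subgroup.map_commutator, hR R' hR'U]
        rw [hR R' hR'U] at e1 e2
        rw [← e1, ← e2, ← e3, hcard, hcard, hcard, hcard]
        have e4 : Nat.card R' = Nat.card (R'.comap f) := by rw [← hcard, hR R' hR'U]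
        rw [e4]
        exact h2
      · exact ((quad_map f hf (R'.comap f) V).2 (by rw [hR R' hR'U]; exact hq)).1
      · exact ((quad_map f hf (R'.comap f) V).2 (by rw [hR R' hR'U]; exact hq)).2
      · intro hc
        apply hnc
        have := (le_cent_map f hf (R'.comap f) V).1 hc
        rwa [hR R' hR'U] at this

theorem PP.conj {W U : Subgroup G} (h : PP W U) (g : G) : PP (cj g W) (cj g U) := by
  intro R hR hq hnc
  have hR' : cj g⁻¹ R ≤ U := by
    have := cj_mono (g := g⁻¹) hR
    rwa [H33.cj_inv_cj] at this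
  have h1 := h (cj g⁻¹ R) hR' (by
      have := hq.conj g⁻¹
      rwa [H33.cj_inv_cj] at this) (by
      intro hc
      apply hnc
      have := cj_mono (g := g) hc
      rwa [H33.cj_cj_inv, H33.cj_centralizer] at this)
  have e1 : cj g (cj g⁻¹ R ⊓ centralizer (W : Set G)) = R ⊓ centralizer (cj g W : Set G) := by
    rw [H33.cj_inf, H33.cj_cj_inv, H33.cj_centralizer]
  have e2 : cj g (W ⊓ centralizer (cj g⁻¹ R : Set G)) = cj g W ⊓ centralizer (R : Set G) := by
    rw [H33.cj_inf, H33.cj_centralizer, H33.cj_cj_inv]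
  have e3 : cj g (⁅W, cj g⁻¹ R⁆ : Subgroup G) = ⁅cj g W, R⁆ := by
    rw [H33.cj_comm, H33.cj_cj_inv]
  rw [← e1, ← e2, ← e3, H33.card_cj, H33.card_cj, H33.card_cj, H33.card_cj]
  rw [H33.card_cj] at h1
  exact h1

theorem EGp.conj {U : Subgroup G} (h : EGp U) (g : G) : EGp (cj g U) := by
  intro W hW hWe hn hPP
  have h1 := h (cj g⁻¹ W) (by
      have := cj_mono (g := g⁻¹) hW
      rwa [H33.cj_inv_cj] at this) (hWe.cj g⁻¹) (by
      have := cj_mono (g := g⁻¹) hn
      rwa [H33.cj_inv_cj, H33.cj_normalizer] at this) (by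
      have := hPP.conj g⁻¹
      rwa [H33.cj_inv_cj] at this)
  have := cj_mono (g := g) h1
  rwa [H33.cj_cj_inv, H33.cj_centralizer] at this

theorem PP.mono {W U U' : Subgroup G} (h : PP W U) (hU : U' ≤ U) : PP W U' := fun R hR => h R (hR.trans hU)

variable [Finite G]

theorem PP.sqH {W U : Subgroup G} (h : PP W U) : SqH W U := by
  intro R hR hq
  by_cases hc : R ≤ centralizer (W : Set G)
  · left
    rw [Subgroup.relIndex_eq_one]
    exact le_inf le_rfl hc
  · right
    have h1 := (h R hR hq hc).1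
    have e1 := H62.card_mul_relIndex' (inf_le_left : R ⊓ centralizer (W : Set G) ≤ R)
    have e2 := H62.card_mul_relIndex' (inf_le_left : W ⊓ centralizer (R : Set G) ≤ W)
    set p := (R ⊓ centralizer (W : Set G)).relIndex R
    set v := (W ⊓ centralizer (R : Set G)).relIndex W
    rw [← e1, ← e2] at h1
    set c := Nat.card (R ⊓ centralizer (W : Set G) : Subgroup G)
    set f := Nat.card (W ⊓ centralizer (R : Set G) : Subgroup G)
    have h2 : (f ^ 2 * c ^ 3) * p ^ 3 < (f ^ 2 * c ^ 3) * v ^ 2 := by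
      calc (f ^ 2 * c ^ 3) * p ^ 3 = (c * p) ^ 3 * f ^ 2 := by ring
        _ < (f * v) ^ 2 * c ^ 3 := h1
        _ = (f ^ 2 * c ^ 3) * v ^ 2 := by ring
    exact lt_of_mul_lt_mul_left h2 (Nat.zero_le _)

theorem PP.of_sq {W U : Subgroup G} (h : ∀ R ≤ U, Quad R W →
    ((R ⊓ centralizer (W : Set G)).relIndex R) ^ 2 ≤ (W ⊓ centralizer (R : Set G)).relIndex W ∧
      ((R ⊓ centralizer (W : Set G)).relIndex R) ^ 2 ≤ Nat.card (⁅W, R⁆ : Subgroup G)) : PP W U := by
  intro R hR hq hc
  obtain ⟨h1, h2⟩ := h R hR hq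
  have e1 := H62.card_mul_relIndex' (inf_le_left : R ⊓ centralizer (W : Set G) ≤ R)
  have e2 := H62.card_mul_relIndex' (inf_le_left : W ⊓ centralizer (R : Set G) ≤ W)
  set p := (R ⊓ centralizer (W : Set G)).relIndex R with hp
  set v := (W ⊓ centralizer (R : Set G)).relIndex W
  rw [← e1, ← e2]
  set c := Nat.card (R ⊓ centralizer (W : Set G) : Subgroup G) with hcc
  set f := Nat.card (W ⊓ centralizer (R : Set G) : Subgroup G) with hff
  have hc0 : 0 < c := Nat.card_pos
  have hf0 : 0 < f := Nat.card_pos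
  have hp0 : p ≠ 0 := H62.relIndex_ne_zero' _ _
  have hp1 : p ≠ 1 := by
    intro h3
    rw [hp, Subgroup.relIndex_eq_one] at h3
    exact hc (h3.trans inf_le_right)
  have hp2 : 2 ≤ p := by omega
  constructor
  · have h3 : p ^ 3 < v ^ 2 := by
      calc p ^ 3 < p ^ 4 := Nat.pow_lt_pow_right (by omega) (by norm_num)
        _ = (p ^ 2) ^ 2 := by ring
        _ ≤ v ^ 2 := Nat.pow_le_pow_left h1 2
    calc (c * p) ^ 3 * f ^ 2 = (f ^ 2 * c ^ 3) * p ^ 3 := by ring
      _ < (f ^ 2 * c ^ 3) * v ^ 2 := Nat.mul_lt_mul_of_pos_left h3 (by positivity)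
      _ = (f * v) ^ 2 * c ^ 3 := by ring
  · have h3 : p < Nat.card (⁅W, R⁆ : Subgroup G) := by
      calc p < p ^ 2 := by nlinarith
        _ ≤ _ := h2
    calc c * p < c * Nat.card (⁅W, R⁆ : Subgroup G) := Nat.mul_lt_mul_of_pos_left h3 hc0
      _ = _ := mul_comm _ _

end

end Cfsg.Agent.H33.GF
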