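import Cfsg.Agent.H33.GF1

set_option autoImplicit false
set_option linter.unusedVariables false
set_option linter.unusedSectionVars false
set_option linter.style.haveILetI false
set_option linter.deprecated false

/-!
The linear lemma for the factorization theorems.
-/

namespace Cfsg.Agent.H33.GF

open Subgroup Cfsg
open H34 (fixedBy mem_fixedBy fixedBy_anti)
open H62 (cm cm_apply)

section

variable {U : Type*} [CommGroup U] [Finite U]

theorem ap_inv (x : MulAut U) (w : U) : x (x⁻¹ w) = w := by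
  rw [← MulAut.mul_apply, mul_inv_cancel, MulAut.one_apply]

theorem inv_ap (x : MulAut U) (w : U) : x⁻¹ (x w) = w := by
  rw [← MulAut.mul_apply, inv_mul_cancel, MulAut.one_apply]

/-- automorphisms acting trivially modulo `X` -/
def Tr (X : Subgroup U) : Subgroup (MulAut U) where
  carrier := {g | ∀ u, g u * u⁻¹ ∈ X}
  one_mem' := fun u => by
    have : (1 : MulAut U) u * u⁻¹ = 1 := by rw [MulAut.one_apply]; exact mul_inv_cancel u
    rw [this]; exact X.one_mem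
  mul_mem' := by
    intro g h hg hh u
    have h1 := X.mul_mem (hg (h u)) (hh u)
    have h2 : g (h u) * (h u)⁻¹ * (h u * u⁻¹) = (g * h) u * u⁻¹ := by rw [MulAut.mul_apply]; group
    rwa [h2] at h1
  inv_mem' := by
    intro g hg u
    have h1 := X.inv_mem (hg (g⁻¹ u))
    have h2 : g (g⁻¹ u) = u := by rw [← MulAut.mul_apply, mul_inv_cancel, MulAut.one_apply]
    rw [h2] at h1
    have h3 : (u * (g⁻¹ u)⁻¹)⁻¹ = g⁻¹ u * u⁻¹ := by group
    rwa [h3] at h1

theorem mem_Tr {X : Subgroup U} {g : MulAut U} : g ∈ Tr X ↔ ∀ u, g u * u⁻¹ ∈ X := Iff.rfl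

/-- automorphisms fixing `X` pointwise -/
def Fx (X : Subgroup U) : Subgroup (MulAut U) where
  carrier := {g | ∀ u ∈ X, g u = u}
  one_mem' := fun u _ => rfl
  mul_mem' := by
    intro g h hg hh u hu
    rw [MulAut.mul_apply, hh u hu, hg u hu]
  inv_mem' := by
    intro g hg u hu
    have h1 := hg u hu
    conv_lhs => rw [← h1]
    rw [← MulAut.mul_apply, inv_mul_cancel, MulAut.one_apply]

theorem mem_Fx {X : Subgroup U} {g : MulAut U} : g ∈ Fx X ↔ ∀ u ∈ X, g u = u := Iff.rfl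

theorem fix_le_iff {X : Subgroup U} {L : Subgroup (MulAut U)} : X ≤ fixedBy L ↔ L ≤ Fx X :=
  ⟨fun h g hg u hu => h hu g hg, fun h u hu g hg => h hg u hu⟩

theorem inv_apply_mem {x : MulAut U} {W : Subgroup U} (hW : ∀ w ∈ W, x w ∈ W) : ∀ w ∈ W, x⁻¹ w ∈ W := by
  intro w hw
  obtain ⟨v, hv⟩ := (rst x W hW).surjective ⟨w, hw⟩
  have h1 : x v = w := by rw [← rst_apply x W hW v, hv]
  rw [← h1, ← MulAut.mul_apply, inv_mul_cancel, MulAut.one_apply]
  exact v.2

theorem pow_apply_mem {x : MulAut U} {W : Subgroup U} (hW : ∀ w ∈ W, x w ∈ W) (n : ℕ) : ∀ w ∈ W, (x ^ n) w ∈ W := by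
  induction n with
  | zero => intro w hw; exact hw
  | succ n ih =>
    intro w hw
    rw [pow_succ', MulAut.mul_apply]
    exact hW _ (ih w hw)

/-- the linear lemma -/
theorem linear (hU : ∀ u : U, u * u = 1) {r : ℕ} [hr : Fact r.Prime] (hr2 : r ≠ 2)
    {A B P : Subgroup (MulAut U)} {x : MulAut U} {V : Subgroup U} {j : ℕ}
    (hAc : ∀ a ∈ A, ∀ b ∈ A, a * b = b * a) (hA2 : ∀ a ∈ A, a * a = 1) (hBA : B ≤ A) (hBP : B ≤ P)
    (hP : IsPGroup 2 P) (hAP : A ≤ normalizer (P : Set (MulAut U))) (hxP : x ∈ normalizer (P : Set (MulAut U)))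
    (hm : B.relIndex A = 2 ^ j)
    (hbd : ∀ k, 0 < k → r ∣ 2 ^ k - 1 → (2 ^ j) ^ 4 < 4 * 2 ^ k)
    (ho : ∃ s, orderOf x = r ^ s) (hxL : x ∈ A ⊔ A.map (MulAut.conj x).toMonoidHom)
    (hsq : ∀ R ≤ P, (∀ a ∈ R, ∀ b ∈ R, a * b = b * a) → (∀ a ∈ R, a * a = 1) → R ≠ ⊥ →
      (Nat.card R) ^ 3 < (fixedBy R).index ^ 2)
    (hmax : ∀ S ≤ A, Nat.card S * Nat.card (fixedBy S) ≤ Nat.card A * Nat.card (fixedBy A))
    (hVA : V ≤ fixedBy A)
    (hgen : ∀ U' : Subgroup U, V ≤ U' → (∀ a ∈ A, ∀ u ∈ U', a u ∈ U') → (∀ u ∈ U', x u ∈ U') → U' = ⊤) :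
    x = 1 := by
  classical
  haveI : Fact (Nat.Prime 2) := ⟨Nat.prime_two⟩
  have hodd : Odd (orderOf x) := by
    obtain ⟨s, hs⟩ := ho
    rw [hs]; exact (hr.out.odd_of_ne_two hr2).pow
  have hpow2 : ∀ {y : MulAut U}, y ∈ P → Odd (orderOf y) → y = 1 := by
    intro y hy hyo
    by_contra hne
    obtain ⟨k, hk⟩ := hP ⟨y, hy⟩
    exact H62.pow_two_pow_ne_one hne hyo k (congrArg Subtype.val hk)
  set L := A ⊔ A.map (MulAut.conj x).toMonoidHom with hL
  have hAL : A ≤ L := le_sup_left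
  have hLP : L ≤ normalizer (P : Set (MulAut U)) := by
    refine sup_le hAP ?_
    rintro _ ⟨a, ha, rfl⟩
    exact mul_mem (mul_mem hxP (hAP ha)) (inv_mem hxP)
  by_cases hj : j = 0
  · -- A = B ≤ P
    subst hj
    rw [pow_zero, Subgroup.relIndex_eq_one] at hm
    have h1 : L ≤ P := by
      refine sup_le (hm.trans hBP) ?_
      rintro _ ⟨a, ha, rfl⟩
      exact (mem_normalizer_iff.1 hxP a).1 (hBP (hm ha))
    exact hpow2 (h1 hxL) hodd
  by_contra hx1
  set m := 2 ^ j with hmj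
  have hm2 : 2 ≤ m := by
    calc 2 = 2 ^ 1 := by norm_num
      _ ≤ 2 ^ j := Nat.pow_le_pow_right (by norm_num) (by omega)
  -- the bound in the form `m ^ 4 ≤ 2 * 2 ^ k`
  have hbd' : ∀ k, 0 < k → r ∣ 2 ^ k - 1 → m ^ 4 ≤ 2 * 2 ^ k := by
    intro k hk hrk
    have h1 := hbd k hk hrk
    have h2 : m ^ 4 = 2 ^ (j * 4) := by rw [hmj, pow_mul]
    have h3 : 4 * 2 ^ k = 2 ^ (k + 2) := by rw [pow_add]; ring
    have h4 : 2 * 2 ^ k = 2 ^ (k + 1) := by rw [pow_add]; ring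
    rw [h2, h3] at h1
    have h5 := (Nat.pow_lt_pow_iff_right (by norm_num : 1 < 2)).1 h1
    rw [h2, h4]
    exact Nat.pow_le_pow_right (by norm_num) (by omega)
  -- indices
  set u := (fixedBy A).index with hu
  have hu0 : 0 < u := Nat.pos_of_ne_zero Subgroup.index_ne_zero_of_finite
  have hAcard := Nat.card_pos (α := A)
  have hab : Nat.card B * m = Nat.card A := by
    rw [← hm]; exact H62.card_mul_relIndex' hBA
  set b := Nat.card B with hb
  have hb0 : 0 < b := Nat.card_pos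
  have hFA : 0 < Nat.card (fixedBy A) := Nat.card_pos
  have hUu : Nat.card (fixedBy A) * u = Nat.card U := Subgroup.card_mul_index _
  have hub : u ≤ b * m := by
    have h1 := hmax ⊥ bot_le
    have h2 : fixedBy (⊥ : Subgroup (MulAut U)) = ⊤ := by
      rw [eq_top_iff]
      intro v _ a ha
      rw [mem_bot] at ha
      rw [ha, MulAut.one_apply]
    rw [h2, Subgroup.card_bot, one_mul, Subgroup.card_top, ← hUu, ← hab, mul_comm] at h1
    exact Nat.le_of_mul_le_mul_right h1 hFA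
  have hbm : 2 * b ≤ m ^ 2 := by
    have h1 : b < m ^ 2 := by
      by_cases hB : B = ⊥
      · have : b = 1 := by rw [hb, hB, Subgroup.card_bot]
        rw [this]; nlinarith
      · have h2 := hsq B hBP (fun a ha c hc => hAc a (hBA ha) c (hBA hc)) (fun a ha => hA2 a (hBA ha)) hB
        have h3 : (fixedBy B).index ≤ u := by
          have := Subgroup.index_antitone (fixedBy_anti hBA)
          exact this
        have h4 : b ^ 3 < (b * m) ^ 2 := lt_of_lt_of_le h2 (Nat.pow_le_pow_left (h3.trans hub) 2)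
        have h5 : b ^ 2 * b < b ^ 2 * m ^ 2 := by
          calc b ^ 2 * b = b ^ 3 := by ring
            _ < (b * m) ^ 2 := h4
            _ = b ^ 2 * m ^ 2 := by ring
        exact Nat.lt_of_mul_lt_mul_left h5
    obtain ⟨i, hi⟩ := IsPGroup.iff_card.1 (hP.to_le hBP)
    rw [← hb] at hi
    have h2 : m ^ 2 = 2 ^ (j * 2) := by rw [hmj, pow_mul]
    rw [hi, h2] at h1 ⊢
    have h5 := (Nat.pow_lt_pow_iff_right (by norm_num : 1 < 2)).1 h1
    calc 2 * 2 ^ i = 2 ^ (i + 1) := by ring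
      _ ≤ 2 ^ (j * 2) := Nat.pow_le_pow_right (by norm_num) (by omega)
  have hum : 2 * u ≤ m ^ 3 := by
    calc 2 * u ≤ 2 * (b * m) := Nat.mul_le_mul_left 2 hub
      _ = (2 * b) * m := by ring
      _ ≤ m ^ 2 * m := Nat.mul_le_mul_right m hbm
      _ = m ^ 3 := by ring
  -- fixed points of L
  have hconj : fixedBy (A.map (MulAut.conj x).toMonoidHom) = (fixedBy A).map x.toMonoidHom := by
    ext w
    constructor
    · intro hw
      refine ⟨x⁻¹ w, ?_, ?_⟩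
      · intro a ha
        have h1 := hw _ ⟨a, ha, rfl⟩
        have h2 : (x * a * x⁻¹) w = w := h1
        rw [MulAut.mul_apply, MulAut.mul_apply] at h2
        conv_rhs => rw [← h2]
        rw [inv_ap]
      · exact ap_inv x w
    · rintro ⟨v, hv, rfl⟩ _ ⟨a, ha, rfl⟩
      change (x * a * x⁻¹) (x v) = x v
      rw [MulAut.mul_apply, MulAut.mul_apply, inv_ap, hv a ha]
  have hconji : ((fixedBy A).map x.toMonoidHom).index = u := by
    rw [hu]
    exact Subgroup.index_map_equiv _ x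
  have hfixL : fixedBy A ⊓ (fixedBy A).map x.toMonoidHom ≤ fixedBy L := by
    rw [← hconj, fix_le_iff]
    refine sup_le ?_ ?_
    · rw [← fix_le_iff]; exact inf_le_left
    · rw [← fix_le_iff]; exact inf_le_right
  have hLi : (fixedBy L).index ≤ u ^ 2 := by
    calc (fixedBy L).index ≤ (fixedBy A ⊓ (fixedBy A).map x.toMonoidHom).index := Subgroup.index_antitone hfixL
      _ ≤ (fixedBy A).index * ((fixedBy A).map x.toMonoidHom).index := Subgroup.index_inf_le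
      _ = u ^ 2 := by rw [hconji, ← hu]; ring
  have hLx : fixedBy L ≤ fx1 x := fun w hw => hw x hxL
  have hd : 4 * (fx1 x).index ≤ m ^ 6 := by
    have h1 : (fx1 x).index ≤ u ^ 2 := (Subgroup.index_antitone hLx).trans hLi
    calc 4 * (fx1 x).index ≤ 4 * u ^ 2 := Nat.mul_le_mul_left 4 h1
      _ = (2 * u) ^ 2 := by ring
      _ ≤ (m ^ 3) ^ 2 := Nat.pow_le_pow_left hum 2
      _ = m ^ 6 := by ring
  have hxne : ∃ w, x w ≠ w := by
    by_contra hcon
    push Not at hcon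
    exact hx1 (MulEquiv.ext hcon)
  -- X₁
  let Inv : Subgroup U → Prop := fun Y => (∀ a ∈ A, ∀ w ∈ Y, a w ∈ Y) ∧ (∀ p ∈ P, ∀ w ∈ Y, p w ∈ Y) ∧ (∀ w ∈ Y, x w ∈ Y)
  have hfin1 : {Y : Subgroup U | Inv Y ∧ ∃ w ∈ Y, x w ≠ w}.Finite := Set.toFinite _
  obtain ⟨X₁, ⟨hX1, hX1n⟩, hX1m⟩ := Set.exists_min_image _ (fun Y : Subgroup U => Nat.card Y) hfin1
    ⟨⊤, ⟨fun _ _ _ _ => mem_top _, fun _ _ _ _ => mem_top _, fun _ _ => mem_top _⟩, by
      obtain ⟨w, hw⟩ := hxne; exact ⟨w, mem_top _, hw⟩⟩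
  have hX1b : (⊥ : Subgroup U) ≠ X₁ := by
    intro h
    obtain ⟨w, hw, hxw⟩ := hX1n
    rw [← h, mem_bot] at hw
    apply hxw; rw [hw, map_one]
  have hfin2 : {Y : Subgroup U | Inv Y ∧ Y ≤ X₁ ∧ Y ≠ X₁}.Finite := Set.toFinite _
  obtain ⟨X₂, ⟨hX2, hX21, hX2ne⟩, hX2m⟩ := Set.exists_max_image _ (fun Y : Subgroup U => Nat.card Y) hfin2
    ⟨⊥, ⟨fun a _ w hw => by rw [mem_bot] at hw ⊢; rw [hw, map_one],
      fun a _ w hw => by rw [mem_bot] at hw ⊢; rw [hw, map_one],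
      fun w hw => by rw [mem_bot] at hw ⊢; rw [hw, map_one]⟩, bot_le, hX1b⟩
  have hxX2 : ∀ w ∈ X₂, x w = w := by
    by_contra hcon
    push Not at hcon
    obtain ⟨w, hw, hxw⟩ := hcon
    have h1 := hX1m X₂ ⟨hX2, w, hw, hxw⟩
    exact hX2ne (Subgroup.eq_of_le_of_card_ge hX21 h1)
  have huniq : ∀ w, x w * w⁻¹ ∈ X₁ := uniq hU hr2 ho hbd' hm2 hd X₁ hX1.2.2 hX1n
  -- P is trivial on X₁/X₂
  have hPX : ∀ p ∈ P, ∀ w ∈ X₁, p w * w⁻¹ ∈ X₂ := by
    let F : Subgroup U :=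
      { carrier := {w | w ∈ X₁ ∧ ∀ p ∈ P, p w * w⁻¹ ∈ X₂}
        one_mem' := ⟨one_mem _, fun p _ => by rw [map_one, inv_one, mul_one]; exact one_mem _⟩
        mul_mem' := by
          rintro v w ⟨hv, hv'⟩ ⟨hw, hw'⟩
          refine ⟨mul_mem hv hw, fun p hp => ?_⟩
          have h1 := X₂.mul_mem (hv' p hp) (hw' p hp)
          have h2 : p v * v⁻¹ * (p w * w⁻¹) = p (v * w) * (v * w)⁻¹ := by
            rw [map_mul, mul_inv]; exact mul_mul_mul_comm _ _ _ _
          rwa [h2] at h1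
        inv_mem' := by
          rintro v ⟨hv, hv'⟩
          refine ⟨inv_mem hv, fun p hp => ?_⟩
          have h1 := X₂.inv_mem (hv' p hp)
          have h2 : (p v * v⁻¹)⁻¹ = p v⁻¹ * v⁻¹⁻¹ := by rw [map_inv, mul_inv]
          rwa [h2] at h1 }
    have hFm : ∀ w, w ∈ F ↔ w ∈ X₁ ∧ ∀ p ∈ P, p w * w⁻¹ ∈ X₂ := fun w => Iff.rfl
    have hFg : ∀ g : MulAut U, g ∈ normalizer (P : Set (MulAut U)) → (∀ w ∈ X₁, g w ∈ X₁) → (∀ w ∈ X₂, g w ∈ X₂) →
        ∀ w ∈ F, g w ∈ F := by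
      intro g hg h1 h2 w hw
      rw [hFm] at hw ⊢
      refine ⟨h1 w hw.1, fun p hp => ?_⟩
      have h3 : g⁻¹ * p * g ∈ P := (mem_normalizer_iff''.1 hg p).1 hp
      have h4 := h2 _ (hw.2 _ h3)
      rw [map_mul, map_inv, ← MulAut.mul_apply] at h4
      have h5 : g * (g⁻¹ * p * g) = p * g := by group
      rw [h5, MulAut.mul_apply] at h4
      exact h4
    have hFinv : Inv F := by
      refine ⟨fun a ha => hFg a (hAP ha) (hX1.1 a ha) (hX2.1 a ha), fun p hp => hFg p (le_normalizer hp) (hX1.2.1 p hp) (hX2.2.1 p hp),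
        hFg x hxP hX1.2.2 hX2.2.2⟩
    obtain ⟨w, hw1, hw2, hw3⟩ := exists_fixed_mod hU hP hX21 hX2ne hX1.2.1 hX2.2.1
    have hX2F : X₂ ≤ F := fun v hv => ⟨hX21 hv, fun p hp => X₂.mul_mem (hX2.2.1 p hp v hv) (X₂.inv_mem hv)⟩
    have hFX : F = X₁ := by
      by_contra hne
      have h1 := hX2m F ⟨hFinv, fun v hv => hv.1, hne⟩
      have h2 := Subgroup.eq_of_le_of_card_ge hX2F h1
      apply hw2
      rw [h2]
      exact ⟨hw1, hw3⟩
    intro p hp v hv
    rw [← hFX] at hv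
    exact hv.2 p hp
  -- U = X₁ V
  have hXV : X₁ ⊔ V = ⊤ := by
    apply hgen _ le_sup_right
    · intro a ha w hw
      obtain ⟨w1, hw1, v, hv, rfl⟩ := Subgroup.mem_sup.1 hw
      rw [map_mul, hVA hv a ha]
      exact mul_mem (mem_sup_left (hX1.1 a ha w1 hw1)) (mem_sup_right hv)
    · intro w hw
      have h1 : x w = (x w * w⁻¹) * w := by group
      rw [h1]
      exact mul_mem (mem_sup_left (huniq w)) hw
  -- the closure of B under x
  set R : Subgroup (MulAut U) := Subgroup.closure {g | ∃ i : ℕ, ∃ c ∈ B, g = x ^ i * c * (x ^ i)⁻¹} with hR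
  have hBR : B ≤ R := fun c hc => Subgroup.subset_closure ⟨0, c, hc, by simp⟩
  have hRP : R ≤ P := by
    rw [hR, Subgroup.closure_le]
    rintro _ ⟨i, c, hc, rfl⟩
    exact (mem_normalizer_iff.1 (pow_mem hxP i) c).1 (hBP hc)
  have hRL : R ≤ L := by
    rw [hR, Subgroup.closure_le]
    rintro _ ⟨i, c, hc, rfl⟩
    exact mul_mem (mul_mem (pow_mem hxL i) (hAL (hBA hc))) (inv_mem (pow_mem hxL i))
  have hRx : x ∈ normalizer (R : Set (MulAut U)) := by
    apply H33.mem_norm_of_le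
    rw [H33.cj_le_iff]
    intro g hg
    induction hg using Subgroup.closure_induction with
    | mem g hg =>
      obtain ⟨i, c, hc, rfl⟩ := hg
      apply Subgroup.subset_closure
      exact ⟨i + 1, c, hc, by rw [pow_succ']; group⟩
    | one => rw [mul_one, mul_inv_cancel]; exact one_mem _
    | mul g h _ _ hg hh =>
      have : x * (g * h) * x⁻¹ = (x * g * x⁻¹) * (x * h * x⁻¹) := by group
      rw [this]; exact mul_mem hg hh
    | inv g _ hg =>
      have : x * g⁻¹ * x⁻¹ = (x * g * x⁻¹)⁻¹ := by group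
      rw [this]; exact inv_mem hg
  have hRT : R ≤ Tr X₂ := by
    rw [hR, Subgroup.closure_le]
    rintro _ ⟨i, c, hc, rfl⟩ w
    have hcT : ∀ v, c v * v⁻¹ ∈ X₂ := by
      intro v
      have hv0 : v ∈ X₁ ⊔ V := by rw [hXV]; exact mem_top _
      obtain ⟨w1, hw1, v, hv, rfl⟩ := Subgroup.mem_sup.1 hv0
      have h1 : c (w1 * v) * (w1 * v)⁻¹ = (c w1 * w1⁻¹) * (c v * v⁻¹) := by
        rw [map_mul, mul_inv]; exact mul_mul_mul_comm _ _ _ _
      rw [h1, hVA hv c (hBA hc), mul_inv_cancel, mul_one]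
      exact hPX c (hBP hc) w1 hw1
    have h1 := pow_apply_mem hX2.2.2 i _ (hcT ((x ^ i)⁻¹ w))
    have h2 : (x ^ i) (c ((x ^ i)⁻¹ w) * ((x ^ i)⁻¹ w)⁻¹) = (x ^ i * c * (x ^ i)⁻¹) w * w⁻¹ := by
      rw [map_mul, map_inv, ap_inv]
      rfl
    rwa [h2] at h1
  -- R₁
  set R₁ := R ⊓ Fx X₂ with hR1
  have hR1u : ∀ g ∈ R₁, ∀ w, g (g w) = w ∧ ∀ h ∈ R₁, g (h w) = h (g w) := by
    intro g hg w
    have hgw : g w = (g w * w⁻¹) * w := by group
    have hgx : g w * w⁻¹ ∈ X₂ := hRT hg.1 w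
    refine ⟨?_, ?_⟩
    · have h1 : g (g w) = (g w * w⁻¹) * g w := by
        conv_lhs => rw [hgw]
        rw [map_mul, hg.2 _ hgx]
      rw [h1]
      have h2 : (g w * w⁻¹) * g w = ((g w * w⁻¹) * (g w * w⁻¹)) * w := by group
      rw [h2, hU, one_mul]
    · intro h hh
      have hhw : h w = (h w * w⁻¹) * w := by group
      have hhx : h w * w⁻¹ ∈ X₂ := hRT hh.1 w
      have h1 : g (h w) = (h w * w⁻¹) * g w := by
        conv_lhs => rw [hhw]
        rw [map_mul, hg.2 _ hhx]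
      have h2 : h (g w) = (g w * w⁻¹) * h w := by
        conv_lhs => rw [hgw]
        rw [map_mul, hh.2 _ hgx]
      rw [h1, h2]
      calc h w * w⁻¹ * g w = h w * (w⁻¹ * g w) := mul_assoc _ _ _
        _ = (w⁻¹ * g w) * h w := mul_comm _ _
        _ = _ := by rw [mul_comm w⁻¹]
  have hR1x : x ∈ normalizer (R₁ : Set (MulAut U)) := by
    apply H33.norm_inf hRx
    apply H33.mem_norm_of_le
    rw [H33.cj_le_iff]
    intro g hg w hw
    rw [MulAut.mul_apply, MulAut.mul_apply, hg _ (inv_apply_mem hX2.2.2 w hw), ← MulAut.mul_apply, mul_inv_cancel,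
      MulAut.one_apply]
  have hR1c : ∀ ρ ∈ R₁, x * ρ = ρ * x := by
    by_contra hcon
    push Not at hcon
    obtain ⟨k, hk0, hrk, hkc⟩ := cent_index (hP.to_le (inf_le_left.trans hRP)) hr2 hR1x ho hcon
    have hne : R₁ ≠ ⊥ := by
      intro h
      obtain ⟨ρ, hρ, hρx⟩ := hcon
      rw [h, mem_bot] at hρ
      apply hρx; rw [hρ, mul_one, one_mul]
    have h1 := hsq R₁ (inf_le_left.trans hRP) (fun a ha c hc => MulEquiv.ext fun w => (hR1u a ha w).2 c hc)
      (fun a ha => MulEquiv.ext fun w => (hR1u a ha w).1) hne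
    have h2 : (fixedBy R₁).index ≤ u ^ 2 :=
      (Subgroup.index_antitone (fixedBy_anti (inf_le_left.trans hRL))).trans hLi
    have h3 := hbd' k hk0 hrk
    have h4 : m ^ 4 ≤ 2 * Nat.card R₁ := h3.trans (Nat.mul_le_mul_left 2 hkc)
    have h5 : m ^ 12 ≤ 8 * Nat.card R₁ ^ 3 := by
      calc m ^ 12 = (m ^ 4) ^ 3 := by ring
        _ ≤ (2 * Nat.card R₁) ^ 3 := Nat.pow_le_pow_left h4 3
        _ = 8 * Nat.card R₁ ^ 3 := by ring
    have h6 : 16 * Nat.card R₁ ^ 3 < 16 * u ^ 4 := by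
      have h7 : Nat.card R₁ ^ 3 < u ^ 4 := by
        calc Nat.card R₁ ^ 3 < (fixedBy R₁).index ^ 2 := h1
          _ ≤ (u ^ 2) ^ 2 := Nat.pow_le_pow_left h2 2
          _ = u ^ 4 := by ring
      omega
    have h8 : 16 * u ^ 4 ≤ m ^ 12 := by
      calc 16 * u ^ 4 = (2 * u) ^ 4 := by ring
        _ ≤ (m ^ 3) ^ 4 := Nat.pow_le_pow_left hum 4
        _ = m ^ 12 := by ring
    have h9 : 0 < Nat.card R₁ ^ 3 := pow_pos Nat.card_pos 3
    omega
  have hRc : ∀ ρ ∈ R, x * ρ = ρ * x := by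
    intro ρ hρ
    have h1 : x * ρ * x⁻¹ * ρ⁻¹ ∈ R₁ := by
      refine ⟨R.mul_mem ((mem_normalizer_iff.1 hRx ρ).1 hρ) (R.inv_mem hρ), ?_⟩
      intro w hw
      have hw' : ρ⁻¹ w ∈ X₂ := hX2.2.1 _ (inv_mem (hRP hρ)) w hw
      have h2 : x⁻¹ (ρ⁻¹ w) = ρ⁻¹ w := by
        conv_lhs => rw [← hxX2 _ hw']
        rw [← MulAut.mul_apply, inv_mul_cancel, MulAut.one_apply]
      rw [MulAut.mul_apply, MulAut.mul_apply, MulAut.mul_apply, h2, ap_inv]
      exact hxX2 w hw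
    obtain ⟨k, hk⟩ := hP ⟨_, hRP h1.1⟩
    exact H62.coprime_step hodd rfl (hR1c _ h1) ⟨k, congrArg Subtype.val hk⟩
  -- x is nontrivial on C_U(B)
  have hxB : ∀ c ∈ B, c * x = x * c := fun c hc => (hRc c (hBR hc)).symm
  have hWne : ∃ w ∈ fixedBy B, x w ≠ w := by
    by_contra hcon
    push Not at hcon
    exact hx1 (H62.axb hU B (hP.to_le hBP) x hodd hxB (fun w hw => hcon w hw))
  have hWx : ∀ w ∈ fixedBy B, x w ∈ fixedBy B := by
    intro w hw c hc
    rw [← MulAut.mul_apply, hxB c hc, MulAut.mul_apply, hw c hc]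
  obtain ⟨k, hk0, hrk, hkW⟩ := fx_relIndex hU hr2 ho (fixedBy B) hWx hWne
  have hc1 : (fixedBy A).relIndex (fixedBy B) ≤ m := by
    have h1 := hmax B hBA
    have h2 := H62.card_mul_relIndex' (fixedBy_anti hBA)
    rw [← hab, ← h2] at h1
    have h3 : (b * Nat.card (fixedBy A)) * (fixedBy A).relIndex (fixedBy B) ≤ (b * Nat.card (fixedBy A)) * m := by
      calc _ = b * (Nat.card (fixedBy A) * (fixedBy A).relIndex (fixedBy B)) := by ring
        _ ≤ b * m * Nat.card (fixedBy A) := h1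
        _ = _ := by ring
    exact Nat.le_of_mul_le_mul_left h3 (Nat.mul_pos hb0 hFA)
  have hxmap : (fixedBy B).map x.toMonoidHom = fixedBy B := by
    apply Subgroup.eq_of_le_of_card_ge
    · rintro _ ⟨w, hw, rfl⟩; exact hWx w hw
    · rw [Subgroup.card_map_of_injective x.injective]
  have hc2 : ((fixedBy A).map x.toMonoidHom).relIndex (fixedBy B) = (fixedBy A).relIndex (fixedBy B) := by
    conv_lhs => rw [← hxmap]
    exact Subgroup.relIndex_map_map_of_injective _ _ x.injective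
  have hc3 : (fx1 x).relIndex (fixedBy B) ≤ m ^ 2 := by
    calc (fx1 x).relIndex (fixedBy B) ≤ (fixedBy A ⊓ (fixedBy A).map x.toMonoidHom).relIndex (fixedBy B) :=
          Subgroup.relIndex_le_of_le_left (hfixL.trans hLx) (H62.relIndex_ne_zero' _ _)
      _ ≤ (fixedBy A).relIndex (fixedBy B) * ((fixedBy A).map x.toMonoidHom).relIndex (fixedBy B) := Subgroup.relIndex_inf_le
      _ ≤ m * m := by rw [hc2]; exact Nat.mul_le_mul hc1 hc1
      _ = m ^ 2 := by ring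
  rw [hkW] at hc3
  have h1 := hbd' k hk0 hrk
  have h2 : m ^ 2 * m ^ 2 ≤ 2 * m ^ 2 := by
    calc m ^ 2 * m ^ 2 = m ^ 4 := by ring
      _ ≤ 2 * 2 ^ k := h1
      _ ≤ 2 * m ^ 2 := Nat.mul_le_mul_left 2 hc3
  have h3 : m ^ 2 ≤ 2 := Nat.le_of_mul_le_mul_right h2 (by positivity)
  nlinarith

end

end Cfsg.Agent.H33.GF
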