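import Cfsg.Agent.H33.GF19
import Cfsg.Agent.H33.GF15

set_option autoImplicit false
set_option linter.unusedVariables false
set_option linter.unusedSectionVars false
set_option linter.style.haveILetI false
set_option linter.deprecated false

/-!
The subgroup `Ĵ(S)`.
-/

namespace Cfsg.Agent.H33.GF

open Subgroup Cfsg
open H33 (cj mem_cj conj_mem_cj cj_mul cj_mono IsSyl mem_norm_iff)
open H34 (fixedBy mem_fixedBy fixedBy_anti maxEA)
open H62 (EA EA_iff Quad ncl o2 omZ cj_le_ncl le_ncl ncl_le ncl_le_of_norm norm_ncl EA_ncl norm_o2 o2_le isPGroup_o2 le_o2 JJ)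

universe u

section

variable {G : Type u} [Group G]

/-- the E-subgroups of `S` containing `J_e(S)` -/
def EJ (S : Subgroup G) : Set (Subgroup G) := {U | U ≤ S ∧ EGp U ∧ JJ S ≤ U}

/-- `Ĵ(S)` -/
def JH (S : Subgroup G) : Subgroup G := sSup (EJ S)

theorem JJ_eq (S : Subgroup G) : thompsonSubgroupOf 2 S = JJ S := H34.thompsonSubgroupOf_eq 2 S

theorem jHat_eq (S : Subgroup G) : (jHat ↥S).map S.subtype = JH S := by
  have hJ : (thompsonSubgroup 2 ↥S).map S.subtype = JJ S := JJ_eq S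
  have key : ∀ U : Subgroup S, IsEGroup U ↔ EGp (U.map S.subtype) := by
    intro U
    have h1 := egroup_iff_range (S.subtype.comp U.subtype) (S.subtype_injective.comp U.subtype_injective)
    rw [h1]
    have : (S.subtype.comp U.subtype).range = U.map S.subtype := by
      rw [MonoidHom.range_comp, Subgroup.range_subtype]
    rw [this]
  unfold jHat JH
  apply le_antisymm
  · rw [sSup_eq_iSup, Subgroup.map_iSup]
    apply iSup_le
    intro U
    rw [Subgroup.map_iSup]
    apply iSup_le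
    rintro ⟨h1, h2⟩
    refine le_sSup ⟨Subgroup.map_subtype_le _, (key U).1 h1, ?_⟩
    rw [← hJ]; exact Subgroup.map_mono h2
  · apply sSup_le
    rintro U ⟨hUS, hU, hJU⟩
    have hm : (U.subgroupOf S).map S.subtype = U := by
      rw [Subgroup.subgroupOf_map_subtype, inf_eq_left.2 hUS]
    rw [← hm]
    apply Subgroup.map_mono
    apply le_sSup
    refine ⟨(key _).2 (by rwa [hm]), ?_⟩
    intro x hx
    have h1 : (x : G) ∈ (thompsonSubgroup 2 ↥S).map S.subtype := ⟨x, hx, rfl⟩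
    rw [hJ] at h1
    exact hJU h1

variable [Finite G]

theorem EA.sup {V W : Subgroup G} (hV : EA V) (hW : EA W) (h : ∀ v ∈ V, ∀ w ∈ W, v * w = w * v) : EA (V ⊔ W) := by
  have hn : W ≤ normalizer (V : Set G) := by
    intro w hw
    apply H33.mem_norm_of_le
    rw [H33.cj_le_iff]
    intro v hv
    rw [← h v hv w hw, mul_inv_cancel_right]; exact hv
  constructor
  · intro x hx y hy
    obtain ⟨v, hv, w, hw, rfl⟩ := (H33.mem_sup_left_norm hn).1 hx
    obtain ⟨v', hv', w', hw', rfl⟩ := (H33.mem_sup_left_norm hn).1 hy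
    calc v * w * (v' * w') = v * (w * v') * w' := by group
      _ = (v * v') * (w * w') := by rw [← h v' hv' w hw]; group
      _ = (v' * v) * (w' * w) := by rw [hV.1 v hv v' hv', hW.1 w hw w' hw']
      _ = v' * (v * w') * w := by group
      _ = v' * w' * (v * w) := by rw [h v hv w' hw']; group
  · intro x hx
    obtain ⟨v, hv, w, hw, rfl⟩ := (H33.mem_sup_left_norm hn).1 hx
    calc v * w * (v * w) = v * (w * v) * w := by group
      _ = (v * v) * (w * w) := by rw [← h v hv w hw]; group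
      _ = 1 := by rw [hV.2 v hv, hW.2 w hw, one_mul]

theorem max_ge {T A V : Subgroup G} (hA : A ∈ maxEA 2 T) (hV : EA V) (hVT : V ≤ T) (hAV : A ≤ centralizer (V : Set G)) :
    V ≤ A := by
  have h1 : EA (A ⊔ V) := EA.sup (EA_iff.2 hA.2.1) hV (fun a ha v hv => (mem_centralizer_iff.1 (hAV ha) v hv).symm)
  have h2 := hA.2.2 (A ⊔ V) (sup_le hA.1 hVT) (EA_iff.1 h1)
  have h3 := Subgroup.eq_of_le_of_card_ge (le_sup_left : A ≤ A ⊔ V) h2
  exact le_sup_right.trans h3.ge

theorem JJ_ge {T V : Subgroup G} (hV : EA V) (hVT : V ≤ T) (hJV : JJ T ≤ centralizer (V : Set G)) : V ≤ JJ T := by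
  obtain ⟨A, hA⟩ := H34.maxEA_nonempty 2 T
  exact (max_ge hA hV hVT ((le_sSup hA : A ≤ JJ T).trans hJV)).trans (le_sSup hA)

theorem norm_JH {S P : Subgroup G} (hPS : P ≤ S) (hU : ∀ U ∈ EJ S, U ≤ P) (hJ : ∀ A ∈ maxEA 2 S, A ≤ P) {n : G}
    (hn : n ∈ normalizer (P : Set G)) : n ∈ normalizer (JH S : Set G) := by
  have hJn := H62.norm_JJ hPS hJ hn
  apply H33.mem_norm_of_le
  unfold JH
  rw [H33.cj, sSup_eq_iSup, Subgroup.map_iSup]
  apply iSup_le
  intro U
  rw [Subgroup.map_iSup]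
  apply iSup_le
  intro hUE
  have h1 : cj n U ≤ P := by
    rw [← mem_norm_iff.1 hn]
    exact cj_mono (hU U hUE)
  have h2 : JJ S ≤ cj n U := by
    rw [← mem_norm_iff.1 hJn]
    exact cj_mono hUE.2.2
  exact le_iSup₂_of_le (cj n U) ⟨h1.trans hPS, hUE.2.1.conj n, h2⟩ le_rfl

/-- the structure of `Ĵ(S)` -/
theorem jhat_struct {S : Subgroup G} (hS : IsPGroup 2 S) :
    EGp (JH S) ∧ JJ S ≤ JH S ∧ JH S ≤ S ∧ S ≤ normalizer (omZ (JH S) : Set G) ∧ SqH (omZ (JH S)) S ∧
      S ⊓ centralizer (omZ (JH S) : Set G) = JH S := by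
  classical
  have hfin : {V : Subgroup G | EA V ∧ V ≤ S ∧ S ≤ normalizer (V : Set G) ∧ SqH V S ∧
    ∀ U ∈ EJ S, U ≤ centralizer (V : Set G)}.Finite := Set.toFinite _
  have hZS : ∀ U ≤ S, U ≤ centralizer (omZ S : Set G) := by
    intro U hU x hx
    rw [mem_centralizer_iff]
    intro z hz
    exact hz.2.1 x (hU hx)
  obtain ⟨V, ⟨hV, hVS, hSV, hsq, hcent⟩, hmin⟩ := Set.exists_min_image _
    (fun V : Subgroup G => Nat.card (S ⊓ centralizer (V : Set G) : Subgroup G)) hfin
    ⟨omZ S, H62.EA_omZ S, H62.omZ_le S, le_normalizer.trans (H62.norm_omZ S), by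
      intro R hR _
      left
      rw [Subgroup.relIndex_eq_one]
      exact le_inf le_rfl (hZS R hR), fun U hU => hZS U hU.1⟩
  set U := S ⊓ centralizer (V : Set G) with hU
  have hUS : U ≤ S := inf_le_left
  have hVU : V ≤ U := fun v hv => ⟨hVS hv, mem_centralizer_iff.2 fun w hw => hV.1 w hw v hv⟩
  have hSU : S ≤ normalizer (U : Set G) := fun s hs =>
    H33.norm_inf (le_normalizer hs) (H33.norm_le_norm_cent V (hSV hs))
  have hJU : ∀ A ∈ maxEA 2 S, A ≤ U := fun A hA => le_inf hA.1 (cent_of_max hA hV hVS hSV hsq)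
  have hJJU : JJ S ≤ U := H62.JJ_le_of hJU
  have hEU : EGp U := by
    intro W hWU hW hUW hPP
    by_contra hnc
    have hsqW : SqH W U := hPP.sqH
    have hcjU : ∀ s ∈ S, cj s U = U := fun s hs => mem_norm_iff.1 (hSU hs)
    have hcW : ∀ s ∈ S, cj s W ≤ U := by
      intro s hs
      have := cj_mono (g := s) hWU
      rwa [hcjU s hs] at this
    have hcWn : ∀ s ∈ S, U ≤ normalizer (cj s W : Set G) := by
      intro s hs
      have := cj_mono (g := s) hUW
      rwa [hcjU s hs, H33.cj_normalizer] at this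
    have hcPP : ∀ s ∈ S, PP (cj s W) U := by
      intro s hs
      have := hPP.conj s
      rwa [hcjU s hs] at this
    have hW₁ : EA (ncl S W) := EA_ncl hW (fun s hs => comm_of_sqH hW (hW.cj s) hWU (hcW s hs) hsqW (hcPP s hs).sqH)
    have hsqW₁ : SqH (ncl S W) U := SqH.ncl hW₁ (fun s hs => (hcPP s hs).sqH)
    have hW₁U : ncl S W ≤ U := ncl_le hcW
    have hV' : EA (V ⊔ ncl S W) := EA.sup hV hW₁ (fun v hv w hw =>
      mem_centralizer_iff.1 (hW₁U hw).2 v hv)
    have hV'mem : EA (V ⊔ ncl S W) ∧ V ⊔ ncl S W ≤ S ∧ S ≤ normalizer ((V ⊔ ncl S W : Subgroup G) : Set G) ∧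
        SqH (V ⊔ ncl S W) S ∧ ∀ U' ∈ EJ S, U' ≤ centralizer ((V ⊔ ncl S W : Subgroup G) : Set G) := by
      refine ⟨hV', sup_le hVS (hW₁U.trans hUS), fun s hs => H33.norm_sup (hSV hs) (norm_ncl S W hs), ?_, ?_⟩
      · refine SqH.sup hV' le_sup_left le_sup_right hsq (fun P hP _ => hsqW₁.mono ?_)
        exact inf_le_inf_right _ hP
      · intro U' hU'
        have hU'U : U' ≤ U := le_inf hU'.1 (hcent U' hU')
        rw [le_centralizer_iff]
        refine sup_le ?_ ?_
        · rw [← le_centralizer_iff]; exact hcent U' hU'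
        · apply ncl_le
          intro s hs
          refine hU'.2.1 (cj s W) ?_ (hW.cj s) (hU'U.trans (hcWn s hs)) ((hcPP s hs).mono hU'U)
          refine (JJ_ge (hW.cj s) ((hcW s hs).trans hUS) ?_).trans hU'.2.2
          apply H62.JJ_le_of
          intro A hA
          have hAU : A ∈ maxEA 2 U := ⟨hJU A hA, hA.2.1, fun B hB hB2 => hA.2.2 B (hB.trans hUS) hB2⟩
          exact cent_of_max hAU (hW.cj s) (hcW s hs) (hcWn s hs) (hcPP s hs).sqH
    have h1 := hmin _ hV'mem
    have hle : S ⊓ centralizer ((V ⊔ ncl S W : Subgroup G) : Set G) ≤ U :=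
      inf_le_inf_left _ (centralizer_le (le_sup_left : V ≤ V ⊔ ncl S W))
    have h2 := Subgroup.eq_of_le_of_card_ge hle h1
    apply hnc
    rw [le_centralizer_iff, ← h2]
    refine inf_le_right.trans (centralizer_le ?_)
    exact (le_ncl S W).trans le_sup_right
  have hUEJ : U ∈ EJ S := ⟨hUS, hEU, hJJU⟩
  have hJH : JH S = U := by
    apply le_antisymm
    · exact sSup_le fun U' hU' => le_inf hU'.1 (hcent U' hU')
    · exact le_sSup hUEJ
  rw [hJH]
  have hVZ : V ≤ omZ U := by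
    intro v hv
    exact ⟨hVU hv, fun s hs => mem_centralizer_iff.1 hs.2 v hv, hV.2 v hv⟩
  have hZU : S ⊓ centralizer (omZ U : Set G) = U := by
    apply le_antisymm
    · exact inf_le_inf_left _ (centralizer_le hVZ)
    · refine le_inf hUS ?_
      intro x hx
      rw [mem_centralizer_iff]
      intro z hz
      exact hz.2.1 x hx
  refine ⟨hEU, hJJU, hUS, hSU.trans (H62.norm_omZ U), ?_, hZU⟩
  intro R hR hq
  have h1 := hsq R hR (hq.mono le_rfl hVZ)
  have e1 : R ⊓ centralizer (V : Set G) = R ⊓ centralizer (omZ U : Set G) := by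
    have h2 : R ⊓ centralizer (V : Set G) = R ⊓ (S ⊓ centralizer (V : Set G)) := by
      rw [← inf_assoc, inf_eq_left.2 hR]
    have h3 : R ⊓ centralizer (omZ U : Set G) = R ⊓ (S ⊓ centralizer (omZ U : Set G)) := by
      rw [← inf_assoc, inf_eq_left.2 hR]
    rw [h2, h3, hZU]
  rw [← e1]
  refine h1.mono ?_
  have h3 : (V ⊓ centralizer (R : Set G)).relIndex V = (omZ U ⊓ centralizer (R : Set G)).relIndex V := by
    rw [← Subgroup.inf_relIndex_right (omZ U ⊓ centralizer (R : Set G)) V]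
    congr 1
    ext x
    constructor
    · rintro ⟨hx, hxR⟩; exact ⟨⟨hVZ hx, hxR⟩, hx⟩
    · rintro ⟨⟨-, hxR⟩, hx⟩; exact ⟨hx, hxR⟩
  rw [h3]
  exact Subgroup.relIndex_le_of_le_right hVZ (H62.relIndex_ne_zero' _ _)

end

end Cfsg.Agent.H33.GF
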