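import Cfsg.Agent.H33.GF20

set_option autoImplicit false
set_option linter.unusedVariables false
set_option linter.unusedSectionVars false
set_option linter.style.haveILetI false
set_option linter.deprecated false

/-!
The 2-factorization theorem.
-/

namespace Cfsg.Agent.H33.GF

open Subgroup Cfsg
open H33 (cj mem_cj conj_mem_cj cj_mul cj_mono IsSyl mem_norm_iff)
open H34 (fixedBy mem_fixedBy fixedBy_anti maxEA)
open H62 (EA EA_iff Quad ncl o2 omZ cj_le_ncl le_ncl ncl_le ncl_le_of_norm norm_ncl EA_ncl norm_o2 o2_le isPGroup_o2 le_o2 JJ)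

universe u

section

variable {G : Type u} [Group G] [Finite G]

theorem o2_top : o2 (⊤ : Subgroup G) = pCore 2 G := by
  apply le_antisymm
  · apply Solv.le_pCore _ (isPGroup_o2 _)
    exact Subgroup.normalizer_eq_top_iff.1 (top_le_iff.1 (norm_o2 (⊤ : Subgroup G)))
  · apply le_o2 le_top (Solv.pCore_isPGroup 2)
    rw [normalizer_eq_top]

theorem locK_top (S : Sylow 2 G) (hchar : centralizer (pCore 2 G : Set G) ≤ pCore 2 G)
    (hfree : ¬ Involves (Equiv.Perm (Fin 4)) G) (hc : IsCompositionKGroupWith IsSuzukiOrPSL2OddPowerThree G) :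
    LocK (S : Subgroup G) ⊤ := by
  refine ⟨H33.isSyl_top S, (kc_of hc).iso Subgroup.topEquiv.symm, ?_, ?_⟩
  · intro hi
    exact H62.not_involves_S3 hchar hfree (H46.involves_of_subgroup hi)
  · rw [o2_top, top_inf_eq]; exact hchar

theorem frat_factor {S D : Subgroup G} (hS : IsSyl 2 S ⊤) (hD : D.Normal) (g : G) :
    ∃ c ∈ D, ∃ n ∈ normalizer ((S ⊓ D : Subgroup G) : Set G), g = c * n := by
  obtain ⟨k, hk, n, hn, h⟩ := frattini' hS (le_top : D ≤ ⊤) (by rw [normalizer_eq_top]) (mem_top g)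
  exact ⟨k, hk, n, hn.2, h⟩

/-- the abelian normal subgroup generated by the conjugates of `Z(S)` -/
theorem zcl {S : Subgroup G} (h : LocK S ⊤) :
    ncl ⊤ (S ⊓ centralizer (S : Set G)) ≤ o2 ⊤ ∧ ncl ⊤ (S ⊓ centralizer (S : Set G)) ≤ centralizer (o2 (⊤ : Subgroup G) : Set G) := by
  have hQS : o2 (⊤ : Subgroup G) ≤ S := H62.o2_le_syl h.syl
  have h1 : S ⊓ centralizer (S : Set G) ≤ centralizer (o2 (⊤ : Subgroup G) : Set G) := inf_le_right.trans (centralizer_le hQS)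
  have h2 : S ⊓ centralizer (S : Set G) ≤ o2 (⊤ : Subgroup G) := fun x hx => h.c2 ⟨mem_top x, h1 hx⟩
  refine ⟨ncl_le_of_norm (norm_o2 _) h2, ncl_le_of_norm ?_ h1⟩
  intro x hx
  exact H33.norm_le_norm_cent _ (norm_o2 (⊤ : Subgroup G) hx)

theorem zfacts (hFT : FT.{u}) (hG : GI.{u}) {S : Subgroup G} (h : LocK S ⊤) :
    let V := omZ (ncl ⊤ (S ⊓ centralizer (S : Set G)))
    EA V ∧ V ≤ S ∧ V.Normal ∧ SqH V S ∧ PP V S ∧ centralizer (V : Set G) ≤ centralizer ((S ⊓ centralizer (S : Set G) : Subgroup G) : Set G) := by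
  intro V
  set Z := S ⊓ centralizer (S : Set G) with hZ
  set V' := ncl ⊤ Z with hV'
  obtain ⟨h1, h2⟩ := zcl h
  rw [← hZ, ← hV'] at h1 h2
  have hQS : o2 (⊤ : Subgroup G) ≤ S := H62.o2_le_syl h.syl
  have hab : ∀ a ∈ V', ∀ b ∈ V', a * b = b * a := fun a ha b hb => mem_centralizer_iff.1 (h2 hb) a (h1 ha)
  have hV'n : (⊤ : Subgroup G) ≤ normalizer (V' : Set G) := norm_ncl _ _
  have hV'p : IsPGroup 2 V' := (isPGroup_o2 _).to_le h1
  have hVe : EA V := H62.EA_omZ V'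
  have hVV' : V ≤ V' := H62.omZ_le V'
  have hVn : (⊤ : Subgroup G) ≤ normalizer (V : Set G) := hV'n.trans (H62.norm_omZ V')
  have hZS : Z ≤ centralizer (S : Set G) := inf_le_right
  have hmV : ∀ v ∈ V', v * v = 1 → v ∈ V := fun v hv hv2 => ⟨hv, fun s hs => hab v hv s hs, hv2⟩
  have hred : ∀ D ≤ (⊤ : Subgroup G), ⊤ ≤ normalizer (D : Set G) →
      (∀ d ∈ D, ∃ k : ℕ, d ^ 2 ^ k ∈ centralizer (V : Set G)) → D ≤ centralizer (V' : Set G) := by
    intro D hD hDn hDV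
    apply reduced' h.syl hZS hD hDn
    intro d hd
    obtain ⟨k, hk⟩ := hDV d hd
    obtain ⟨a, ha⟩ := H62.exists_odd_pow (t := d ^ 2 ^ k)
    refine ⟨k + a, ?_⟩
    rw [pow_add, pow_mul]
    rw [mem_centralizer_iff]
    intro v hv
    refine (odd_cent hab hV'p (hV'n (mem_top _)) ha ?_ v hv).symm
    intro w hw hw2
    exact (mem_centralizer_iff.1 (pow_mem hk (2 ^ a)) w (hmV w hw hw2)).symm
  have hbq := fun (R : Subgroup G) (hR : R ≤ S) (hq : Quad R V) =>
    bound_quad hFT hG hVe hVn h.free h.kc (fun D hD hDn hDV => (hred D hD hDn hDV).trans (centralizer_le hVV'))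
      (hR.trans le_top) hq
  refine ⟨hVe, (hVV'.trans h1).trans hQS, Subgroup.normalizer_eq_top_iff.1 (top_le_iff.1 hVn), ?_, ?_, ?_⟩
  · exact SqH.of_sq fun R hR hq => (hbq R hR hq).1
  · exact PP.of_sq hbq
  · have h3 := hred (centralizer (V : Set G)) le_top (by
        intro x hx
        exact H33.norm_le_norm_cent V (hVn hx)) (fun d hd => ⟨0, by simpa using hd⟩)
    exact h3.trans (centralizer_le (le_ncl _ _))

omit [Finite G] in
theorem omegaOne_le (U : Subgroup G) : omegaOne 2 (U ⊓ centralizer (U : Set G)) ≤ omZ U := by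
  unfold omegaOne
  rw [closure_le]
  rintro x ⟨⟨hx, hxc⟩, hx2⟩
  refine ⟨hx, fun s hs => (mem_centralizer_iff.1 hxc s hs).symm, ?_⟩
  rw [← sq]; exact hx2

theorem factor_all (hFT : FT.{u}) (hG : GI.{u}) {S : Subgroup G} (h : LocK S ⊤) :
    (∀ g : G, ∃ c ∈ centralizer ((S ⊓ centralizer (S : Set G) : Subgroup G) : Set G),
      ∃ n ∈ normalizer (JJ S : Set G), g = c * n) ∧
    (∀ g : G, ∃ c ∈ centralizer ((S ⊓ centralizer (S : Set G) : Subgroup G) : Set G),
      ∃ n ∈ normalizer (JH S : Set G), g = c * n) ∧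
    (∀ g : G, ∃ c ∈ centralizer (omZ (JH S) : Set G), ∃ n ∈ normalizer (JJ S : Set G), g = c * n) := by
  haveI : Fact (Nat.Prime 2) := ⟨Nat.prime_two⟩
  obtain ⟨hVe, hVS, hVn, hsq, hPP, hcent⟩ := zfacts hFT hG h
  set V := omZ (ncl ⊤ (S ⊓ centralizer (S : Set G))) with hV
  have hSV : ∀ K : Subgroup G, K ≤ normalizer (V : Set G) := by
    intro K
    rw [normalizer_eq_top]; exact le_top
  set D := centralizer (V : Set G) with hD
  have hDn : D.Normal := by rw [hD]; infer_instance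
  have hJD : ∀ A ∈ maxEA 2 S, A ≤ S ⊓ D := fun A hA => le_inf hA.1 (cent_of_max hA hVe hVS (hSV S) hsq)
  have hJJ : JJ S ≤ centralizer (V : Set G) := (H62.JJ_le_of hJD).trans inf_le_right
  have hED : ∀ U ∈ EJ S, U ≤ S ⊓ D := by
    intro U hU
    refine le_inf hU.1 ?_
    rw [le_centralizer_iff]
    exact hU.2.1 V ((JJ_ge hVe hVS hJJ).trans hU.2.2) hVe (hSV U) (hPP.mono hU.1)
  refine ⟨?_, ?_, ?_⟩
  · intro g
    obtain ⟨c, hc, n, hn, hg⟩ := frat_factor h.syl hDn g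
    exact ⟨c, hcent hc, n, H62.norm_JJ inf_le_left hJD hn, hg⟩
  · intro g
    obtain ⟨c, hc, n, hn, hg⟩ := frat_factor h.syl hDn g
    exact ⟨c, hcent hc, n, norm_JH inf_le_left hED hJD hn, hg⟩
  · obtain ⟨k1, k2, k3, k4, k5, k6⟩ := jhat_struct h.syl.2.1
    have k7 := three hFT hG (H62.EA_omZ (JH S)) ((H62.omZ_le _).trans k3) k4 k5 _ ⊤ le_rfl h
    set E := ncl ⊤ (omZ (JH S)) with hE
    have hEn : E.Normal := Subgroup.normalizer_eq_top_iff.1 (top_le_iff.1 (norm_ncl _ _))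
    have hCn : (centralizer (E : Set G)).Normal := inferInstance
    intro g
    obtain ⟨c, hc, n, hn, hg⟩ := frat_factor h.syl hCn g
    refine ⟨c, centralizer_le (le_ncl _ _) hc, n, H62.norm_JJ inf_le_left (fun A hA => le_inf hA.1 ?_) hn, hg⟩
    exact (le_sSup hA : A ≤ JJ S).trans k7

end

end Cfsg.Agent.H33.GF
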