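import Cfsg.Agent.H33.GF21
import Cfsg.Agent.H33.KInfFun

set_option autoImplicit false
set_option linter.unusedVariables false
set_option linter.unusedSectionVars false
set_option linter.style.haveILetI false
set_option linter.deprecated false

/-!
The functors `J_e` and `Ω₁ Z Ĵ` on 2-groups.
-/

namespace Cfsg.Agent.H33.GF

open Subgroup Cfsg
open H33 (cj mem_cj conj_mem_cj cj_mul cj_mono IsSyl mem_norm_iff)
open H34 (fixedBy mem_fixedBy fixedBy_anti maxEA)
open H62 (EA EA_iff Quad ncl o2 omZ cj_le_ncl le_ncl ncl_le ncl_le_of_norm norm_ncl EA_ncl norm_o2 o2_le isPGroup_o2 le_o2 JJ)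

universe u

section

/-- `J_e` -/
def W1 (Q : Type u) [Group Q] : Subgroup Q := thompsonSubgroup 2 Q

/-- `Ω₁ Z Ĵ` -/
def W2 (Q : Type u) [Group Q] : Subgroup Q :=
  omegaOne 2 (jHat Q ⊓ centralizer ((jHat Q : Subgroup Q) : Set Q))

variable {Q R : Type u} [Group Q] [Group R]

theorem map_thom_le (φ : Q ≃* R) : (thompsonSubgroup 2 Q).map φ.toMonoidHom ≤ thompsonSubgroup 2 R := by
  unfold thompsonSubgroup
  rw [sSup_eq_iSup, Subgroup.map_iSup]
  apply iSup_le
  intro A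
  rw [Subgroup.map_iSup]
  apply iSup_le
  rintro ⟨hA1, hA2⟩
  apply le_sSup
  refine ⟨H34.isElementaryAbelian_map _ hA1, ?_⟩
  intro B hB
  have h := hA2 (B.map φ.symm.toMonoidHom) (H34.isElementaryAbelian_map _ hB)
  rw [Subgroup.card_map_of_injective φ.symm.injective] at h
  rwa [Subgroup.card_map_of_injective φ.injective]

theorem map_map_symm (φ : Q ≃* R) (A : Subgroup R) :
    (A.map φ.symm.toMonoidHom).map φ.toMonoidHom = A := by
  rw [Subgroup.map_map]
  have : φ.toMonoidHom.comp φ.symm.toMonoidHom = MonoidHom.id R := by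
    ext x; simp
  rw [this, Subgroup.map_id]

theorem map_thom (φ : Q ≃* R) : (thompsonSubgroup 2 Q).map φ.toMonoidHom = thompsonSubgroup 2 R := by
  apply le_antisymm (map_thom_le φ)
  rw [← map_map_symm φ (thompsonSubgroup 2 R)]
  exact Subgroup.map_mono (map_thom_le φ.symm)

theorem egroup_map (φ : Q ≃* R) {U : Subgroup Q} (hU : IsEGroup U) : IsEGroup (U.map φ.toMonoidHom) := by
  have h1 := (egroup_iff_range (φ.toMonoidHom.comp U.subtype)
    (φ.injective.comp U.subtype_injective)).1 hU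
  have h2 := egroup_iff_range (U.map φ.toMonoidHom).subtype (U.map φ.toMonoidHom).subtype_injective
  rw [h2, Subgroup.range_subtype]
  rwa [MonoidHom.range_comp, Subgroup.range_subtype] at h1

theorem map_jHat_le (φ : Q ≃* R) : (jHat Q).map φ.toMonoidHom ≤ jHat R := by
  unfold jHat
  rw [sSup_eq_iSup, Subgroup.map_iSup]
  apply iSup_le
  intro A
  rw [Subgroup.map_iSup]
  apply iSup_le
  rintro ⟨hA1, hA2⟩
  apply le_sSup
  refine ⟨egroup_map φ hA1, ?_⟩
  rw [← map_thom φ]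
  exact Subgroup.map_mono hA2

theorem map_jHat (φ : Q ≃* R) : (jHat Q).map φ.toMonoidHom = jHat R := by
  apply le_antisymm (map_jHat_le φ)
  rw [← map_map_symm φ (jHat R)]
  exact Subgroup.map_mono (map_jHat_le φ.symm)

theorem map_W2_le (φ : Q ≃* R) : (W2 Q).map φ.toMonoidHom ≤ W2 R := by
  unfold W2 omegaOne
  rw [MonoidHom.map_closure, closure_le]
  rintro _ ⟨x, ⟨⟨hx, hxc⟩, hx2⟩, rfl⟩
  apply Subgroup.subset_closure
  refine ⟨⟨map_jHat_le φ ⟨x, hx, rfl⟩, ?_⟩, ?_⟩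
  · refine mem_centralizer_iff.2 ?_
    intro y hy
    rw [SetLike.mem_coe, ← map_jHat φ] at hy
    obtain ⟨z, hz, rfl⟩ := hy
    rw [← map_mul, ← map_mul, mem_centralizer_iff.1 hxc z hz]
  · rw [← map_pow, hx2, map_one]

theorem map_W2 (φ : Q ≃* R) : (W2 Q).map φ.toMonoidHom = W2 R := by
  apply le_antisymm (map_W2_le φ)
  rw [← map_map_symm φ (W2 R)]
  exact Subgroup.map_mono (map_W2_le φ.symm)

/-- an involution of the centre of a nontrivial 2-group -/
theorem exists_central_inv (Q : Type u) [Group Q] [Finite Q] (hQ : IsPGroup 2 Q) (hn : Nontrivial Q) :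
    ∃ z : Q, z ≠ 1 ∧ z ^ 2 = 1 ∧ ∀ y : Q, y * z = z * y := by
  haveI : Fact (Nat.Prime 2) := ⟨Nat.prime_two⟩
  haveI : Nontrivial (Subgroup.center Q) := hQ.center_nontrivial
  have h2 : 2 ∣ Nat.card (Subgroup.center Q) := by
    have h3 : IsPGroup 2 (Subgroup.center Q) := hQ.to_subgroup _
    obtain ⟨n, hn'⟩ := IsPGroup.iff_card.1 h3
    have : n ≠ 0 := by
      rintro rfl
      rw [pow_zero] at hn'
      have := Finite.one_lt_card_iff_nontrivial.2 ‹Nontrivial (Subgroup.center Q)›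
      omega
    rw [hn']
    exact dvd_pow_self 2 this
  obtain ⟨z, hz⟩ := exists_prime_orderOf_dvd_card' 2 h2
  refine ⟨z, ?_, ?_, fun y => Subgroup.mem_center_iff.1 z.2 y⟩
  · intro h
    have : z = 1 := Subtype.ext h
    rw [this, orderOf_one] at hz
    omega
  · have := pow_orderOf_eq_one z
    rw [hz] at this
    exact_mod_cast congrArg Subtype.val this

theorem inv_mem_thom {Q : Type u} [Group Q] [Finite Q] {z : Q} (hz2 : z ^ 2 = 1)
    (hzc : ∀ y : Q, y * z = z * y) : z ∈ thompsonSubgroup 2 Q := by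
  obtain ⟨A, hA⟩ : ∃ A : Subgroup Q, A ∈ maxElementaryAbelianSubgroups 2 Q := by
    obtain ⟨A, hA1, hA2, hA3⟩ := H34.maxEA_nonempty 2 (⊤ : Subgroup Q)
    exact ⟨A, hA2, fun B hB => hA3 B le_top hB⟩
  have hzz : z * z = 1 := by rw [← sq]; exact hz2
  have hE : EA (A ⊔ zpowers z) := by
    refine EA.sup (EA_iff.2 hA.1) ⟨?_, ?_⟩ ?_
    · rintro a ⟨i, rfl⟩ b ⟨j, rfl⟩
      simp only
      rw [← zpow_add, ← zpow_add, add_comm]
    · rintro a ⟨i, rfl⟩
      simp only
      rw [← zpow_add, ← two_mul, zpow_mul]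
      have : z ^ (2 : ℤ) = 1 := by exact_mod_cast hz2
      rw [this, one_zpow]
    · rintro v hv _ ⟨i, rfl⟩
      have : Commute v z := hzc v
      exact (this.zpow_right i).eq
  have h1 := hA.2 _ (EA_iff.1 hE)
  have h2 : A = A ⊔ zpowers z :=
    Subgroup.eq_of_le_of_card_ge le_sup_left h1
  have h3 : z ∈ A := by
    rw [h2]
    exact (le_sup_right : zpowers z ≤ _) (mem_zpowers z)
  exact (le_sSup hA : A ≤ _) h3

/-- `J_e(Q) ≤ Ĵ(Q)` -/
theorem thom_le_jHat {Q : Type u} [Group Q] [Finite Q] (hQ : IsPGroup 2 Q) : thompsonSubgroup 2 Q ≤ jHat Q := by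
  have h1 := (jhat_struct (S := (⊤ : Subgroup Q)) (hQ.to_subgroup _)).2.1
  rw [← JJ_eq, ← jHat_eq] at h1
  have e1 : thompsonSubgroupOf 2 (⊤ : Subgroup Q) = thompsonSubgroup 2 Q := map_thom (Subgroup.topEquiv)
  have e2 : (jHat ↥(⊤ : Subgroup Q)).map (⊤ : Subgroup Q).subtype = jHat Q := map_jHat (Subgroup.topEquiv)
  rwa [e1, e2] at h1

theorem charP_W1 : IsCharPFunctor.{u} 2 W1 := by
  refine ⟨?_, ?_⟩
  · intro Q _ _ hQ hnt h0
    obtain ⟨z, hz1, hz2, hzc⟩ := exists_central_inv Q hQ hnt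
    have := inv_mem_thom hz2 hzc
    change z ∈ W1 Q at this
    rw [h0, mem_bot] at this
    exact hz1 this
  · intro Q R _ _ _ hQ φ
    exact map_thom φ

theorem inv_mem_W2 {Q : Type u} [Group Q] [Finite Q] (hQ : IsPGroup 2 Q) {z : Q} (hz2 : z ^ 2 = 1)
    (hzc : ∀ y : Q, y * z = z * y) : z ∈ W2 Q := by
  apply Subgroup.subset_closure
  exact ⟨⟨thom_le_jHat hQ (inv_mem_thom hz2 hzc), mem_centralizer_iff.2 fun y _ => hzc y⟩, hz2⟩

theorem charP_W2 : IsCharPFunctor.{u} 2 W2 := by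
  refine ⟨?_, ?_⟩
  · intro Q _ _ hQ hnt h0
    obtain ⟨z, hz1, hz2, hzc⟩ := exists_central_inv Q hQ hnt
    have := inv_mem_W2 hQ hz2 hzc
    rw [h0, mem_bot] at this
    exact hz1 this
  · intro Q R _ _ _ hQ φ
    exact map_W2 φ

end

section

variable {G : Type u} [Group G]

theorem omZ_le_ind [Finite G] {S : Subgroup G} (hS : IsPGroup 2 S) :
    omegaOne 2 (S ⊓ centralizer (S : Set G)) ≤ inducedFunctor (G := G) W1 S ⊓ inducedFunctor (G := G) W2 S := by
  unfold omegaOne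
  rw [closure_le]
  rintro x ⟨⟨hx, hxc⟩, hx2⟩
  have h2 : (⟨x, hx⟩ : S) ^ 2 = 1 := Subtype.ext hx2
  have hc : ∀ y : S, y * ⟨x, hx⟩ = ⟨x, hx⟩ * y := fun y => Subtype.ext (mem_centralizer_iff.1 hxc y y.2)
  exact ⟨⟨⟨x, hx⟩, inv_mem_thom h2 hc, rfl⟩, ⟨⟨x, hx⟩, inv_mem_W2 hS h2 hc, rfl⟩⟩

theorem map_omegaOne {G' : Type*} [Group G'] (f : G →* G') (hf : Function.Injective f) (p : ℕ) (H : Subgroup G) :
    (omegaOne p H).map f = omegaOne p (H.map f) := by
  unfold omegaOne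
  rw [MonoidHom.map_closure]
  congr 1
  ext y
  constructor
  · rintro ⟨x, ⟨hx, hx2⟩, rfl⟩
    exact ⟨⟨x, hx, rfl⟩, by rw [← map_pow, hx2, map_one]⟩
  · rintro ⟨⟨x, hx, rfl⟩, hx2⟩
    refine ⟨x, ⟨hx, hf ?_⟩, rfl⟩
    rw [map_pow, hx2, map_one]

theorem ind_W2 (S : Subgroup G) : inducedFunctor (G := G) W2 S =
    omegaOne 2 (((jHat ↥S).map S.subtype) ⊓ centralizer (((jHat ↥S).map S.subtype : Subgroup G) : Set G)) := by
  unfold inducedFunctor W2
  rw [map_omegaOne _ S.subtype_injective, H33.map_inf_cent_sub]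

theorem norm_omegaOne_le (p : ℕ) (H : Subgroup G) :
    normalizer (H : Set G) ≤ normalizer (omegaOne p H : Set G) := by
  intro g hg
  have key : ∀ g ∈ normalizer (H : Set G), ∀ x ∈ omegaOne p H, g * x * g⁻¹ ∈ omegaOne p H := by
    intro g hg x hx
    refine closure_induction (p := fun x _ => g * x * g⁻¹ ∈ omegaOne p H) ?_ ?_ ?_ ?_ hx
    · rintro y ⟨hy, hy2⟩
      apply Subgroup.subset_closure
      refine ⟨(mem_normalizer_iff.1 hg y).1 hy, ?_⟩
      rw [conj_pow, hy2]; group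
    · simp only [mul_one, mul_inv_cancel]; exact one_mem _
    · intro y z _ _ hy hz
      have : g * (y * z) * g⁻¹ = (g * y * g⁻¹) * (g * z * g⁻¹) := by group
      rw [this]; exact mul_mem hy hz
    · intro y _ hy
      have : g * y⁻¹ * g⁻¹ = (g * y * g⁻¹)⁻¹ := by group
      rw [this]; exact inv_mem hy
  rw [mem_normalizer_iff]
  intro x
  refine ⟨key g hg x, fun h => ?_⟩
  have := key g⁻¹ (inv_mem hg) _ h
  have e : g⁻¹ * (g * x * g⁻¹) * g⁻¹⁻¹ = x := by group
  rwa [e] at this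

theorem norm_inf_cent_le (H : Subgroup G) :
    normalizer (H : Set G) ≤ normalizer ((H ⊓ centralizer (H : Set G) : Subgroup G) : Set G) := by
  intro g hg
  have h1 := H33.norm_le_norm_cent H hg
  rw [mem_normalizer_iff] at hg h1 ⊢
  intro x
  exact and_congr (hg x) (h1 x)

end

end Cfsg.Agent.H33.GF
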