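import Cfsg.Agent.H33.GF2

set_option autoImplicit false
set_option linter.unusedVariables false
set_option linter.unusedSectionVars false
set_option linter.style.haveILetI false
set_option linter.deprecated false

/-!
The linear lemma for an element inverted modulo `P`.
-/

namespace Cfsg.Agent.H33.GF

open Subgroup Cfsg
open H34 (fixedBy mem_fixedBy fixedBy_anti)

/-- In a group: an element `y` of odd order with `y ≡ z mod P` and `y ∈ ⟨A, A^y⟩`. -/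
theorem exists_zip {Γ : Type*} [Group Γ] [Finite Γ] {A P : Subgroup Γ} {a z : Γ} (ha : a ∈ A) (ha2 : a * a = 1)
    (hAP : A ≤ normalizer (P : Set Γ)) (hzP : z ∈ normalizer (P : Set Γ)) (hz : Odd (orderOf z))
    (hinv : a * z * a⁻¹ * z ∈ P) :
    ∃ y : Γ, Odd (orderOf y) ∧ y ∈ normalizer (P : Set Γ) ∧ z⁻¹ * y ∈ P ∧
      y ∈ A ⊔ A.map (MulAut.conj y).toMonoidHom ∧ y ^ orderOf z ∈ P := by
  classical
  set N := normalizer (P : Set Γ) with hN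
  haveI : (P.subgroupOf N).Normal := by rw [hN]; exact Subgroup.normal_in_normalizer
  set π : N →* N ⧸ P.subgroupOf N := QuotientGroup.mk' _ with hπ
  have hπe : ∀ (g h : Γ) (hg : g ∈ N) (hh : h ∈ N), π ⟨g, hg⟩ = π ⟨h, hh⟩ ↔ g⁻¹ * h ∈ P := by
    intro g h hg hh
    rw [hπ, QuotientGroup.mk'_apply, QuotientGroup.mk'_apply, QuotientGroup.eq, mem_subgroupOf]
    rfl
  set ζ := π ⟨z, hzP⟩ with hζ
  set α := π ⟨a, hAP ha⟩ with hα
  have hinv' : α * ζ * α⁻¹ = ζ⁻¹ := by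
    rw [eq_inv_iff_mul_eq_one, hα, hζ, ← map_inv, ← map_mul, ← map_mul, ← map_mul, ← map_one π]
    have h1 : (1 : N) = ⟨1, N.one_mem⟩ := rfl
    have h2 : (⟨a, hAP ha⟩ : N) * ⟨z, hzP⟩ * (⟨a, hAP ha⟩ : N)⁻¹ * ⟨z, hzP⟩ =
      ⟨a * z * a⁻¹ * z, mul_mem (mul_mem (mul_mem (hAP ha) hzP) (inv_mem (hAP ha))) hzP⟩ := rfl
    rw [h1, h2, hπe]
    have h3 := P.inv_mem hinv
    simpa using h3
  have hfin : {x : Γ | ∃ hx : x ∈ N, π ⟨x, hx⟩ = ζ}.Finite := Set.toFinite _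
  obtain ⟨x, ⟨hxN, hxπ⟩, hmin⟩ := Set.exists_min_image _
    (fun x : Γ => Nat.card (A ⊔ A.map (MulAut.conj x).toMonoidHom : Subgroup Γ)) hfin ⟨z, hzP, rfl⟩
  set L := A ⊔ A.map (MulAut.conj x).toMonoidHom with hL
  have key : ∀ y (hy : y ∈ N), π ⟨y, hy⟩ = ζ → y ∈ L → A ⊔ A.map (MulAut.conj y).toMonoidHom = L := by
    intro y hy hyπ hyL
    have hle : A ⊔ A.map (MulAut.conj y).toMonoidHom ≤ L := by
      refine sup_le le_sup_left ?_
      rintro _ ⟨b, hb, rfl⟩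
      exact mul_mem (mul_mem hyL (le_sup_left (b := A.map _) hb)) (inv_mem hyL)
    exact Subgroup.eq_of_le_of_card_ge hle (hmin y ⟨hy, hyπ⟩)
  -- the element w
  obtain ⟨k, hk⟩ := hz
  have hζo : ζ ^ orderOf z = 1 := by
    rw [hζ, ← map_pow]
    have : (⟨z, hzP⟩ : N) ^ orderOf z = 1 := Subtype.ext (pow_orderOf_eq_one z)
    rw [this, map_one]
  set w := (x * a * x⁻¹) * a with hw
  have hwL : w ∈ L := mul_mem (le_sup_right (a := A) ⟨a, ha, rfl⟩) (le_sup_left (b := A.map _) ha)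
  have hwN : w ∈ N := mul_mem (mul_mem (mul_mem hxN (hAP ha)) (inv_mem hxN)) (hAP ha)
  have hαα : α * α = 1 := by
    rw [hα, ← map_mul]
    have : (⟨a, hAP ha⟩ : N) * ⟨a, hAP ha⟩ = 1 := Subtype.ext ha2
    rw [this, map_one]
  have hαi : α⁻¹ = α := inv_eq_of_mul_eq_one_left hαα
  have hinv2 : α * ζ⁻¹ * α⁻¹ = ζ := by
    have := congrArg (·⁻¹) hinv'
    simpa [mul_assoc] using this
  have hπw : π ⟨w, hwN⟩ = ζ ^ 2 := by
    have h1 : (⟨w, hwN⟩ : N) = (⟨x, hxN⟩ * ⟨a, hAP ha⟩ * (⟨x, hxN⟩ : N)⁻¹) * ⟨a, hAP ha⟩ := rfl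
    rw [h1, map_mul, map_mul, map_mul, map_inv, hxπ, ← hα, sq]
    calc ζ * α * ζ⁻¹ * α = ζ * (α * ζ⁻¹ * α⁻¹) := by rw [hαi]; group
      _ = ζ * ζ := by rw [hinv2]
  set y := w ^ (k + 1) with hy
  have hyN : y ∈ N := pow_mem hwN _
  have hyL : y ∈ L := pow_mem hwL _
  have hπy : π ⟨y, hyN⟩ = ζ := by
    have h1 : (⟨y, hyN⟩ : N) = (⟨w, hwN⟩ : N) ^ (k + 1) := rfl
    rw [h1, map_pow, hπw, ← pow_mul]
    have : 2 * (k + 1) = orderOf z + 1 := by rw [hk]; ring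
    rw [this, pow_succ, hζo, one_mul]
  -- the odd part
  obtain ⟨e, n, hn, he⟩ := Nat.exists_eq_two_pow_mul_odd (orderOf_pos y).ne'
  have hζ2 : ζ ^ n = 1 := by
    have h1 : ζ ^ (2 ^ e * n) = 1 := by
      rw [← he, ← hπy, ← map_pow]
      have : (⟨y, hyN⟩ : N) ^ orderOf y = 1 := Subtype.ext (pow_orderOf_eq_one y)
      rw [this, map_one]
    have h2 : orderOf ζ ∣ 2 ^ e * n := orderOf_dvd_of_pow_eq_one h1
    have h3 : orderOf ζ ∣ orderOf z := orderOf_dvd_of_pow_eq_one hζo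
    have h4 : (orderOf ζ).Coprime (2 ^ e) := by
      apply Nat.Coprime.pow_right
      apply Nat.Coprime.coprime_dvd_left h3
      exact Nat.coprime_two_right.2 ⟨k, hk⟩
    exact orderOf_dvd_iff_pow_eq_one.1 (h4.dvd_of_dvd_mul_left h2)
  obtain ⟨i, hi1, hi2⟩ := Nat.chineseRemainder (Nat.Coprime.pow_left e (Nat.coprime_two_left.2 hn)) 0 1
  set y' := y ^ i with hy'
  have hy'N : y' ∈ N := pow_mem hyN _
  have hy'L : y' ∈ L := pow_mem hyL _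
  have hπy' : π ⟨y', hy'N⟩ = ζ := by
    have h1 : (⟨y', hy'N⟩ : N) = (⟨y, hyN⟩ : N) ^ i := rfl
    rw [h1, map_pow, hπy]
    conv_rhs => rw [← pow_one ζ]
    rw [pow_eq_pow_iff_modEq]
    exact hi2.of_dvd (orderOf_dvd_of_pow_eq_one hζ2)
  have hodd : Odd (orderOf y') := by
    apply hn.of_dvd_nat
    apply orderOf_dvd_of_pow_eq_one
    rw [hy', ← pow_mul]
    apply orderOf_dvd_iff_pow_eq_one.1
    rw [he]
    exact Nat.mul_dvd_mul ((Nat.modEq_zero_iff_dvd).1 hi1) dvd_rfl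
  refine ⟨y', hodd, hy'N, ?_, ?_, ?_⟩
  · exact (hπe z y' hzP hy'N).1 hπy'.symm
  · rw [key y' hy'N hπy' hy'L]; exact hy'L
  · have h1 : π (⟨y', hy'N⟩ ^ orderOf z) = 1 := by rw [map_pow, hπy', hζo]
    rw [← map_one π] at h1
    have h2 := (hπe (y' ^ orderOf z) 1 (pow_mem hy'N _) N.one_mem).1 h1
    have h3 := P.inv_mem h2
    simpa using h3

section

variable {U : Type*} [CommGroup U] [Finite U]

theorem linear2 (hU : ∀ u : U, u * u = 1) {r : ℕ} [hr : Fact r.Prime] (hr2 : r ≠ 2)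
    {A B P : Subgroup (MulAut U)} {z a : MulAut U} {V : Subgroup U} {j : ℕ}
    (hAc : ∀ a ∈ A, ∀ b ∈ A, a * b = b * a) (hA2 : ∀ a ∈ A, a * a = 1) (hBA : B ≤ A) (hBP : B ≤ P)
    (hP : IsPGroup 2 P) (hAP : A ≤ normalizer (P : Set (MulAut U))) (hzP : z ∈ normalizer (P : Set (MulAut U)))
    (ha : a ∈ A) (hinv : a * z * a⁻¹ * z ∈ P)
    (hm : B.relIndex A = 2 ^ j)
    (hbd : ∀ k, 0 < k → r ∣ 2 ^ k - 1 → (2 ^ j) ^ 4 < 4 * 2 ^ k)
    (ho : ∃ s, orderOf z = r ^ s)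
    (hsq : ∀ R ≤ P, (∀ a ∈ R, ∀ b ∈ R, a * b = b * a) → (∀ a ∈ R, a * a = 1) → R ≠ ⊥ →
      (Nat.card R) ^ 3 < (fixedBy R).index ^ 2)
    (hmax : ∀ S ≤ A, Nat.card S * Nat.card (fixedBy S) ≤ Nat.card A * Nat.card (fixedBy A))
    (hVA : V ≤ fixedBy A) (hVP : ∀ p ∈ P, ∀ v ∈ V, p v ∈ V)
    (hgen : ∀ U' : Subgroup U, V ≤ U' → (∀ a ∈ A, ∀ u ∈ U', a u ∈ U') → (∀ p ∈ P, ∀ u ∈ U', p u ∈ U') →
      (∀ u ∈ U', z u ∈ U') → U' = ⊤) :
    z = 1 := by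
  have hodd : Odd (orderOf z) := by
    obtain ⟨s, hs⟩ := ho
    rw [hs]; exact (hr.out.odd_of_ne_two hr2).pow
  have hpow2 : ∀ {y : MulAut U}, y ∈ P → Odd (orderOf y) → y = 1 := by
    intro y hy hyo
    by_contra hne
    obtain ⟨k, hk⟩ := hP ⟨y, hy⟩
    exact H62.pow_two_pow_ne_one hne hyo k (congrArg Subtype.val hk)
  obtain ⟨y, hyo, hyN, hzy, hyL, hyz⟩ := exists_zip ha (hA2 a ha) hAP hzP hodd hinv
  have hyz1 : y ^ orderOf z = 1 := by
    apply hpow2 hyz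
    exact hyo.of_dvd_nat (orderOf_pow_dvd _)
  have hy1 : y = 1 := by
    refine linear hU hr2 (V := V) hAc hA2 hBA hBP hP hAP hyN hm hbd ?_ hyL hsq hmax hVA ?_
    · obtain ⟨s, hs⟩ := ho
      obtain ⟨t, -, ht⟩ := (Nat.dvd_prime_pow hr.out).1 (show orderOf y ∣ r ^ s by
        rw [← hs]; exact orderOf_dvd_of_pow_eq_one hyz1)
      exact ⟨t, ht⟩
    · intro U' hVU hAU hyU
      let U2 : Subgroup U :=
        { carrier := {u | u ∈ U' ∧ ∀ p ∈ P, p u ∈ U'}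
          one_mem' := ⟨one_mem _, fun p _ => by rw [map_one]; exact one_mem _⟩
          mul_mem' := fun {u v} hu hv => ⟨mul_mem hu.1 hv.1, fun p hp => by rw [map_mul]; exact mul_mem (hu.2 p hp) (hv.2 p hp)⟩
          inv_mem' := fun {u} hu => ⟨inv_mem hu.1, fun p hp => by rw [map_inv]; exact inv_mem (hu.2 p hp)⟩ }
      have hU2 : ∀ u, u ∈ U2 ↔ u ∈ U' ∧ ∀ p ∈ P, p u ∈ U' := fun u => Iff.rfl
      have hg : ∀ g ∈ normalizer (P : Set (MulAut U)), (∀ u ∈ U', g u ∈ U') → ∀ u ∈ U2, g u ∈ U2 := by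
        intro g hg h1 u hu
        rw [hU2] at hu ⊢
        refine ⟨h1 u hu.1, fun p hp => ?_⟩
        have h2 := h1 _ (hu.2 _ ((mem_normalizer_iff''.1 hg p).1 hp))
        rw [← MulAut.mul_apply] at h2
        have h3 : g * (g⁻¹ * p * g) = p * g := by group
        rw [h3, MulAut.mul_apply] at h2
        exact h2
      have hPU2 : ∀ p ∈ P, ∀ u ∈ U2, p u ∈ U2 := by
        intro p hp u hu
        rw [hU2] at hu ⊢
        refine ⟨hu.2 p hp, fun q hq => ?_⟩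
        rw [← MulAut.mul_apply]
        exact hu.2 _ (mul_mem hq hp)
      have hyU2 := hg y hyN hyU
      have h4 : U2 = ⊤ := by
        apply hgen U2 (fun v hv => ⟨hVU hv, fun p hp => hVU (hVP p hp v hv)⟩)
          (fun a ha => hg a (hAP ha) (hAU a ha)) hPU2
        intro u hu
        have h5 : z = y * (z⁻¹ * y)⁻¹ := by group
        rw [h5, MulAut.mul_apply]
        exact hyU2 _ (hPU2 _ (inv_mem hzy) u hu)
      rw [eq_top_iff, ← h4]
      intro u hu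
      exact hu.1
  apply hpow2 _ hodd
  rw [hy1, mul_one] at hzy
  have := P.inv_mem hzy
  rwa [inv_inv] at this

end

end Cfsg.Agent.H33.GF
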