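import Cfsg.Agent.H33.GF3
import Cfsg.Agent.H62.W10

set_option autoImplicit false
set_option linter.unusedVariables false
set_option linter.unusedSectionVars false
set_option linter.style.haveILetI false
set_option linter.deprecated false

/-!
The inequality `|V/C_V(R)|^2 > |R/C_R(V)|^3`.
-/

namespace Cfsg.Agent.H33.GF

open Subgroup Cfsg
open H34 (fixedBy mem_fixedBy fixedBy_anti maxEA)
open H62 (EA EA_iff Quad ncl o2 omZ cj_le_ncl le_ncl ncl_le ncl_le_of_norm norm_ncl EA_ncl norm_o2 o2_le isPGroup_o2 le_o2)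

universe u

section

variable {G : Type u} [Group G]

def Lt3 (p v : ℕ) : Prop := p = 1 ∨ p ^ 3 < v ^ 2

/-- the strict inequality with exponent 3/2 for the action of subgroups of `P` on `V` -/
def SqH (V P : Subgroup G) : Prop :=
  ∀ R : Subgroup G, R ≤ P → Quad R V →
    Lt3 ((R ⊓ centralizer (V : Set G)).relIndex R) ((V ⊓ centralizer (R : Set G)).relIndex V)

theorem SqH.mono {V P R : Subgroup G} (h : SqH V P) (hR : R ≤ P) : SqH V R := fun S hS hq => h S (hS.trans hR) hq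

theorem SqH.conj {V T : Subgroup G} (h : SqH V T) (g : G) : SqH (cj g V) (cj g T) := by
  intro P hP hq
  have hP' : cj g⁻¹ P ≤ T := by
    have := cj_mono (g := g⁻¹) hP
    rwa [H62.cj_inv_cj] at this
  have hq' : Quad (cj g⁻¹ P) V := by
    have := hq.conj g⁻¹
    rwa [H62.cj_inv_cj] at this
  have h1 := h _ hP' hq'
  rw [← H33.relIndex_cj g, ← H33.relIndex_cj g (V ⊓ _), H62.cj_inf_cent, H62.cj_inf_cent, H62.cj_cj_inv] at h1
  exact h1

theorem SqH.conj_norm {V T : Subgroup G} (h : SqH V T) {g : G} (hg : g ∈ normalizer (T : Set G)) : SqH (cj g V) T := by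
  have := h.conj g
  rwa [mem_norm_iff.1 hg] at this

variable [Finite G]

theorem Lt3.le {p v : ℕ} (h : Lt3 p v) (hv : 0 < v) : p ^ 3 ≤ v ^ 2 := by
  rcases h with h | h
  · rw [h, one_pow]; exact Nat.one_le_pow _ _ hv
  · exact h.le

theorem Lt3.mono {p v w : ℕ} (h : Lt3 p v) (hvw : v ≤ w) : Lt3 p w := by
  rcases h with h | h
  · exact Or.inl h
  · exact Or.inr (h.trans_le (Nat.pow_le_pow_left hvw 2))

theorem Lt3.mul {p p' v v' : ℕ} (h : Lt3 p v) (h' : Lt3 p' v') (hv : 0 < v) (hv' : 0 < v') : Lt3 (p * p') (v * v') := by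
  have e1 := h.le hv
  have e2 := h'.le hv'
  rcases h with h | h
  · rcases h' with h' | h'
    · exact Or.inl (by rw [h, h'])
    · right
      rw [h, one_mul, mul_pow]
      exact h'.trans_le (Nat.le_mul_of_pos_left _ (by positivity))
  · right
    rw [mul_pow, mul_pow]
    exact Nat.mul_lt_mul_of_lt_of_le h e2 (by positivity)

/-- two subgroups normalizing each other commute -/
theorem comm_of_sqH {V W P : Subgroup G} (hV : EA V) (hW : EA W) (hVP : V ≤ P) (hWP : W ≤ P) (h1 : SqH V P)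
    (h2 : SqH W P) : ∀ a ∈ V, ∀ b ∈ W, a * b = b * a := by
  have e1 := h1 W hWP (hW.quad V)
  have e2 := h2 V hVP (hV.quad W)
  have hcase : (W ⊓ centralizer (V : Set G)).relIndex W = 1 ∨ (V ⊓ centralizer (W : Set G)).relIndex V = 1 := by
    rcases e1 with e1 | e1
    · exact Or.inl e1
    rcases e2 with e2 | e2
    · exact Or.inr e2
    exfalso
    set a := (W ⊓ centralizer (V : Set G)).relIndex W
    set b := (V ⊓ centralizer (W : Set G)).relIndex V
    have ha : 0 < a := Nat.pos_of_ne_zero (H62.relIndex_ne_zero' _ _)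
    have hb : 0 < b := Nat.pos_of_ne_zero (H62.relIndex_ne_zero' _ _)
    rcases le_total a b with h | h
    · have : a ^ 2 ≤ b ^ 2 := Nat.pow_le_pow_left h 2
      have h3 : b ^ 2 ≤ b ^ 3 := Nat.pow_le_pow_right hb (by norm_num)
      omega
    · have : b ^ 2 ≤ a ^ 2 := Nat.pow_le_pow_left h 2
      have h3 : a ^ 2 ≤ a ^ 3 := Nat.pow_le_pow_right ha (by norm_num)
      omega
  intro u hu v hv
  rcases hcase with h | h
  · exact mem_centralizer_iff.1 (Subgroup.relIndex_eq_one.1 h hv).2 u hu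
  · exact (mem_centralizer_iff.1 (Subgroup.relIndex_eq_one.1 h hu).2 v hv).symm

theorem SqH.sup {W₁ W₂ Q E : Subgroup G} (hE : EA E) (h1E : W₁ ≤ E) (h2E : W₂ ≤ E) (h1 : SqH W₁ Q)
    (h2 : ∀ P ≤ Q, Quad P W₁ → SqH W₂ (P ⊓ centralizer (W₁ : Set G))) : SqH (W₁ ⊔ W₂) Q := by
  intro P hP hq
  have hq1 : Quad P W₁ := hq.mono le_rfl le_sup_left
  set P1 := P ⊓ centralizer (W₁ : Set G) with hP1
  have hi1 := h1 P hP hq1
  have hi2 := h2 P hP hq1 P1 le_rfl (hq.mono inf_le_left le_sup_right)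
  set P2 := P1 ⊓ centralizer (W₂ : Set G) with hP2
  have e1 : P ⊓ centralizer ((W₁ ⊔ W₂ : Subgroup G) : Set G) = P2 := by
    rw [hP2, hP1, inf_assoc]
    congr 1
    ext x
    constructor
    · intro hx
      exact ⟨centralizer_le (le_sup_left (a := W₁)) hx, centralizer_le (le_sup_right (b := W₂)) hx⟩
    · rintro ⟨hx1, hx2⟩
      have : W₁ ⊔ W₂ ≤ centralizer {x} := by
        refine sup_le ?_ ?_
        · intro w hw; rw [mem_centralizer_singleton_iff]; exact mem_centralizer_iff.1 hx1 w hw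
        · intro w hw; rw [mem_centralizer_singleton_iff]; exact mem_centralizer_iff.1 hx2 w hw
      rw [mem_centralizer_iff]
      intro w hw
      exact mem_centralizer_singleton_iff.1 (this hw)
  rw [e1, ← Subgroup.relIndex_mul_relIndex P2 P1 P inf_le_left inf_le_left]
  set F1 := (W₁ ⊔ W₂) ⊓ centralizer (P1 : Set G) with hF1
  set F := (W₁ ⊔ W₂) ⊓ centralizer (P : Set G) with hF
  have hFF : F ≤ F1 := by
    rintro x ⟨hx, hxP⟩
    exact ⟨hx, centralizer_le inf_le_left hxP⟩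
  rw [← Subgroup.relIndex_mul_relIndex F F1 (W₁ ⊔ W₂) hFF inf_le_left, mul_comm (F.relIndex F1)]
  have hW1F1 : W₁ ≤ F1 := by
    intro w hw
    refine ⟨le_sup_left (a := W₁) hw, mem_centralizer_iff.2 ?_⟩
    intro p hp
    exact (mem_centralizer_iff.1 hp.2 w hw).symm
  have hnn : ∀ K : Subgroup G, K ≤ E → E ≤ normalizer (K : Set G) := by
    intro K hK e he
    apply H33.mem_norm_of_le
    rw [H33.cj_le_iff]
    intro k hk
    rw [hE.1 e he k (hK hk), mul_inv_cancel_right]; exact hk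
  apply Lt3.mul _ _ (Nat.pos_of_ne_zero (H62.relIndex_ne_zero' _ _)) (Nat.pos_of_ne_zero (H62.relIndex_ne_zero' _ _))
  · refine hi2.mono ?_
    have h4 : F1 ⊔ W₂ = W₁ ⊔ W₂ := by
      apply le_antisymm (sup_le inf_le_left le_sup_right)
      exact sup_le (hW1F1.trans le_sup_left) le_sup_right
    have h5 : F1.relIndex (W₁ ⊔ W₂) = F1.relIndex W₂ := by
      rw [← h4, sup_comm]
      exact Cop.relIndex_sup_eq (h2E.trans (hnn F1 (inf_le_left.trans (sup_le h1E h2E))))
    have h6 : (W₂ ⊓ centralizer (P1 : Set G)).relIndex W₂ = F1.relIndex W₂ := by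
      rw [← Subgroup.inf_relIndex_right F1 W₂]
      congr 1
      ext x
      constructor
      · rintro ⟨hx, hxP⟩; exact ⟨⟨le_sup_right (b := W₂) hx, hxP⟩, hx⟩
      · rintro ⟨⟨-, hxP⟩, hx⟩; exact ⟨hx, hxP⟩
    rw [h5, h6]
  · refine hi1.mono ?_
    have h3 : (W₁ ⊓ centralizer (P : Set G)).relIndex W₁ = F.relIndex W₁ := by
      rw [← Subgroup.inf_relIndex_right F W₁]
      congr 1
      ext x
      constructor
      · rintro ⟨hx, hxP⟩; exact ⟨⟨le_sup_left (a := W₁) hx, hxP⟩, hx⟩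
      · rintro ⟨⟨-, hxP⟩, hx⟩; exact ⟨hx, hxP⟩
    rw [h3]
    exact Subgroup.relIndex_le_of_le_right hW1F1 (H62.relIndex_ne_zero' _ _)

theorem SqH.sup' {W₁ W₂ Q E : Subgroup G} (hE : EA E) (h1E : W₁ ≤ E) (h2E : W₂ ≤ E) (h1 : SqH W₁ Q)
    (h2 : SqH W₂ Q) : SqH (W₁ ⊔ W₂) Q :=
  SqH.sup hE h1E h2E h1 (fun P hP _ => h2.mono (inf_le_left.trans hP))

/-- the inequality for the group generated by conjugates -/
theorem SqH.ncl {H V P : Subgroup G} (hE : EA (ncl H V)) (h : ∀ x ∈ H, SqH (cj x V) P) : SqH (ncl H V) P := by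
  classical
  have hV : SqH V P := by
    have := h 1 H.one_mem
    rwa [H33.cj_one] at this
  have hfin : {W : Subgroup G | W ≤ H62.ncl H V ∧ SqH W P}.Finite := Set.toFinite _
  obtain ⟨W, ⟨hWE, hW⟩, hmax⟩ := Set.exists_max_image _ (fun W : Subgroup G => Nat.card W) hfin ⟨V, le_ncl H V, hV⟩
  have h2 : H62.ncl H V ≤ W := by
    apply ncl_le
    intro x hx
    have h3 := hmax (W ⊔ cj x V) ⟨sup_le hWE (cj_le_ncl hx), SqH.sup' hE hWE (cj_le_ncl hx) hW (h x hx)⟩
    have h4 : W = W ⊔ cj x V := Subgroup.eq_of_le_of_card_ge le_sup_left h3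
    rw [h4]; exact le_sup_right
  rw [le_antisymm h2 hWE]
  exact hW

/-- central factors do not matter -/
theorem SqH.sup_cent {V P C : Subgroup G} (h : SqH V P) (hC : C ≤ centralizer (V : Set G))
    (hPC : P ≤ normalizer (C : Set G)) : SqH V (P ⊔ C) := by
  intro R hR hq
  set R' := P ⊓ (R ⊔ C) with hR'
  have hRC : ∀ ρ ∈ R, ∃ p ∈ R', ∃ c ∈ C, ρ = p * c := by
    intro ρ hρ
    have h1 := hR hρ
    rw [sup_comm] at h1
    obtain ⟨c, hc, p, hp, rfl⟩ := (H33.mem_sup_left_norm hPC).1 h1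
    have hpR : p ∈ R ⊔ C := by
      have h2 : p = c⁻¹ * (c * p) := by group
      rw [h2]
      exact mul_mem (mem_sup_right (C.inv_mem hc)) (mem_sup_left hρ)
    refine ⟨p, ⟨hp, hpR⟩, p⁻¹ * c * p, (mem_normalizer_iff''.1 (hPC hp) c).1 hc, by group⟩
  have hR'C : ∀ p ∈ R', ∃ ρ ∈ R, ∃ c ∈ C, p = ρ * c := by
    rintro p ⟨hp, hpR⟩
    have hRn : R ≤ normalizer (C : Set G) := hR.trans (sup_le hPC le_normalizer)
    obtain ⟨ρ, hρ, c, hc, rfl⟩ := (H33.mem_sup_right_norm hRn).1 hpR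
    exact ⟨ρ, hρ, c, hc, rfl⟩
  have hq' : Quad R' V := by
    have hcent : ∀ ρ σ c d : G, c ∈ C → d ∈ C → ρ ∈ R → σ ∈ R → (ρ * c) * (σ * d) * (ρ * c)⁻¹ * (σ * d)⁻¹ ∈ centralizer (V : Set G) → True := fun _ _ _ _ _ _ _ _ _ => trivial
    have hVR : ∀ ρ ∈ R, ρ ∈ normalizer ((centralizer (V : Set G) ⊓ (R ⊔ C) : Subgroup G) : Set G) → True := fun _ _ _ => trivial
    -- work with the set of elements whose action agrees
    constructor
    · intro p hp q hq2
      obtain ⟨ρ, hρ, c, hc, rfl⟩ := hR'C p hp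
      obtain ⟨σ, hσ, d, hd, rfl⟩ := hR'C q hq2
      have hRn : R ≤ normalizer (C : Set G) := hR.trans (sup_le hPC le_normalizer)
      have h1 : ρ * c * (σ * d) * (ρ * c)⁻¹ * (σ * d)⁻¹ =
        (ρ * σ * ρ⁻¹ * σ⁻¹) * ((σ * ρ) * ((σ⁻¹ * c * σ) * d * c⁻¹) * (σ * ρ)⁻¹ * (σ * d⁻¹ * σ⁻¹)) := by group
      rw [h1]
      refine mul_mem (hq.1 ρ hρ σ hσ) (hC ?_)
      have h2 : σ⁻¹ * c * σ ∈ C := (mem_normalizer_iff''.1 (hRn hσ) c).1 hc
      refine mul_mem ?_ ((mem_normalizer_iff.1 (hRn hσ) _).1 (inv_mem hd))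
      exact (mem_normalizer_iff.1 (hRn (mul_mem hσ hρ)) _).1 (mul_mem (mul_mem h2 hd) (inv_mem hc))
    · intro p hp
      obtain ⟨ρ, hρ, c, hc, rfl⟩ := hR'C p hp
      have hRn : R ≤ normalizer (C : Set G) := hR.trans (sup_le hPC le_normalizer)
      have h1 : ρ * c * (ρ * c) = (ρ * ρ) * ((ρ⁻¹ * c * ρ) * c) := by group
      rw [h1]
      exact mul_mem (hq.2 ρ hρ) (hC (mul_mem ((mem_normalizer_iff''.1 (hRn hρ) c).1 hc) hc))
  have h1 := h R' inf_le_left hq'
  have e1 : V ⊓ centralizer (R' : Set G) = V ⊓ centralizer (R : Set G) := by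
    ext v
    constructor
    · rintro ⟨hv, hvc⟩
      refine ⟨hv, mem_centralizer_iff.2 ?_⟩
      intro ρ hρ
      obtain ⟨p, hp, c, hc, rfl⟩ := hRC ρ hρ
      have h2 := mem_centralizer_iff.1 hvc p hp
      have h3 := mem_centralizer_iff.1 (hC hc) v hv
      rw [mul_assoc, ← h3, ← mul_assoc, h2, mul_assoc]
    · rintro ⟨hv, hvc⟩
      refine ⟨hv, mem_centralizer_iff.2 ?_⟩
      intro p hp
      obtain ⟨ρ, hρ, c, hc, rfl⟩ := hR'C p hp
      have h2 := mem_centralizer_iff.1 hvc ρ hρ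
      have h3 := mem_centralizer_iff.1 (hC hc) v hv
      rw [mul_assoc, ← h3, ← mul_assoc, h2, mul_assoc]
  have e2 : (R' ⊓ centralizer (V : Set G)).relIndex R' = (R ⊓ centralizer (V : Set G)).relIndex R := by
    rw [Subgroup.inf_relIndex_left, Subgroup.inf_relIndex_left]
    have hsup : ∀ X : Subgroup G, X ≤ normalizer (C : Set G) → True := fun _ _ => trivial
    -- both equal relIndex in the join with C(V)
    have k1 : R' ⊔ C = R ⊔ C := by
      apply le_antisymm
      · exact sup_le inf_le_right le_sup_right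
      · refine sup_le ?_ le_sup_right
        intro ρ hρ
        obtain ⟨p, hp, c, hc, rfl⟩ := hRC ρ hρ
        exact mul_mem (mem_sup_left hp) (mem_sup_right hc)
    have k2 : ∀ X : Subgroup G, X ≤ normalizer (C : Set G) →
        (centralizer (V : Set G)).relIndex (X ⊔ C) = (centralizer (V : Set G)).relIndex X := by
      intro X hX
      have h2 : (centralizer (V : Set G)).relIndex (X ⊔ C) = (centralizer (V : Set G) ⊓ (X ⊔ C)).relIndex (X ⊔ C) :=
        (Subgroup.inf_relIndex_right _ _).symm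
      have h3 : (centralizer (V : Set G) ⊓ (X ⊔ C)) = (centralizer (V : Set G) ⊓ X) ⊔ C := by
        apply le_antisymm
        · rintro y ⟨hy, hyX⟩
          obtain ⟨x, hx, c, hc, rfl⟩ := (H33.mem_sup_right_norm hX).1 hyX
          refine mul_mem (mem_sup_left ⟨?_, hx⟩) (mem_sup_right hc)
          have hxx : x = (x * c) * c⁻¹ := by group
          rw [hxx]
          exact (centralizer (V : Set G)).mul_mem hy ((centralizer (V : Set G)).inv_mem (hC hc))
        · refine sup_le (fun y hy => ⟨hy.1, mem_sup_left hy.2⟩) (fun y hy => ⟨hC hy, mem_sup_right hy⟩)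
      rw [h2, h3]
      -- index of (C(V) ∩ X) C in X C equals index of C(V) ∩ X in X
      have h4 := card_mul_relIndex_aux (X := X) (Y := centralizer (V : Set G) ⊓ X) (C := C) hX inf_le_right
        (by
          rintro y ⟨hyX, hyC⟩
          exact ⟨hC hyC, hyX⟩)
      rw [h4, Subgroup.inf_relIndex_right]
    rw [← k2 R' (inf_le_left.trans hPC), k1, k2 R (hR.trans (sup_le hPC le_normalizer))]
  rw [e1, e2] at h1
  exact h1
where
  card_mul_relIndex_aux {X Y C : Subgroup G} (hX : X ≤ normalizer (C : Set G)) (hYX : Y ≤ X) (hXC : X ⊓ C ≤ Y) :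
      (Y ⊔ C).relIndex (X ⊔ C) = Y.relIndex X := by
    have h1 : C.relIndex (Y ⊔ C) = C.relIndex Y := Cop.relIndex_sup_eq (hYX.trans hX)
    have h2 : C.relIndex (X ⊔ C) = C.relIndex X := Cop.relIndex_sup_eq hX
    have h3 := Subgroup.relIndex_mul_relIndex C (Y ⊔ C) (X ⊔ C) le_sup_right (sup_le_sup_right hYX _)
    have h4 := Subgroup.relIndex_mul_relIndex (X ⊓ C) Y X hXC hYX
    have h5 : C.relIndex Y = (X ⊓ C).relIndex Y := by
      rw [← Subgroup.inf_relIndex_right C Y, ← Subgroup.inf_relIndex_right (X ⊓ C) Y]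
      congr 1
      ext y
      constructor
      · rintro ⟨hc, hy⟩; exact ⟨⟨hYX hy, hc⟩, hy⟩
      · rintro ⟨⟨_, hc⟩, hy⟩; exact ⟨hc, hy⟩
    have h6 : C.relIndex X = (X ⊓ C).relIndex X := by rw [← Subgroup.inf_relIndex_right C X, inf_comm]
    rw [h1, h2, h5, h6, ← h4] at h3
    exact Nat.eq_of_mul_eq_mul_left (Nat.pos_of_ne_zero (H62.relIndex_ne_zero' _ _)) h3

end

end Cfsg.Agent.H33.GF
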