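import Cfsg.Agent.H33.GF4

set_option autoImplicit false
set_option linter.unusedVariables false
set_option linter.unusedSectionVars false
set_option linter.style.haveILetI false
set_option linter.deprecated false

/-!
The linear lemma inside a group.
-/

namespace Cfsg.Agent.H33.GF

open Subgroup Cfsg
open H33 (cj mem_cj conj_mem_cj cj_mul cj_mono IsSyl mem_norm_iff)
open H34 (fixedBy mem_fixedBy fixedBy_anti maxEA)
open H62 (EA EA_iff Quad ncl o2 omZ cj_le_ncl le_ncl ncl_le ncl_le_of_norm norm_ncl EA_ncl norm_o2 o2_le isPGroup_o2 le_o2)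

universe u

section rep

variable {G : Type u} [Group G] [Finite G]

theorem exists_rep {H W : Subgroup G} (h1 : H ≤ normalizer (W : Set G)) (hW : EA W) :
    ∃ (U : Type u) (_ : CommGroup U) (_ : Finite U) (π : W ≃* U) (φ : H →* MulAut U),
      (∀ u : U, u * u = 1) ∧ ∀ (h : H) (u v : W), (v : G) = h * u * (h : G)⁻¹ → φ h (π u) = π v := by
  obtain ⟨U, i1, i2, π, φ, h2, h3, h4, h5⟩ := H62.exists_sec h1 (H62.norm_bot H) hW
  refine ⟨U, i1, i2, MulEquiv.ofBijective π ⟨?_, h2⟩, φ, h4, ?_⟩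
  · rw [injective_iff_map_eq_one]
    intro u hu
    have := (h3 u).1 hu
    exact Subtype.ext (mem_bot.1 this)
  · intro h u v hv
    exact h5 h u v hv

variable {H W : Subgroup G} {U : Type u} [CommGroup U] [Finite U] (π : W ≃* U) (φ : H →* MulAut U)

/-- image in the automorphism group -/
def im (φ : H →* MulAut U) (K : Subgroup G) : Subgroup (MulAut U) := (K.subgroupOf H).map φ

theorem mem_im {K : Subgroup G} {f : MulAut U} : f ∈ im φ K ↔ ∃ k : H, (k : G) ∈ K ∧ φ k = f := by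
  unfold im
  rw [Subgroup.mem_map]
  rfl

theorem im_mono {K L : Subgroup G} (h : K ≤ L) : im φ K ≤ im φ L :=
  Subgroup.map_mono (Subgroup.comap_mono h)

variable (hφ : ∀ (h : H) (u v : W), (v : G) = h * u * (h : G)⁻¹ → φ h (π u) = π v) (hHW : H ≤ normalizer (W : Set G))

include hφ hHW

theorem rep_apply (h : H) (w : W) :
    φ h (π w) = π ⟨h * w * (h : G)⁻¹, (mem_normalizer_iff.1 (hHW h.2) _).1 w.2⟩ := hφ h w _ rfl

theorem rep_fix_iff (h : H) (w : W) : φ h (π w) = π w ↔ (h : G) * w = w * h := by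
  rw [rep_apply π φ hφ hHW, π.apply_eq_iff_eq, Subtype.ext_iff]
  exact mul_inv_eq_iff_eq_mul

theorem mem_fixedBy_im {K : Subgroup G} (hK : K ≤ H) (w : W) :
    π w ∈ fixedBy (im φ K) ↔ (w : G) ∈ centralizer (K : Set G) := by
  rw [mem_fixedBy, mem_centralizer_iff]
  constructor
  · intro h k hk
    exact (rep_fix_iff π φ hφ hHW ⟨k, hK hk⟩ w).1 (h _ ((mem_im φ).2 ⟨⟨k, hK hk⟩, hk, rfl⟩))
  · intro h f hf
    obtain ⟨k, hk, rfl⟩ := (mem_im φ).1 hf
    exact (rep_fix_iff π φ hφ hHW k w).2 (h _ hk)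

theorem fixedBy_im_eq {K : Subgroup G} (hK : K ≤ H) :
    fixedBy (im φ K) = ((W ⊓ centralizer (K : Set G)).subgroupOf W).map π.toMonoidHom := by
  ext u
  obtain ⟨w, rfl⟩ := π.surjective u
  rw [mem_fixedBy_im π φ hφ hHW hK]
  constructor
  · intro h
    exact ⟨w, ⟨w.2, h⟩, rfl⟩
  · rintro ⟨w', hw', h⟩
    have : w' = w := π.injective h
    rw [← this]
    exact hw'.2

theorem card_fixedBy_im {K : Subgroup G} (hK : K ≤ H) :
    Nat.card (fixedBy (im φ K)) = Nat.card (W ⊓ centralizer (K : Set G) : Subgroup G) := by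
  rw [fixedBy_im_eq π φ hφ hHW hK]
  rw [Subgroup.card_map_of_injective (f := π.toMonoidHom) π.injective]
  exact Nat.card_congr (Subgroup.subgroupOfEquivOfLe inf_le_left).toEquiv

theorem index_fixedBy_im {K : Subgroup G} (hK : K ≤ H) :
    (fixedBy (im φ K)).index = (W ⊓ centralizer (K : Set G)).relIndex W := by
  rw [fixedBy_im_eq π φ hφ hHW hK]
  exact Subgroup.index_map_equiv _ π

theorem ker_rep : φ.ker = (centralizer (W : Set G)).subgroupOf H := by
  ext h
  rw [MonoidHom.mem_ker, mem_subgroupOf, mem_centralizer_iff]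
  constructor
  · intro h1 w hw
    have := (rep_fix_iff π φ hφ hHW h ⟨w, hw⟩).1 (by rw [h1]; rfl)
    exact this.symm
  · intro h1
    ext u
    obtain ⟨w, rfl⟩ := π.surjective u
    rw [MulAut.one_apply]
    exact (rep_fix_iff π φ hφ hHW h w).2 (h1 w w.2).symm

theorem card_im {K : Subgroup G} (hK : K ≤ H) :
    Nat.card (im φ K) = (K ⊓ centralizer (W : Set G)).relIndex K := by
  unfold im
  rw [← Subgroup.relIndex_ker, ker_rep π φ hφ hHW, Subgroup.relIndex_subgroupOf hK, Subgroup.inf_relIndex_left]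

theorem card_im_mul {K : Subgroup G} (hK : K ≤ H) :
    Nat.card (im φ K) * Nat.card (K ⊓ centralizer (W : Set G) : Subgroup G) = Nat.card K := by
  rw [card_im π φ hφ hHW hK, mul_comm]
  exact H62.card_mul_relIndex' inf_le_left

/-- preimage in `K` of a subgroup of the image -/
theorem exists_pre {K : Subgroup G} (hK : K ≤ H) {R : Subgroup (MulAut U)} (hR : R ≤ im φ K) :
    ∃ R' : Subgroup G, R' ≤ K ∧ im φ R' = R ∧ K ⊓ centralizer (W : Set G) ≤ R' := by
  refine ⟨K ⊓ (R.comap φ).map H.subtype, inf_le_left, ?_, ?_⟩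
  · ext f
    rw [mem_im]
    constructor
    · rintro ⟨k, ⟨hk, k', hk', hkk⟩, rfl⟩
      have : k' = k := Subtype.ext hkk
      rw [← this]; exact hk'
    · intro hf
      obtain ⟨k, hk, rfl⟩ := (mem_im φ).1 (hR hf)
      exact ⟨k, ⟨hk, k, hf, rfl⟩, rfl⟩
  · rintro k ⟨hk, hkc⟩
    refine ⟨hk, ⟨k, hK hk⟩, ?_, rfl⟩
    have h1 : (⟨k, hK hk⟩ : H) ∈ φ.ker := by
      rw [ker_rep π φ hφ hHW]; exact hkc
    have h2 : φ ⟨k, hK hk⟩ = 1 := h1
    change φ ⟨k, hK hk⟩ ∈ R
    rw [h2]; exact one_mem _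

end rep

section

variable {G : Type u} [Group G] [Finite G]

theorem kfix {A B P P₀ C V : Subgroup G} {z a : G} {r j : ℕ} [hr : Fact r.Prime] (hr2 : r ≠ 2)
    (hA : EA A) (hVA : V ≤ centralizer (A : Set G)) (hBA : B ≤ A) (hBP : B ≤ P)
    (hPC : P = P₀ ⊔ C) (hP₀ : IsPGroup 2 P₀) (hC : C ≤ centralizer (ncl (A ⊔ zpowers z) V : Set G))
    (hAP : A ≤ normalizer (P : Set G)) (hzP : z ∈ normalizer (P : Set G)) (ha : a ∈ A)
    (hinv : a * z * a⁻¹ * z ∈ P) (hPV : P ≤ normalizer (V : Set G)) (hW : EA (ncl (A ⊔ zpowers z) V))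
    (hm : B.relIndex A = 2 ^ j) (hbd : ∀ k, 0 < k → r ∣ 2 ^ k - 1 → (2 ^ j) ^ 4 < 4 * 2 ^ k)
    (ho : ∃ s, orderOf z = r ^ s) (hsq : SqH V P)
    (hmax : ∀ S ≤ A, Nat.card S * Nat.card (ncl (A ⊔ zpowers z) V ⊓ centralizer (S : Set G) : Subgroup G) ≤
      Nat.card A * Nat.card (ncl (A ⊔ zpowers z) V ⊓ centralizer (A : Set G) : Subgroup G)) :
    z ∈ centralizer (ncl (A ⊔ zpowers z) V : Set G) := by
  classical
  set W := ncl (A ⊔ zpowers z) V with hWdef
  set H := A ⊔ zpowers z ⊔ P with hH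
  have hAH : A ≤ H := le_sup_left.trans le_sup_left
  have hzH : z ∈ H := mem_sup_left (mem_sup_right (mem_zpowers z))
  have hPH : P ≤ H := le_sup_right
  have hVW : V ≤ W := le_ncl _ _
  have hAzP : A ⊔ zpowers z ≤ normalizer (P : Set G) := sup_le hAP (by rwa [zpowers_le])
  have hPW : P ≤ normalizer (W : Set G) := by
    intro p hp
    apply H33.mem_norm_of_le
    rw [H33.cj_le_iff]
    intro w hw
    have h0 : W ≤ cj p⁻¹ W := by
      rw [hWdef]
      apply ncl_le
      rintro x hx _ ⟨v, hv, rfl⟩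
      rw [← hWdef, mem_cj, inv_inv]
      have h1 : p * (MulAut.conj x v) * p⁻¹ = x * ((x⁻¹ * p * x) * v * (x⁻¹ * p * x)⁻¹) * x⁻¹ := by
        rw [MulAut.conj_apply]; group
      have h2 : x⁻¹ * p * x ∈ P := (mem_normalizer_iff''.1 (hAzP hx) p).1 hp
      change p * (MulAut.conj x v) * p⁻¹ ∈ W
      rw [h1]
      exact cj_le_ncl hx (conj_mem_cj ((mem_normalizer_iff.1 (hPV h2) v).1 hv))
    have h3 := h0 hw
    rwa [mem_cj, inv_inv] at h3
  have hHW : H ≤ normalizer (W : Set G) := sup_le (norm_ncl _ _) hPW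
  obtain ⟨U, i1, i2, π, φ, hU, hφ⟩ := exists_rep hHW hW
  have hker := ker_rep π φ hφ hHW
  have hBH : B ≤ H := hBA.trans hAH
  -- facts on the image
  have hAc : ∀ f ∈ im φ A, ∀ g ∈ im φ A, f * g = g * f := by
    intro f hf g hg
    obtain ⟨k, hk, rfl⟩ := (mem_im φ).1 hf
    obtain ⟨l, hl, rfl⟩ := (mem_im φ).1 hg
    rw [← map_mul, ← map_mul]
    congr 1
    exact Subtype.ext (hA.1 k hk l hl)
  have hA2 : ∀ f ∈ im φ A, f * f = 1 := by
    intro f hf
    obtain ⟨k, hk, rfl⟩ := (mem_im φ).1 hf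
    rw [← map_mul, ← map_one φ]
    congr 1
    exact Subtype.ext (hA.2 k hk)
  have hP0H : P₀ ≤ H := (le_sup_left.trans hPC.ge).trans hPH
  have hCH : C ≤ H := (le_sup_right.trans hPC.ge).trans hPH
  have hPim : im φ P = im φ P₀ := by
    unfold im
    rw [hPC, Subgroup.subgroupOf_sup hP0H hCH, Subgroup.map_sup, sup_eq_left]
    rintro _ ⟨k, hk, rfl⟩
    have h1 : k ∈ φ.ker := by rw [hker]; exact hC hk
    rw [MonoidHom.mem_ker.1 h1]
    exact one_mem _
  have hP2 : IsPGroup 2 (im φ P) := by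
    rw [hPim]
    exact (hP₀.comap_subtype).map φ
  have hnormIm : ∀ g (hg : g ∈ H), g ∈ normalizer (P : Set G) → φ ⟨g, hg⟩ ∈ normalizer (im φ P : Set (MulAut U)) := by
    intro g hg hgP
    apply H33.mem_norm_of_le
    rw [H33.cj_le_iff]
    intro f hf
    obtain ⟨k, hk, rfl⟩ := (mem_im φ).1 hf
    rw [← map_mul, ← map_inv, ← map_mul]
    exact (mem_im φ).2 ⟨_, (mem_normalizer_iff.1 hgP k).1 hk, rfl⟩
  have hsqW : SqH W P := by
    apply SqH.ncl hW
    intro x hx
    exact hsq.conj_norm (hAzP hx)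
  have hcardB : ∃ j', j' ≤ j ∧ (im φ B).relIndex (im φ A) = 2 ^ j' := by
    have h1 : (im φ B).relIndex (im φ A) ∣ B.relIndex A := by
      have e1 := card_im_mul π φ hφ hHW hAH
      have e2 := card_im_mul π φ hφ hHW hBH
      have e3 := H62.card_mul_relIndex' (im_mono φ hBA)
      have e4 := H62.card_mul_relIndex' hBA
      set cB := B ⊓ centralizer (W : Set G) with hcB
      set cA := A ⊓ centralizer (W : Set G) with hcA
      have hle : cB ≤ cA := inf_le_inf_right _ hBA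
      have e5 := H62.card_mul_relIndex' hle
      have hpos : 0 < Nat.card (im φ B) * Nat.card cB := Nat.mul_pos Nat.card_pos Nat.card_pos
      refine ⟨cB.relIndex cA, ?_⟩
      apply Nat.eq_of_mul_eq_mul_left hpos
      calc Nat.card (im φ B) * Nat.card cB * B.relIndex A = Nat.card B * B.relIndex A := by rw [e2]
        _ = Nat.card A := e4
        _ = Nat.card (im φ A) * Nat.card cA := e1.symm
        _ = (Nat.card (im φ B) * (im φ B).relIndex (im φ A)) * (Nat.card cB * cB.relIndex cA) := by rw [e3, e5]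
        _ = _ := by ring
    rw [hm] at h1
    obtain ⟨j', hj', h2⟩ := (Nat.dvd_prime_pow Nat.prime_two).1 h1
    exact ⟨j', hj', h2⟩
  obtain ⟨j', hj', hm'⟩ := hcardB
  have hmaxim : ∀ S ≤ im φ A, Nat.card S * Nat.card (fixedBy S) ≤ Nat.card (im φ A) * Nat.card (fixedBy (im φ A)) := by
    intro S hS
    obtain ⟨S', hS'A, hS'e, hS'c⟩ := exists_pre π φ hφ hHW hAH hS
    rw [← hS'e]
    have hSH : S' ≤ H := hS'A.trans hAH
    rw [card_fixedBy_im π φ hφ hHW hSH, card_fixedBy_im π φ hφ hHW hAH]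
    have e1 := card_im_mul π φ hφ hHW hSH
    have e2 := card_im_mul π φ hφ hHW hAH
    have e3 : S' ⊓ centralizer (W : Set G) = A ⊓ centralizer (W : Set G) :=
      le_antisymm (inf_le_inf_right _ hS'A) (le_inf hS'c inf_le_right)
    rw [e3] at e1
    have e4 := hmax S' hS'A
    rw [← e1, ← e2] at e4
    have hpos : 0 < Nat.card (A ⊓ centralizer (W : Set G) : Subgroup G) := Nat.card_pos
    nlinarith
  have hVle : (V.subgroupOf W).map π.toMonoidHom ≤ fixedBy (im φ A) := by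
    rintro _ ⟨w, hw, rfl⟩
    exact (mem_fixedBy_im π φ hφ hHW hAH w).2 (hVA hw)
  have hone : φ ⟨z, hzH⟩ = 1 := by
    refine linear2 hU hr2 (A := im φ A) (B := im φ B) (P := im φ P) (a := φ ⟨a, hAH ha⟩)
      (V := (V.subgroupOf W).map π.toMonoidHom) (j := j') hAc hA2 (im_mono φ hBA) (im_mono φ hBP) hP2 ?_
      (hnormIm z hzH hzP) ((mem_im φ).2 ⟨_, ha, rfl⟩) ?_ hm' ?_ ?_ ?_ hmaxim hVle ?_ ?_
    · intro f hf
      obtain ⟨k, hk, rfl⟩ := (mem_im φ).1 hf
      exact hnormIm k k.2 (hAP hk)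
    · rw [← map_mul, ← map_inv, ← map_mul, ← map_mul]
      exact (mem_im φ).2 ⟨_, hinv, rfl⟩
    · intro k hk0 hk
      refine lt_of_le_of_lt (Nat.pow_le_pow_left (Nat.pow_le_pow_right (by norm_num) hj') 4) (hbd k hk0 hk)
    · obtain ⟨s, hs⟩ := ho
      have h1 : orderOf (φ ⟨z, hzH⟩) ∣ r ^ s := by
        rw [← hs, ← Subgroup.orderOf_mk z hzH]
        exact orderOf_map_dvd φ _
      obtain ⟨t, -, ht⟩ := (Nat.dvd_prime_pow hr.out).1 h1
      exact ⟨t, ht⟩
    · intro R hR hRc hR2 hRne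
      obtain ⟨R', hR'P, hR'e, hR'c⟩ := exists_pre π φ hφ hHW hPH hR
      have hR'H : R' ≤ H := hR'P.trans hPH
      have hkerm : ∀ y (hy : y ∈ H), φ ⟨y, hy⟩ = 1 → y ∈ centralizer (W : Set G) := by
        intro y hy h1
        have h2 : (⟨y, hy⟩ : H) ∈ φ.ker := h1
        rw [hker] at h2
        exact h2
      have himem : ∀ y (hy : y ∈ R'), φ ⟨y, hR'H hy⟩ ∈ R := by
        intro y hy
        rw [← hR'e]
        exact (mem_im φ).2 ⟨⟨y, hR'H hy⟩, hy, rfl⟩
      have hq : Quad R' W := by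
        constructor
        · intro x hx y hy
          refine hkerm _ (mul_mem (mul_mem (mul_mem (hR'H hx) (hR'H hy)) (inv_mem (hR'H hx))) (inv_mem (hR'H hy))) ?_
          have h1 := hRc _ (himem x hx) _ (himem y hy)
          have h2 : (⟨x * y * x⁻¹ * y⁻¹, mul_mem (mul_mem (mul_mem (hR'H hx) (hR'H hy)) (inv_mem (hR'H hx))) (inv_mem (hR'H hy))⟩ : H)
            = ⟨x, hR'H hx⟩ * ⟨y, hR'H hy⟩ * (⟨x, hR'H hx⟩ : H)⁻¹ * (⟨y, hR'H hy⟩ : H)⁻¹ := rfl
          rw [h2, map_mul, map_mul, map_mul, map_inv, map_inv, h1]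
          group
        · intro x hx
          refine hkerm _ (mul_mem (hR'H hx) (hR'H hx)) ?_
          have h2 : (⟨x * x, mul_mem (hR'H hx) (hR'H hx)⟩ : H) = ⟨x, hR'H hx⟩ * ⟨x, hR'H hx⟩ := rfl
          rw [h2, map_mul]
          exact hR2 _ (himem x hx)
      have h1 := hsqW R' hR'P hq
      rw [← card_im π φ hφ hHW hR'H, ← index_fixedBy_im π φ hφ hHW hR'H, hR'e] at h1
      rcases h1 with h1 | h1
      · exact absurd ((Subgroup.card_eq_one).1 h1) hRne
      · exact h1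
    · rintro f hf _ ⟨v, hv, rfl⟩
      obtain ⟨k, hk, rfl⟩ := (mem_im φ).1 hf
      change φ k (π v) ∈ _
      rw [rep_apply π φ hφ hHW]
      exact ⟨_, (mem_normalizer_iff.1 (hPV hk) _).1 hv, rfl⟩
    · intro U' hVU' hAU hPU hzU
      set K : Subgroup G := (U'.comap π.toMonoidHom).map W.subtype with hK
      have hKm : ∀ w : W, (w : G) ∈ K ↔ π w ∈ U' := by
        intro w
        constructor
        · rintro ⟨w', hw', h⟩
          have : w' = w := Subtype.ext h
          rw [← this]; exact hw'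
        · intro h
          exact ⟨w, h, rfl⟩
      have hKW : K ≤ W := Subgroup.map_subtype_le _
      have hAK : A ⊔ zpowers z ≤ normalizer (K : Set G) := by
        have hg : ∀ g (hg : g ∈ H), (∀ u ∈ U', φ ⟨g, hg⟩ u ∈ U') → g ∈ normalizer (K : Set G) := by
          intro g hg h1
          apply H33.mem_norm_of_le
          rw [H33.cj_le_iff]
          intro w hw
          have h2 := h1 _ ((hKm ⟨w, hKW hw⟩).1 hw)
          rw [rep_apply π φ hφ hHW, ← hKm] at h2
          exact h2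
        refine sup_le ?_ ?_
        · intro b hb
          exact hg b (hAH hb) (fun u hu => hAU _ ((mem_im φ).2 ⟨_, hb, rfl⟩) u hu)
        · rw [zpowers_le]
          exact hg z hzH hzU
      have hWK : W ≤ K := by
        rw [hWdef]
        apply ncl_le_of_norm hAK
        intro v hv
        exact (hKm ⟨v, hVW hv⟩).2 (hVU' ⟨⟨v, hVW hv⟩, hv, rfl⟩)
      rw [eq_top_iff]
      intro u _
      obtain ⟨w, rfl⟩ := π.surjective u
      exact (hKm w).1 (hWK w.2)
  have h2 : (⟨z, hzH⟩ : H) ∈ φ.ker := hone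
  rw [hker] at h2
  exact h2

end

end Cfsg.Agent.H33.GF
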