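import Cfsg.Agent.H33.GF5

set_option autoImplicit false
set_option linter.unusedVariables false
set_option linter.unusedSectionVars false
set_option linter.style.haveILetI false
set_option linter.deprecated false

/-!
Elements of odd order inverted by an element of a maximal elementary abelian subgroup.
-/

namespace Cfsg.Agent.H33.GF

open Subgroup Cfsg
open H33 (cj mem_cj conj_mem_cj cj_mul cj_mono IsSyl mem_norm_iff)
open H34 (fixedBy mem_fixedBy fixedBy_anti maxEA)
open H62 (EA EA_iff Quad ncl o2 omZ cj_le_ncl le_ncl ncl_le ncl_le_of_norm norm_ncl EA_ncl norm_o2 o2_le isPGroup_o2 le_o2)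

universe u

section

variable {G : Type u} [Group G]

theorem mul_inv_pow_mem {P : Subgroup G} {x p : G} (hx : x ∈ normalizer (P : Set G)) (hp : p ∈ P) (t : ℕ) :
    (p * x⁻¹) ^ t * x ^ t ∈ P := by
  induction t with
  | zero => rw [pow_zero, pow_zero, one_mul]; exact one_mem _
  | succ t ih =>
    have h1 : (p * x⁻¹) ^ (t + 1) * x ^ (t + 1) = p * (x⁻¹ * ((p * x⁻¹) ^ t * x ^ t) * x) := by
      rw [pow_succ', pow_succ]; group
    rw [h1]
    exact P.mul_mem hp ((mem_normalizer_iff''.1 hx _).1 ih)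

theorem inverted_pow {P : Subgroup G} {x a : G} (hx : x ∈ normalizer (P : Set G)) (h : a * x * a⁻¹ * x ∈ P) (t : ℕ) :
    a * x ^ t * a⁻¹ * x ^ t ∈ P := by
  have h1 : a * x ^ t * a⁻¹ = (a * x * a⁻¹) ^ t := by rw [conj_pow]
  have h2 : a * x * a⁻¹ = (a * x * a⁻¹ * x) * x⁻¹ := by group
  rw [h1, h2]
  exact mul_inv_pow_mem hx h t

theorem mul_pow_mem {C : Subgroup G} {p c : G} (hp : p ∈ normalizer (C : Set G)) (hc : c ∈ C) (t : ℕ) :
    ∃ c' ∈ C, (p * c) ^ t = p ^ t * c' := by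
  induction t with
  | zero => exact ⟨1, one_mem _, by simp⟩
  | succ t ih =>
    obtain ⟨c', hc', h⟩ := ih
    refine ⟨(p⁻¹ * c' * p) * c, C.mul_mem ((mem_normalizer_iff''.1 hp _).1 hc') hc, ?_⟩
    rw [pow_succ, h, pow_succ]; group

theorem pow_mem_of_sup {P₀ C : Subgroup G} (h : IsPGroup 2 P₀) (hn : P₀ ≤ normalizer (C : Set G)) {y : G}
    (hy : y ∈ P₀ ⊔ C) : ∃ k, y ^ 2 ^ k ∈ C := by
  obtain ⟨p, hp, c, hc, rfl⟩ := (H33.mem_sup_right_norm hn).1 hy
  obtain ⟨k, hk⟩ := h ⟨p, hp⟩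
  obtain ⟨c', hc', h1⟩ := mul_pow_mem (hn hp) hc (2 ^ k)
  have h2 : p ^ 2 ^ k = 1 := congrArg Subtype.val hk
  exact ⟨k, by rw [h1, h2, one_mul]; exact hc'⟩

variable [Finite G]

theorem mem_of_coprime_pow {D : Subgroup G} {z : G} {n : ℕ} (h : z ^ n ∈ D) (hn : (orderOf z).Coprime n) : z ∈ D := by
  have h1 : z ∈ zpowers (z ^ n) := by
    have h2 : zpowers (z ^ n) = zpowers z := by
      apply Subgroup.eq_of_le_of_card_ge
      · rw [zpowers_le]; exact pow_mem (mem_zpowers z) n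
      · rw [Nat.card_zpowers, Nat.card_zpowers, hn.orderOf_pow]
    rw [h2]; exact mem_zpowers z
  exact (zpowers_le.2 h) h1

theorem mem_of_odd_pow {D : Subgroup G} {z : G} {k : ℕ} (h : z ^ 2 ^ k ∈ D) (hz : Odd (orderOf z)) : z ∈ D :=
  mem_of_coprime_pow h ((Nat.coprime_two_right.2 hz).pow_right k)

/-- membership can be tested on the primary parts -/
theorem mem_of_parts {D : Subgroup G} {x : G}
    (h : ∀ r s t : ℕ, r.Prime → ¬ r ∣ t → orderOf x = r ^ s * t → x ^ t ∈ D) : x ∈ D := by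
  classical
  by_contra hx
  have hex : ∃ m, 0 < m ∧ x ^ m ∈ D := ⟨orderOf x, orderOf_pos x, by rw [pow_orderOf_eq_one]; exact one_mem _⟩
  set m := Nat.find hex with hm
  obtain ⟨hm0, hmD⟩ := Nat.find_spec hex
  have hdvd : ∀ d, x ^ d ∈ D → m ∣ d := by
    intro d hd
    by_contra hnd
    have h1 : 0 < d % m := Nat.pos_of_ne_zero (fun h0 => hnd (Nat.dvd_of_mod_eq_zero h0))
    have h2 : x ^ (d % m) ∈ D := by
      have h3 : x ^ d = x ^ (d % m) * (x ^ m) ^ (d / m) := by
        rw [← pow_mul, ← pow_add, Nat.mod_add_div]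
      have h4 : x ^ (d % m) = x ^ d * ((x ^ m) ^ (d / m))⁻¹ := by rw [h3]; group
      rw [h4]
      exact D.mul_mem hd (D.inv_mem (pow_mem hmD _))
    exact Nat.find_min hex (Nat.mod_lt d hm0) ⟨h1, h2⟩
  have hm1 : m ≠ 1 := by
    intro h1
    apply hx
    have : x ^ m ∈ D := hmD
    rwa [h1, pow_one] at this
  obtain ⟨r, hr, hrm⟩ := Nat.exists_prime_and_dvd hm1
  obtain ⟨s, t, ht, hst⟩ := Nat.exists_eq_pow_mul_and_not_dvd (orderOf_pos x).ne' r hr.ne_one
  exact ht (hrm.trans (hdvd t (h r s t hr ht hst)))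

/-- the product of a subgroup of `A` and its centralizer in `W` -/
theorem max_prod {T A W : Subgroup G} (hA : A ∈ maxEA 2 T) (hW : EA W) (hWT : W ≤ T) (S : Subgroup G) (hS : S ≤ A) :
    Nat.card S * Nat.card (W ⊓ centralizer (S : Set G) : Subgroup G) ≤
      Nat.card A * Nat.card (W ⊓ centralizer (A : Set G) : Subgroup G) := by
  obtain ⟨hAT, hAe, hmax⟩ := hA
  have hA' : EA A := EA_iff.2 hAe
  set F := W ⊓ centralizer (S : Set G) with hF
  have hc : ∀ s ∈ S, ∀ f ∈ F, s * f = f * s := fun s hs f hf => mem_centralizer_iff.1 hf.2 s hs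
  have hSF : S ≤ normalizer (F : Set G) := by
    intro s hs
    apply H33.mem_norm_of_le
    rw [H33.cj_le_iff]
    intro f hf
    rw [hc s hs f hf, mul_inv_cancel_right]; exact hf
  have hEA : EA (S ⊔ F) := by
    constructor
    · intro x hx y hy
      obtain ⟨s, hs, f, hf, rfl⟩ := (H33.mem_sup_right_norm hSF).1 hx
      obtain ⟨s', hs', f', hf', rfl⟩ := (H33.mem_sup_right_norm hSF).1 hy
      calc s * f * (s' * f') = s * (f * s') * f' := by group
        _ = (s * s') * (f * f') := by rw [← hc s' hs' f hf]; group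
        _ = (s' * s) * (f' * f) := by rw [hA'.1 s (hS hs) s' (hS hs'), hW.1 f hf.1 f' hf'.1]
        _ = s' * (s * f') * f := by group
        _ = s' * f' * (s * f) := by rw [hc s hs f' hf']; group
    · intro x hx
      obtain ⟨s, hs, f, hf, rfl⟩ := (H33.mem_sup_right_norm hSF).1 hx
      calc s * f * (s * f) = s * (f * s) * f := by group
        _ = (s * s) * (f * f) := by rw [← hc s hs f hf]; group
        _ = 1 := by rw [hA'.2 s (hS hs), hW.2 f hf.1, one_mul]
  have h1 := hmax (S ⊔ F) (sup_le (hS.trans hAT) (inf_le_left.trans hWT)) (EA_iff.1 hEA)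
  have h2 : F.relIndex (S ⊔ F) = F.relIndex S := Cop.relIndex_sup_eq hSF
  have h3 := H62.card_mul_relIndex' (le_sup_right : F ≤ S ⊔ F)
  have h4 : Nat.card (S ⊓ F : Subgroup G) * F.relIndex S = Nat.card S := by
    rw [← Subgroup.inf_relIndex_left S F]
    exact H62.card_mul_relIndex' inf_le_left
  have h5 : Nat.card (S ⊓ F : Subgroup G) ≤ Nat.card (W ⊓ centralizer (A : Set G) : Subgroup G) := by
    apply Subgroup.card_le_of_le
    rintro x ⟨hxS, hxF⟩
    refine ⟨hxF.1, mem_centralizer_iff.2 ?_⟩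
    intro a ha
    exact hA'.1 a ha x (hS hxS)
  rw [h2] at h3
  calc Nat.card S * Nat.card F = (Nat.card (S ⊓ F : Subgroup G) * F.relIndex S) * Nat.card F := by rw [h4]
    _ = (Nat.card F * F.relIndex S) * Nat.card (S ⊓ F : Subgroup G) := by ring
    _ ≤ Nat.card A * Nat.card (W ⊓ centralizer (A : Set G) : Subgroup G) := by
        rw [h3]; exact Nat.mul_le_mul h1 h5

/-- the general context -/
structure KCtx (T H V E : Subgroup G) : Prop where
  tH : T ≤ H
  tP : IsPGroup 2 T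
  qT : o2 H ≤ T
  eE : EA E
  eH : H ≤ normalizer (E : Set G)
  vE : V ≤ E
  eT : E ≤ T
  qV : o2 H ≤ normalizer (V : Set G)
  sq : SqH V (o2 H)

/-- the kernel of the action on `E` together with `O₂(H)` -/
def KE (H E : Subgroup G) : Subgroup G := o2 H ⊔ (H ⊓ centralizer (E : Set G))

theorem norm_inf_cent {H E : Subgroup G} (h : H ≤ normalizer (E : Set G)) :
    H ≤ normalizer ((H ⊓ centralizer (E : Set G) : Subgroup G) : Set G) := by
  intro g hg
  apply H33.mem_norm_of_le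
  rw [H33.cj_le_iff]
  rintro x ⟨hx, hxc⟩
  refine ⟨H.mul_mem (H.mul_mem hg hx) (H.inv_mem hg), mem_centralizer_iff.2 ?_⟩
  intro e he
  have h1 := mem_centralizer_iff.1 hxc _ ((mem_normalizer_iff''.1 (h hg) e).1 he)
  have h2 : e * (g * x * g⁻¹) = g * ((g⁻¹ * e * g) * x) * g⁻¹ := by group
  rw [h2, h1]; group

theorem norm_KE {H E : Subgroup G} (h : H ≤ normalizer (E : Set G)) : H ≤ normalizer (KE H E : Set G) := by
  intro g hg
  rw [mem_norm_iff]
  unfold KE
  rw [H33.cj_sup, mem_norm_iff.1 (norm_o2 H hg), mem_norm_iff.1 (norm_inf_cent h hg)]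

theorem KE_le (H E : Subgroup G) : KE H E ≤ H := sup_le (o2_le H) inf_le_left

theorem KCtx.fix {T H V E : Subgroup G} (c : KCtx T H V E) {A B : Subgroup G} (hA : A ∈ maxEA 2 T)
    (hVA : V ≤ centralizer (A : Set G)) (hBA : B ≤ A) {x a : G} (hx : x ∈ H) (hxo : Odd (orderOf x)) (ha : a ∈ A)
    (hBx : ∀ b ∈ B, x * b * x⁻¹ * b⁻¹ ∈ KE H E) (hinv : a * x * a⁻¹ * x ∈ KE H E) {n : ℕ} (hn : x ^ n ∈ KE H E)
    (hbd : ∀ r k : ℕ, r.Prime → r ∣ n → 0 < k → r ∣ 2 ^ k - 1 → (B.relIndex A) ^ 4 < 4 * 2 ^ k) :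
    x ∈ centralizer (V : Set G) := by
  classical
  haveI : Fact (Nat.Prime 2) := ⟨Nat.prime_two⟩
  have hA' : EA A := EA_iff.2 hA.2.1
  have hAH : A ≤ H := hA.1.trans c.tH
  have hBH : B ≤ H := hBA.trans hAH
  set Q := o2 H with hQ
  set C := H ⊓ centralizer (E : Set G) with hC
  set K := KE H E with hK
  have hKd : K = Q ⊔ C := rfl
  have hKn : H ≤ normalizer (K : Set G) := norm_KE c.eH
  have hCn : H ≤ normalizer (C : Set G) := norm_inf_cent c.eH
  set P := B ⊔ K with hP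
  have hPPC : P = (B ⊔ Q) ⊔ C := by rw [hP, hKd, sup_assoc]
  have hKP : K ≤ P := le_sup_right
  have hBn : A ≤ normalizer (B : Set G) := by
    intro b hb
    apply H33.mem_norm_of_le
    rw [H33.cj_le_iff]
    intro f hf
    rw [hA'.1 b hb f (hBA hf), mul_inv_cancel_right]; exact hf
  have hAP : A ≤ normalizer (P : Set G) := by
    intro b hb
    rw [mem_norm_iff, hP, H33.cj_sup, mem_norm_iff.1 (hBn hb), mem_norm_iff.1 (hKn (hAH hb))]
  have hxP : x ∈ normalizer (P : Set G) := by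
    apply H33.mem_norm_of_le
    rw [hP, H33.cj_sup, mem_norm_iff.1 (hKn hx)]
    refine sup_le ?_ le_sup_right
    rw [H33.cj_le_iff]
    intro b hb
    have h1 : x * b * x⁻¹ = (x * b * x⁻¹ * b⁻¹) * b := by group
    rw [h1]
    exact mul_mem (mem_sup_right (hBx b hb)) (mem_sup_left hb)
  have hP0 : IsPGroup 2 (B ⊔ Q : Subgroup G) := by
    have hBQ : B ≤ normalizer (Q : Set G) := hBH.trans (norm_o2 H)
    exact IsPGroup.to_sup_of_normal_right' (hA'.mono hBA).isPGroup (isPGroup_o2 H) hBQ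
  have hPV : P ≤ normalizer (V : Set G) := by
    refine sup_le ?_ (sup_le c.qV ?_)
    · intro b hb
      apply H33.mem_norm_of_le
      rw [H33.cj_le_iff]
      intro v hv
      rw [mem_centralizer_iff.1 (hVA hv) b (hBA hb), mul_inv_cancel_right]; exact hv
    · intro y hy
      apply H33.mem_norm_of_le
      rw [H33.cj_le_iff]
      intro v hv
      rw [← mem_centralizer_iff.1 hy.2 v (c.vE hv), mul_inv_cancel_right]; exact hv
  have hsqP : SqH V P := by
    set C' := P ⊓ centralizer (V : Set G) with hC'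
    have h1 : SqH V (Q ⊔ C') := by
      apply c.sq.sup_cent inf_le_right
      intro q hq
      have hqP : q ∈ P := hKP (mem_sup_left hq)
      apply H33.mem_norm_of_le
      rw [H33.cj_le_iff]
      rintro y ⟨hy, hyc⟩
      refine ⟨P.mul_mem (P.mul_mem hqP hy) (P.inv_mem hqP), mem_centralizer_iff.2 ?_⟩
      intro e he
      have h1 := mem_centralizer_iff.1 hyc _ ((mem_normalizer_iff''.1 (c.qV hq) e).1 he)
      have h2 : e * (q * y * q⁻¹) = q * ((q⁻¹ * e * q) * y) * q⁻¹ := by group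
      rw [h2, h1]; group
    refine h1.mono ?_
    refine sup_le ?_ (sup_le le_sup_left ?_)
    · intro b hb
      refine mem_sup_right ⟨mem_sup_left hb, mem_centralizer_iff.2 ?_⟩
      intro v hv
      exact (mem_centralizer_iff.1 (hVA hv) b (hBA hb)).symm
    · intro y hy
      refine mem_sup_right ⟨hKP (mem_sup_right hy), mem_centralizer_iff.2 ?_⟩
      intro v hv
      exact mem_centralizer_iff.1 hy.2 v (c.vE hv)
  obtain ⟨j, hj⟩ : ∃ j, B.relIndex A = 2 ^ j := by
    obtain ⟨m, hm⟩ := IsPGroup.iff_card.1 hA'.isPGroup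
    obtain ⟨j, -, hj⟩ := (Nat.dvd_prime_pow Nat.prime_two).1 (show B.relIndex A ∣ 2 ^ m by
      rw [← hm]; exact ⟨Nat.card B, by rw [mul_comm]; exact (H62.card_mul_relIndex' hBA).symm⟩)
    exact ⟨j, hj⟩
  apply mem_of_parts
  intro r s t hr ht hst
  haveI : Fact r.Prime := ⟨hr⟩
  have ht0 : t ≠ 0 := by rintro rfl; exact ht (dvd_zero r)
  have hoz : orderOf (x ^ t) = r ^ s := by
    rw [orderOf_pow_of_dvd ht0 (by rw [hst]; exact Dvd.intro_left _ rfl), hst]
    exact Nat.mul_div_cancel _ (Nat.pos_of_ne_zero ht0)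
  have hzo : Odd (orderOf (x ^ t)) := by
    exact hxo.of_dvd_nat (orderOf_pow_dvd t)
  have hzH : x ^ t ∈ H := pow_mem hx t
  by_cases hrn : r ∣ n
  · rcases Nat.eq_zero_or_pos s with hs | hs
    · rw [hs, pow_zero] at hoz
      rw [orderOf_eq_one_iff.1 hoz]; exact one_mem _
    have hr2 : r ≠ 2 := by
      rintro rfl
      rw [hoz] at hzo
      have := (Nat.odd_pow_iff hs.ne').1 hzo
      exact absurd this (by decide)
    have hle : A ⊔ zpowers (x ^ t) ≤ H := sup_le hAH (by rwa [zpowers_le])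
    have hWE : ncl (A ⊔ zpowers (x ^ t)) V ≤ E := ncl_le_of_norm (hle.trans c.eH) c.vE
    have h1 := kfix hr2 (A := A) (B := B) (P := P) (P₀ := B ⊔ Q) (C := C) (V := V) (z := x ^ t) (a := a) (j := j)
      hA' hVA hBA le_sup_left hPPC hP0 (inf_le_right.trans (centralizer_le hWE)) hAP (pow_mem hxP t) ha
      (hKP (inverted_pow (hKn hx) hinv t)) hPV (c.eE.mono hWE) hj ?_ ⟨s, hoz⟩ hsqP
      (fun S hS => max_prod hA (c.eE.mono hWE) (hWE.trans c.eT) S hS)
    · exact centralizer_le (le_ncl _ _) h1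
    · intro k hk0 hk
      rw [← hj]
      exact hbd r k hr hrn hk0 hk
  · have hco : (orderOf (x ^ t)).Coprime n := by
      rw [hoz]
      exact (Nat.Coprime.pow_left s ((Nat.Prime.coprime_iff_not_dvd hr).2 hrn))
    have h1 : (x ^ t) ^ n ∈ K := by
      rw [← pow_mul, mul_comm, pow_mul]
      exact pow_mem hn t
    have h2 : x ^ t ∈ K := mem_of_coprime_pow h1 hco
    obtain ⟨k, hk⟩ := pow_mem_of_sup (isPGroup_o2 H) ((o2_le H).trans hCn) (show x ^ t ∈ o2 H ⊔ C from h2)
    have h3 := mem_of_odd_pow hk hzo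
    exact centralizer_le c.vE h3.2

end

end Cfsg.Agent.H33.GF
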