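import Cfsg.Agent.H33.GF6

set_option autoImplicit false
set_option linter.unusedVariables false
set_option linter.unusedSectionVars false
set_option linter.style.haveILetI false
set_option linter.deprecated false

/-!
`V ≤ O₂(H)`.
-/

namespace Cfsg.Agent.H33.GF

open Subgroup Cfsg
open H33 (cj mem_cj conj_mem_cj cj_mul cj_mono IsSyl mem_norm_iff)
open H34 (fixedBy mem_fixedBy fixedBy_anti maxEA)
open H62 (EA EA_iff Quad ncl o2 omZ cj_le_ncl le_ncl ncl_le ncl_le_of_norm norm_ncl EA_ncl norm_o2 o2_le isPGroup_o2 le_o2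
  pow_two_pow_ne_one relIndex_ne_zero' coprime_step exists_odd_pow)

universe u

/-- elements of odd order attached to an elementary abelian group -/
structure Chain {X : Type u} [Group X] (A B : Subgroup X) (a x : X) : Prop where
  ne : x ≠ 1
  odd : Odd (orderOf x)
  BA : B ≤ A
  aA : a ∈ A
  inv : a * x * a⁻¹ = x⁻¹
  cent : ∀ b ∈ B, b * x = x * b
  bd : ∀ r k : ℕ, r.Prime → r ∣ orderOf x → 0 < k → r ∣ 2 ^ k - 1 → (B.relIndex A) ^ 4 < 4 * 2 ^ k

section

variable {G : Type u} [Group G] [Finite G]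

theorem act_triv {E I : Subgroup G} {y : G} (hyE : y ∈ normalizer (E : Set G))
    (hyI : y ∈ normalizer (I : Set G)) (hIE : I ≤ E) (hEI : E ≤ normalizer (I : Set G)) {r : ℕ} [hr : Fact r.Prime]
    (hr2 : r ≠ 2) (ho : ∃ s, orderOf y = r ^ s) (hE : IsPGroup 2 E)
    (hcard : ∀ k, 0 < k → r ∣ 2 ^ k - 1 → I.relIndex E < 2 ^ k) {e : G} (he : e ∈ E) :
    y * e * y⁻¹ * e⁻¹ ∈ I := by
  haveI hN : (I.subgroupOf E).Normal := H62.normal_subgroupOf hEI
  have hz : zpowers y ≤ normalizer (E : Set G) := zpowers_le.2 hyE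
  set φ0 : zpowers y →* MulAut E := (Subgroup.normalizerMonoidHom E).comp (Subgroup.inclusion hz) with hφ0
  have hφ0a : ∀ (h : zpowers y) (u : E), ((φ0 h u : E) : G) = h * u * (h : G)⁻¹ := fun h u => rfl
  have hinv : ∀ h : zpowers y, ∀ u ∈ I.subgroupOf E, φ0 h u ∈ I.subgroupOf E := by
    intro h u hu
    rw [mem_subgroupOf, hφ0a]
    exact (mem_normalizer_iff.1 ((zpowers_le.2 hyI : zpowers y ≤ _) h.2) _).1 hu
  set φ := H91.quotAct φ0 (I.subgroupOf E) hinv with hφ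
  set Y : zpowers y := ⟨y, mem_zpowers y⟩ with hY
  have hoφ : ∃ s, orderOf (φ Y) = r ^ s := by
    obtain ⟨s, hs⟩ := ho
    obtain ⟨t, -, ht⟩ := (Nat.dvd_prime_pow hr.out).1 (show orderOf (φ Y) ∣ r ^ s by
      refine (orderOf_map_dvd φ Y).trans ?_
      rw [hY, Subgroup.orderOf_mk, hs])
    exact ⟨t, ht⟩
  let S : Subgroup (E ⧸ I.subgroupOf E) :=
    { carrier := {a | φ Y a = a}
      one_mem' := map_one _
      mul_mem' := fun {a b} ha hb => by
        simp only [Set.mem_setOf_eq] at *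
        rw [map_mul, ha, hb]
      inv_mem' := fun {a} ha => by
        simp only [Set.mem_setOf_eq] at *
        rw [map_inv, ha] }
  have hS : S = ⊤ := by
    by_contra hne
    obtain ⟨k, h1, h2, h3⟩ := fix_index (hE.to_quotient _) hr2 (φ Y) hoφ (S := S) (fun a => Iff.rfl) hne
    have h4 : S.index ≤ I.relIndex E := by
      have h5 : Nat.card (E ⧸ I.subgroupOf E) = I.relIndex E := rfl
      rw [← h5]
      exact Nat.le_of_dvd Nat.card_pos S.index_dvd_card
    have h6 := hcard k h1 h2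
    omega
  have h3 : φ Y (((⟨e, he⟩ : E) : E ⧸ I.subgroupOf E)) = (((⟨e, he⟩ : E) : E ⧸ I.subgroupOf E)) := by
    have h4 : (((⟨e, he⟩ : E) : E ⧸ I.subgroupOf E)) ∈ S := hS ▸ mem_top _
    exact h4
  change ((φ0 Y (⟨e, he⟩ : E) : E) : E ⧸ I.subgroupOf E) = (((⟨e, he⟩ : E) : E ⧸ I.subgroupOf E)) at h3
  rw [QuotientGroup.eq_iff_div_mem] at h3
  change ((φ0 Y (⟨e, he⟩ : E) : E) : G) / e ∈ I at h3
  rw [hφ0a, div_eq_mul_inv] at h3
  exact h3

theorem le_core_of_sqH {Γ : Type u} [Group Γ] [Finite Γ]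
    (hc2 : centralizer (pCore 2 Γ : Set Γ) ≤ pCore 2 Γ) {T V : Subgroup Γ} (hQT : pCore 2 Γ ≤ T)
    (hV : EA V) (hVT : V ≤ T) (hTV : T ≤ normalizer (V : Set Γ)) (hsq : SqH V T)
    (hch : V.map (QuotientGroup.mk' (pCore 2 Γ)) ≠ ⊥ → ∃ B a x, Chain (V.map (QuotientGroup.mk' (pCore 2 Γ))) B a x) :
    V ≤ pCore 2 Γ := by
  classical
  haveI : Fact (Nat.Prime 2) := ⟨Nat.prime_two⟩
  set Q := pCore 2 Γ with hQ
  have hQn : Q.Normal := by rw [hQ]; infer_instance
  have hQp : IsPGroup 2 Q := Solv.pCore_isPGroup 2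
  by_contra hnot
  set π := QuotientGroup.mk' Q with hπ
  have hker : ∀ y : Γ, π y = 1 ↔ y ∈ Q := fun y => QuotientGroup.eq_one_iff y
  have hVπ : EA (V.map π) := by
    constructor
    · rintro _ ⟨a, ha, rfl⟩ _ ⟨b, hb, rfl⟩
      rw [← map_mul, hV.1 a ha b hb, map_mul]
    · rintro _ ⟨a, ha, rfl⟩
      rw [← map_mul, hV.2 a ha, map_one]
  have hnb : V.map π ≠ ⊥ := by
    intro h
    apply hnot
    intro a ha
    rw [← hker, ← mem_bot, ← h]
    exact ⟨a, ha, rfl⟩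
  obtain ⟨B, v', x', ch⟩ := hch hnb
  have hBV := ch.BA
  have hv' := ch.aA
  have hx'1 := ch.ne
  have hinv := ch.inv
  have hBx := ch.cent
  have hx'o := ch.odd
  obtain ⟨v, hv, hvv'⟩ := hv'
  obtain ⟨x, hx, hmin⟩ : ∃ x, π x = x' ∧ ∀ y, π y = x' →
      Nat.card (V ⊔ cj x V : Subgroup Γ) ≤ Nat.card (V ⊔ cj y V : Subgroup Γ) := by
    have h1 : ∃ n, ∃ x, π x = x' ∧ Nat.card (V ⊔ cj x V : Subgroup Γ) = n := by
      obtain ⟨x, hx⟩ := QuotientGroup.mk'_surjective Q x'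
      exact ⟨_, x, hx, rfl⟩
    obtain ⟨x, hx, hxn⟩ := Nat.find_spec h1
    refine ⟨x, hx, fun y hy => ?_⟩
    rw [hxn]
    exact Nat.find_min' h1 ⟨y, hy, rfl⟩
  have hvv : v * v = 1 := hV.2 v hv
  have hvi : v⁻¹ = v := inv_eq_of_mul_eq_one_left hvv
  have hv'i : v'⁻¹ = v' := by rw [← hvv', ← map_inv, hvi]
  have hinv2 : v' * x'⁻¹ * v'⁻¹ = x' := by
    have := congrArg (·⁻¹) hinv
    simpa [mul_assoc] using this
  obtain ⟨x, hx, hxL⟩ : ∃ x, π x = x' ∧ x ∈ V ⊔ cj x V := by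
    obtain ⟨k, hk⟩ := hx'o
    set w := (x * v * x⁻¹) * v with hw
    have hwL : w ∈ V ⊔ cj x V := mul_mem (le_sup_right (a := V) (conj_mem_cj hv)) (le_sup_left (b := cj x V) hv)
    have hπw : π w = x' ^ 2 := by
      rw [hw, map_mul, map_mul, map_mul, map_inv, hx, hvv', sq]
      calc x' * v' * x'⁻¹ * v' = x' * (v' * x'⁻¹ * v'⁻¹) := by rw [hv'i]; group
        _ = x' * x' := by rw [hinv2]
    have hπy : π (w ^ (k + 1)) = x' := by
      rw [map_pow, hπw, ← pow_mul]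
      have : 2 * (k + 1) = orderOf x' + 1 := by rw [hk]; ring
      rw [this, pow_succ, pow_orderOf_eq_one, one_mul]
    have hyL : w ^ (k + 1) ∈ V ⊔ cj x V := pow_mem hwL _
    refine ⟨w ^ (k + 1), hπy, ?_⟩
    have hle : V ⊔ cj (w ^ (k + 1)) V ≤ V ⊔ cj x V := by
      refine sup_le le_sup_left ?_
      rintro a ha
      rw [mem_cj] at ha
      have h1 := mul_mem (mul_mem hyL (le_sup_left (b := cj x V) ha)) (inv_mem hyL)
      have h2 : w ^ (k + 1) * ((w ^ (k + 1))⁻¹ * a * w ^ (k + 1)) * (w ^ (k + 1))⁻¹ = a := by group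
      rwa [h2] at h1
    rw [Subgroup.eq_of_le_of_card_ge hle (hmin _ hπy)]
    exact hyL
  set V0 : Subgroup Γ := V ⊓ (centralizer {x'}).comap π with hV0
  have hV0m : ∀ u, u ∈ V0 ↔ u ∈ V ∧ π u * x' = x' * π u := by
    intro u
    rw [hV0, mem_inf, mem_comap, mem_centralizer_singleton_iff]
  have hV0V : V0 ≤ V := inf_le_left
  have hV0i : V0.relIndex V ≤ B.relIndex (V.map π) := by
    rw [hV0, Subgroup.inf_relIndex_left, Subgroup.relIndex_comap]
    refine (Subgroup.relIndex_le_of_le_left (H := B) ?_ (relIndex_ne_zero' _ _))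
    intro b hb
    rw [mem_centralizer_singleton_iff]
    exact hBx b hb
  set P := cj x V0 with hP
  have hπP : ∀ u ∈ V0, π (x * u * x⁻¹) = π u := by
    intro u hu
    rw [map_mul, map_mul, map_inv, hx, ← ((hV0m u).1 hu).2]; group
  have hπP' : ∀ u ∈ V0, π (x⁻¹ * u * x) = π u := by
    intro u hu
    rw [map_mul, map_mul, map_inv, hx, mul_assoc, ((hV0m u).1 hu).2]; group
  have hcong : ∀ u ∈ V0, ∀ w, π w = π u → w ∈ T := by
    intro u hu w hw
    have h1 : w * u⁻¹ ∈ Q := by rw [← hker, map_mul, map_inv, hw, mul_inv_cancel]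
    have h2 : w = (w * u⁻¹) * u := by group
    rw [h2]
    exact mul_mem (hQT h1) (hVT (hV0V hu))
  have hPmem : ∀ p ∈ P, p ∈ T ∧ π p ∈ V.map π := by
    intro p hp
    obtain ⟨u, hu, rfl⟩ : ∃ u ∈ V0, x * u * x⁻¹ = p := ⟨x⁻¹ * p * x, mem_cj.1 hp, by group⟩
    refine ⟨hcong u hu _ (hπP u hu), ?_⟩
    rw [hπP u hu]
    exact ⟨u, hV0V hu, rfl⟩
  have hPT : P ≤ T := fun p hp => (hPmem p hp).1
  have hPEA : EA P := (hV.mono hV0V).cj x
  set I := V ⊓ cj x V with hI
  set L := V ⊔ cj x V with hL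
  have hIL : ∀ i ∈ I, ∀ l ∈ L, i * l = l * i := by
    intro i hi l hl
    have h1 : L ≤ centralizer {i} := by
      refine sup_le ?_ ?_
      · intro a ha
        rw [mem_centralizer_singleton_iff]
        exact hV.1 a ha i hi.1
      · intro a ha
        rw [mem_centralizer_singleton_iff]
        exact (hV.cj x).1 a ha i hi.2
    exact (mem_centralizer_singleton_iff.1 (h1 hl)).symm
  have hIV0 : I ≤ V0 := by
    intro i hi
    rw [hV0m]
    refine ⟨hi.1, ?_⟩
    rw [← hx, ← map_mul, ← map_mul, hIL i hi x hxL]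
  have hIx : cj x I = I := by
    ext i
    rw [mem_cj]
    constructor
    · intro h
      have := hIL _ h x hxL
      have h2 : i = x⁻¹ * i * x := by
        calc i = x * (x⁻¹ * i * x) * x⁻¹ := by group
          _ = x⁻¹ * i * x := by rw [← this]; group
      rw [h2]; exact h
    · intro h
      have h2 : x⁻¹ * i * x = i := by
        rw [mul_assoc, hIL i h x hxL]; group
      rw [h2]; exact h
  have hIP : I ≤ P := by
    rw [← hIx]; exact cj_mono hIV0
  have hPC : P ⊓ centralizer (V : Set Γ) ≤ I := by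
    rintro p ⟨hp, hpV⟩
    have hpc : p ∈ cj x V := cj_mono hV0V hp
    have h1 : L ≤ centralizer {p} := by
      refine sup_le ?_ ?_
      · intro a ha
        rw [mem_centralizer_singleton_iff]
        exact mem_centralizer_iff.1 hpV a ha
      · intro a ha
        rw [mem_centralizer_singleton_iff]
        exact (hV.cj x).1 a ha p hpc
    have h2 := mem_centralizer_singleton_iff.1 (h1 hxL)
    have h3 : x⁻¹ * p * x = p := by rw [mul_assoc, ← h2]; group
    refine ⟨?_, hpc⟩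
    rw [← h3]
    exact mem_cj.1 hpc
  have hsq1 := hsq P hPT (hPEA.quad V)
  have hr0 : I.relIndex V0 = I.relIndex P := by
    rw [← H33.relIndex_cj x I V0, hIx]
  have hr1 : I.relIndex P ≤ (P ⊓ centralizer (V : Set Γ)).relIndex P :=
    Subgroup.relIndex_le_of_le_left hPC (relIndex_ne_zero' _ _)
  have hr2 : (V ⊓ centralizer (P : Set Γ)).relIndex V ≤ I.relIndex V := by
    refine Subgroup.relIndex_le_of_le_left ?_ (relIndex_ne_zero' _ _)
    intro i hi
    refine ⟨hi.1, mem_centralizer_iff.2 ?_⟩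
    intro p hp
    exact (hV.cj x).1 p (cj_mono hV0V hp) i hi.2
  have hr3 : I.relIndex V = I.relIndex V0 * V0.relIndex V := (Subgroup.relIndex_mul_relIndex _ _ _ hIV0 hV0V).symm
  set m := V0.relIndex V with hm
  have hm0 : 0 < m := Nat.pos_of_ne_zero (relIndex_ne_zero' _ _)
  have hvV0 : v ∉ V0 := by
    intro h
    have h1 := ((hV0m v).1 h).2
    rw [hvv'] at h1
    have h2 : x' = x'⁻¹ := by rw [← hinv, h1, mul_inv_cancel_right]
    have h3 : x' ^ 2 ^ 1 = 1 := by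
      rw [pow_one, sq]
      calc x' * x' = x' * x'⁻¹ := by rw [← h2]
        _ = 1 := mul_inv_cancel _
    exact pow_two_pow_ne_one hx'1 hx'o 1 h3
  have hm2 : 2 ∣ m := by
    obtain ⟨c, hc⟩ := IsPGroup.iff_card.1 hV.isPGroup
    obtain ⟨d, -, hd⟩ := (Nat.dvd_prime_pow Nat.prime_two).1 (show m ∣ 2 ^ c by
      rw [← hc]; exact ⟨Nat.card V0, by rw [mul_comm]; exact (H62.card_mul_relIndex' hV0V).symm⟩)
    have hd0 : d ≠ 0 := by
      rintro rfl
      rw [pow_zero, hm] at hd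
      exact hvV0 (Subgroup.relIndex_eq_one.1 hd hv)
    rw [hd]; exact dvd_pow_self 2 hd0
  obtain ⟨cn, hcn⟩ : ∃ c, I.relIndex P = 2 ^ c := by
    obtain ⟨c, hc⟩ := IsPGroup.iff_card.1 hPEA.isPGroup
    obtain ⟨d, -, hd⟩ := (Nat.dvd_prime_pow Nat.prime_two).1 (show I.relIndex P ∣ 2 ^ c by
      rw [← hc]; exact ⟨Nat.card I, by rw [mul_comm]; exact (H62.card_mul_relIndex' hIP).symm⟩)
    exact ⟨d, hd⟩
  obtain ⟨cm', hcm⟩ : ∃ c, m = 2 ^ c := by
    obtain ⟨c, hc⟩ := IsPGroup.iff_card.1 hV.isPGroup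
    obtain ⟨d, -, hd⟩ := (Nat.dvd_prime_pow Nat.prime_two).1 (show m ∣ 2 ^ c by
      rw [← hc]; exact ⟨Nat.card V0, by rw [mul_comm]; exact (H62.card_mul_relIndex' hV0V).symm⟩)
    exact ⟨d, hd⟩
  have hn0 : 2 * I.relIndex P ≤ m ^ 2 := by
    set n := I.relIndex P with hn
    have hpos : 0 < n := Nat.pos_of_ne_zero (relIndex_ne_zero' _ _)
    have hm2' : 2 ≤ m := Nat.le_of_dvd hm0 hm2
    rcases hsq1 with h | h
    · rw [h] at hr1
      have h1 : n = 1 := by omega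
      rw [h1]; nlinarith
    · have h1 : n ^ 3 < (n * m) ^ 2 := by
        calc n ^ 3 ≤ ((P ⊓ centralizer (V : Set Γ)).relIndex P) ^ 3 := Nat.pow_le_pow_left hr1 3
          _ < _ := h
          _ ≤ (I.relIndex V) ^ 2 := Nat.pow_le_pow_left hr2 2
          _ = (n * m) ^ 2 := by rw [hr3, hr0]
      have h2 : n < m ^ 2 := by
        have h3 : n ^ 2 * n < n ^ 2 * m ^ 2 := by
          calc n ^ 2 * n = n ^ 3 := by ring
            _ < (n * m) ^ 2 := h1
            _ = n ^ 2 * m ^ 2 := by ring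
        exact lt_of_mul_lt_mul_left h3 (Nat.zero_le _)
      rw [hcm, ← pow_mul, hcn] at h2
      have h3 := (Nat.pow_lt_pow_iff_right (by norm_num : 1 < 2)).1 h2
      rw [hcm, ← pow_mul, hcn, ← pow_succ']
      exact Nat.pow_le_pow_right (by norm_num) h3
  -- the commutator calculation
  have key : ∀ a ∈ V, ∀ t ∈ T, π t ∈ V.map π → a * t * a⁻¹ * t⁻¹ ∈ V ⊓ Q := by
    intro a ha t ht htv
    refine ⟨?_, ?_⟩
    · have h1 : t * a⁻¹ * t⁻¹ ∈ V := (mem_normalizer_iff.1 (hTV ht) _).1 (inv_mem ha)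
      have h2 : a * t * a⁻¹ * t⁻¹ = a * (t * a⁻¹ * t⁻¹) := by group
      rw [h2]; exact mul_mem ha h1
    · have h1 := hVπ.1 (π a) ⟨a, ha, rfl⟩ (π t) htv
      change a * t * a⁻¹ * t⁻¹ ∈ Q
      rw [← hker, map_mul, map_mul, map_mul, map_inv, map_inv, h1]; group
  have hVQ : V ⊓ Q ≤ V0 := by
    rintro u ⟨hu, huQ⟩
    rw [hV0m]
    refine ⟨hu, ?_⟩
    rw [(hker u).2 huQ, one_mul, mul_one]
  set E := V0 ⊔ P with hE
  have hV0E : V0 ≤ E := le_sup_left
  have hPE : P ≤ E := le_sup_right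
  have hVnE : V ≤ normalizer (E : Set Γ) := by
    intro a ha
    apply H33.mem_norm_of_le
    rw [hE, H33.cj_sup, sup_le_iff, H33.cj_le_iff, H33.cj_le_iff]
    constructor
    · intro u hu
      rw [hV.1 a ha u (hV0V hu), mul_inv_cancel_right]; exact hV0E hu
    · intro p hp
      have h1 := hV0E (hVQ (key a ha p (hPmem p hp).1 (hPmem p hp).2))
      have h2 : a * p * a⁻¹ = (a * p * a⁻¹ * p⁻¹) * p := by group
      rw [h2]; exact mul_mem h1 (hPE hp)
  have hV'nE : cj x V ≤ normalizer (E : Set Γ) := by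
    intro b hb
    obtain ⟨a, ha, rfl⟩ : ∃ a ∈ V, x * a * x⁻¹ = b := ⟨x⁻¹ * b * x, mem_cj.1 hb, by group⟩
    apply H33.mem_norm_of_le
    rw [hE, H33.cj_sup, sup_le_iff, H33.cj_le_iff, H33.cj_le_iff]
    constructor
    · intro u hu
      have h1 := key a ha (x⁻¹ * u * x) (hcong u hu _ (hπP' u hu)) (by rw [hπP' u hu]; exact ⟨u, hV0V hu, rfl⟩)
      have h2 := hPE (conj_mem_cj (g := x) (hVQ h1))
      have h3 : x * a * x⁻¹ * u * (x * a * x⁻¹)⁻¹ =
        (x * (a * (x⁻¹ * u * x) * a⁻¹ * (x⁻¹ * u * x)⁻¹) * x⁻¹) * u := by group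
      rw [h3]; exact mul_mem h2 (hV0E hu)
    · intro p hp
      rw [(hV.cj x).1 _ hb p (cj_mono hV0V hp), mul_inv_cancel_right]; exact hPE hp
  have hLnE : L ≤ normalizer (E : Set Γ) := sup_le hVnE hV'nE
  -- [Q, L] ≤ E
  have hQL : ∀ l ∈ L, ∀ q ∈ Q, q * l * q⁻¹ * l⁻¹ ∈ E := by
    let M : Subgroup Γ :=
      { carrier := {l | l ∈ normalizer (E : Set Γ) ∧ ∀ q ∈ Q, q * l * q⁻¹ * l⁻¹ ∈ E}
        one_mem' := ⟨one_mem _, fun q _ => by
          have : q * 1 * q⁻¹ * 1⁻¹ = 1 := by group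
          rw [this]; exact one_mem _⟩
        mul_mem' := by
          rintro l l' ⟨hl, hl1⟩ ⟨hl', hl'1⟩
          refine ⟨mul_mem hl hl', fun q hq => ?_⟩
          have h1 : q * (l * l') * q⁻¹ * (l * l')⁻¹ = (q * l * q⁻¹ * l⁻¹) * (l * (q * l' * q⁻¹ * l'⁻¹) * l⁻¹) := by
            group
          rw [h1]
          exact mul_mem (hl1 q hq) ((mem_normalizer_iff.1 hl _).1 (hl'1 q hq))
        inv_mem' := by
          rintro l ⟨hl, hl1⟩
          refine ⟨inv_mem hl, fun q hq => ?_⟩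
          have h1 : q * l⁻¹ * q⁻¹ * l⁻¹⁻¹ = l⁻¹ * (q * l * q⁻¹ * l⁻¹)⁻¹ * l := by group
          rw [h1]
          exact (mem_normalizer_iff''.1 hl _).1 (inv_mem (hl1 q hq)) }
    have hM : L ≤ M := by
      refine sup_le ?_ ?_
      · intro a ha
        refine ⟨hVnE ha, fun q hq => ?_⟩
        have h1 := key a ha q (hQT hq) (by rw [(hker q).2 hq]; exact one_mem _)
        have h2 : q * a * q⁻¹ * a⁻¹ = (a * q * a⁻¹ * q⁻¹)⁻¹ := by group
        rw [h2]; exact inv_mem (hV0E (hVQ h1))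
      · intro b hb
        refine ⟨hV'nE hb, fun q hq => ?_⟩
        obtain ⟨a, ha, rfl⟩ : ∃ a ∈ V, x * a * x⁻¹ = b := ⟨x⁻¹ * b * x, mem_cj.1 hb, by group⟩
        have hq' : x⁻¹ * q * x ∈ Q := by
          have := hQn.conj_mem q hq x⁻¹
          simpa using this
        have h1 := key a ha (x⁻¹ * q * x) (hQT hq') (by rw [(hker _).2 hq']; exact one_mem _)
        have h2 : q * (x * a * x⁻¹) * q⁻¹ * (x * a * x⁻¹)⁻¹ =
          x * (a * (x⁻¹ * q * x) * a⁻¹ * (x⁻¹ * q * x)⁻¹)⁻¹ * x⁻¹ := by group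
        rw [h2]; exact hPE (conj_mem_cj (g := x) (inv_mem (hVQ h1)))
    intro l hl
    exact (hM hl).2
  have hEp : IsPGroup 2 E := by
    have hPn : P ≤ normalizer (V0 : Set Γ) := by
      intro p hp
      apply H33.mem_norm_of_le
      rw [H33.cj_le_iff]
      intro u hu
      have h1 := key u (hV0V hu) p (hPmem p hp).1 (hPmem p hp).2
      have h2 : p * u * p⁻¹ = (u * p * u⁻¹ * p⁻¹)⁻¹ * u := by group
      rw [h2]; exact mul_mem (inv_mem (hVQ h1)) hu
    rw [hE, sup_comm]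
    exact IsPGroup.to_sup_of_normal_right' hPEA.isPGroup (hV.mono hV0V).isPGroup hPn
  have hEi : 4 * I.relIndex E ≤ m ^ 4 := by
    have hPn : P ≤ normalizer (V0 : Set Γ) := by
      intro p hp
      apply H33.mem_norm_of_le
      rw [H33.cj_le_iff]
      intro u hu
      have h1 := key u (hV0V hu) p (hPmem p hp).1 (hPmem p hp).2
      have h2 : p * u * p⁻¹ = (u * p * u⁻¹ * p⁻¹)⁻¹ * u := by group
      rw [h2]; exact mul_mem (inv_mem (hVQ h1)) hu
    have h1 : V0.relIndex E = V0.relIndex P := by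
      rw [hE, sup_comm]; exact Cop.relIndex_sup_eq hPn
    have h2 : V0.relIndex P ≤ I.relIndex P := Subgroup.relIndex_le_of_le_left hIV0 (relIndex_ne_zero' _ _)
    rw [← Subgroup.relIndex_mul_relIndex _ _ _ hIV0 hV0E, h1, hr0]
    calc 4 * (I.relIndex P * V0.relIndex P) ≤ 4 * (I.relIndex P * I.relIndex P) :=
          Nat.mul_le_mul_left _ (Nat.mul_le_mul_left _ h2)
      _ = (2 * I.relIndex P) ^ 2 := by ring
      _ ≤ (m ^ 2) ^ 2 := Nat.pow_le_pow_left hn0 2
      _ = m ^ 4 := by ring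
  -- the inverted element
  set t := v * (x * v⁻¹ * x⁻¹) with ht
  obtain ⟨a, hao⟩ := exists_odd_pow (t := t)
  set y := t ^ 2 ^ a with hy
  have htL : t ∈ L := mul_mem (le_sup_left (b := cj x V) hv) (le_sup_right (a := V) (conj_mem_cj (inv_mem hv)))
  have hyL : y ∈ L := pow_mem htL _
  have hπt : π t = (x'⁻¹) ^ 2 ^ 1 := by
    rw [ht, map_mul, map_mul, map_mul, map_inv, map_inv, hx, hvv', pow_one, sq]
    calc v' * (x' * v'⁻¹ * x'⁻¹) = (v' * x' * v'⁻¹) * x'⁻¹ := by group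
      _ = x'⁻¹ * x'⁻¹ := by rw [hinv]
  have hy1 : y ≠ 1 := by
    intro h
    have h1 : π y = (x'⁻¹) ^ 2 ^ (1 + a) := by
      rw [hy, map_pow, hπt, ← pow_mul, ← pow_add]
    rw [h, map_one] at h1
    exact pow_two_pow_ne_one (inv_ne_one.2 hx'1) (by rw [orderOf_inv]; exact hx'o) (1 + a) h1.symm
  have hvt : v * t * v⁻¹ = t⁻¹ := by
    rw [ht, hvi]
    calc v * (v * (x * v * x⁻¹)) * v = (v * v) * (x * v * x⁻¹) * v := by group
      _ = (x * v⁻¹ * x⁻¹) * v⁻¹ := by rw [hvv, hvi]; group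
      _ = (v * (x * v * x⁻¹))⁻¹ := by group
  have hvy : v * y * v⁻¹ = y⁻¹ := by
    rw [hy, ← conj_pow, hvt, inv_pow]
  -- the primary part
  have hπy : π y = (x'⁻¹) ^ 2 ^ (1 + a) := by
    rw [hy, map_pow, hπt, ← pow_mul, ← pow_add]
  have hx'1' : orderOf x' ≠ 1 := fun h => hx'1 (orderOf_eq_one_iff.1 h)
  obtain ⟨r, hr, hrx⟩ := Nat.exists_prime_and_dvd hx'1'
  haveI : Fact r.Prime := ⟨hr⟩
  have hr2 : r ≠ 2 := by
    rintro rfl
    exact absurd (hx'o.of_dvd_nat hrx) (by decide)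
  have hoπ : orderOf (π y) = orderOf x' := by
    rw [hπy, Nat.Coprime.orderOf_pow, orderOf_inv]
    rw [orderOf_inv]
    exact (Nat.coprime_two_right.2 hx'o).pow_right _
  have hry : r ∣ orderOf y := by
    refine hrx.trans ?_
    rw [← hoπ]
    exact orderOf_map_dvd π y
  obtain ⟨s, tt, htt, hst⟩ := Nat.exists_eq_pow_mul_and_not_dvd (orderOf_pos y).ne' r hr.ne_one
  have hs0 : s ≠ 0 := by
    rintro rfl
    rw [pow_zero, one_mul] at hst
    exact htt (hst ▸ hry)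
  have ht0 : tt ≠ 0 := by rintro rfl; exact htt (dvd_zero r)
  set z := y ^ tt with hz
  have hoz : orderOf z = r ^ s := by
    rw [hz, orderOf_pow_of_dvd ht0 (by rw [hst]; exact Dvd.intro_left _ rfl), hst]
    exact Nat.mul_div_cancel _ (Nat.pos_of_ne_zero ht0)
  have hzo : Odd (orderOf z) := hao.of_dvd_nat (orderOf_pow_dvd tt)
  have hzL : z ∈ L := pow_mem hyL _
  have hzE : ∀ e ∈ E, z * e = e * z := by
    intro e he
    have hEL : E ≤ L := sup_le (hV0V.trans le_sup_left) ((cj_mono hV0V).trans le_sup_right)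
    have hLI : L ≤ normalizer (I : Set Γ) := by
      intro g hg
      apply H33.mem_norm_of_le
      rw [H33.cj_le_iff]
      intro i hi
      rw [← hIL i hi g hg, mul_inv_cancel_right]; exact hi
    have hlt : ∀ k, 0 < k → r ∣ 2 ^ k - 1 → I.relIndex E < 2 ^ k := by
      intro k hk0 hk
      have h1 := ch.bd r k hr hrx hk0 hk
      have h2 : m ^ 4 ≤ (B.relIndex (V.map π)) ^ 4 := Nat.pow_le_pow_left hV0i 4
      omega
    have h1 := act_triv (E := E) (I := I) (hLnE hzL) (hLI hzL) (hIV0.trans hV0E) (hEL.trans hLI) hr2 ⟨s, hoz⟩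
      hEp hlt he
    refine coprime_step hzo rfl ((hIL _ h1 _ hzL).symm) ⟨1, ?_⟩
    rw [pow_one, sq]
    exact hV.2 _ h1.1
  have hzQ : ∀ q ∈ Q, z * q = q * z := by
    intro q hq
    have h1 : z * q * z⁻¹ * q⁻¹ ∈ E := by
      have := inv_mem (hQL z hzL q hq)
      have h2 : (q * z * q⁻¹ * z⁻¹)⁻¹ = z * q * z⁻¹ * q⁻¹ := by group
      rwa [h2] at this
    refine coprime_step hzo rfl (hzE _ h1) ?_
    have h2 : z * q * z⁻¹ * q⁻¹ ∈ Q := mul_mem (hQn.conj_mem q hq _) (inv_mem hq)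
    obtain ⟨k, hk⟩ := hQp ⟨_, h2⟩
    exact ⟨k, congrArg Subtype.val hk⟩
  have hz1 : z = 1 := by
    have h1 : z ∈ Q := hc2 (mem_centralizer_iff.2 fun q hq => (hzQ q hq).symm)
    obtain ⟨k, hk⟩ := hQp ⟨_, h1⟩
    by_contra h2
    exact pow_two_pow_ne_one h2 hzo k (congrArg Subtype.val hk)
  rw [hz1, orderOf_one] at hoz
  have := Nat.one_lt_pow hs0 hr.one_lt
  omega

end

section

variable {G : Type u} [Group G] [Finite G]

theorem SqH.subgroupOf {H V T : Subgroup G} (hVH : V ≤ H) (hTH : T ≤ H) (h : SqH V T) :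
    SqH (V.subgroupOf H) (T.subgroupOf H) := by
  intro P hP hq
  have hPm : P.map H.subtype ≤ T := by
    rintro _ ⟨p, hp, rfl⟩
    exact hP hp
  have hPeq : (P.map H.subtype).subgroupOf H = P := by
    rw [Subgroup.subgroupOf]
    exact comap_map_eq_self_of_injective H.subtype_injective P
  have h1 := h (P.map H.subtype) hPm ⟨by
      rintro _ ⟨a, ha, rfl⟩ _ ⟨b, hb, rfl⟩
      rw [mem_centralizer_iff]
      intro v hv
      exact congrArg Subtype.val (mem_centralizer_iff.1 (hq.1 a ha b hb) ⟨v, hVH hv⟩ (mem_subgroupOf.2 hv)),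
    by
      rintro _ ⟨a, ha, rfl⟩
      rw [mem_centralizer_iff]
      intro v hv
      exact congrArg Subtype.val (mem_centralizer_iff.1 (hq.2 a ha) ⟨v, hVH hv⟩ (mem_subgroupOf.2 hv))⟩
  have e1 : (P.map H.subtype ⊓ centralizer (V : Set G)).relIndex (P.map H.subtype) =
      (P ⊓ centralizer ((V.subgroupOf H : Subgroup H) : Set H)).relIndex P := by
    rw [← H62.map_inf_cent hVH (map_subtype_le P), hPeq]
    exact Subgroup.relIndex_map_map_of_injective _ _ H.subtype_injective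
  have e2 : (V ⊓ centralizer ((P.map H.subtype : Subgroup G) : Set G)).relIndex V =
      (V.subgroupOf H ⊓ centralizer (P : Set H)).relIndex (V.subgroupOf H) := by
    rw [← H62.map_inf_cent (map_subtype_le P) hVH, hPeq]
    have h3 : (V.subgroupOf H).map H.subtype = V := by
      rw [Subgroup.subgroupOf_map_subtype, inf_eq_left.2 hVH]
    have h4 := Subgroup.relIndex_map_map_of_injective (V.subgroupOf H ⊓ centralizer (P : Set H))
      (V.subgroupOf H) H.subtype_injective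
    rw [h3] at h4
    exact h4
  rw [← e1, ← e2]
  exact h1

end

end Cfsg.Agent.H33.GF
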