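import Cfsg.Agent.H33.GF7
import Cfsg.Agent.H33.Frattini
import Cfsg.Prelude.Def_LocalEven
import Cfsg.Prelude.Def_Local

set_option autoImplicit false
set_option linter.unusedVariables false
set_option linter.unusedSectionVars false
set_option linter.style.haveILetI false
set_option linter.deprecated false

/-!
Composition factors.
-/

namespace Cfsg.Agent.H33.GF

open Subgroup Cfsg
open H33 (cj mem_cj conj_mem_cj cj_mul cj_mono IsSyl mem_norm_iff)
open H34 (fixedBy mem_fixedBy fixedBy_anti maxEA)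
open H62 (EA EA_iff Quad ncl o2 omZ cj_le_ncl le_ncl ncl_le ncl_le_of_norm norm_ncl EA_ncl norm_o2 o2_le isPGroup_o2 le_o2)

universe u

def FT : Prop := ∀ (X : Type u) [Group X] [Finite X], Odd (Nat.card X) → Group.IsSolvable X

/-- all nonabelian simple quotients of subnormal subgroups are of the given type -/
def KC (X : Type u) [Group X] : Prop :=
  ∀ (H : Subgroup X), H.IsSubnormal → ∀ (S : Type u) [Group S] (f : H →* S), Function.Surjective f →
    IsSimpleGroup S → ¬ (∀ a b : S, a * b = b * a) → IsSuzukiOrPSL2OddPowerThree S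

theorem pk_iso {X Y : Type u} [Group X] [Group Y] (e : X ≃* Y) (h : IsSuzukiOrPSL2OddPowerThree X) :
    IsSuzukiOrPSL2OddPowerThree Y := by
  rcases h with ⟨F, i1, i2, m, h1, h2, ⟨f⟩⟩ | ⟨F, i1, i2, n, h1, ⟨f⟩⟩
  · exact Or.inl ⟨F, i1, i2, m, h1, h2, ⟨e.symm.trans f⟩⟩
  · exact Or.inr ⟨F, i1, i2, n, h1, ⟨e.symm.trans f⟩⟩

theorem kc_of {X : Type u} [Group X] (h : IsCompositionKGroupWith IsSuzukiOrPSL2OddPowerThree X) : KC X := by
  intro H hH S _ f hf hS hna
  set e := QuotientGroup.quotientKerEquivOfSurjective f hf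
  haveI : IsSimpleGroup (H ⧸ f.ker) := (MulEquiv.isSimpleGroup_congr e).2 hS
  refine pk_iso e (h H hH f.ker this ?_)
  intro hc
  apply hna
  intro a b
  obtain ⟨a', rfl⟩ := e.surjective a
  obtain ⟨b', rfl⟩ := e.surjective b
  rw [← map_mul, ← map_mul, (isMulCommutative_iff.1 hc) a' b']

theorem KC.surj {X Y : Type u} [Group X] [Group Y] (h : KC X) (f : X →* Y) (hf : Function.Surjective f) : KC Y := by
  intro H hH S _ g hg hS hna
  exact h (H.comap f) (hH.comap f) S (g.comp (f.subgroupComap H))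
    (hg.comp (f.subgroupComap_surjective_of_surjective H hf)) hS hna

theorem KC.iso {X Y : Type u} [Group X] [Group Y] (h : KC X) (e : X ≃* Y) : KC Y := h.surj e.toMonoidHom e.surjective

theorem KC.sub {X : Type u} [Group X] (h : KC X) {K : Subgroup X} (hK : K.IsSubnormal) : KC K := by
  intro H hH S _ g hg hS hna
  refine h (H.map K.subtype) (hH.trans' hK) S
    (g.comp (H.equivMapOfInjective K.subtype K.subtype_injective).symm.toMonoidHom) (hg.comp (MulEquiv.surjective _)) hS hna

theorem KC.simple {X : Type u} [Group X] (h : KC X) {L : Subgroup X} (hL : L.IsSubnormal) (hs : IsSimpleGroup L)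
    (hna : ¬ (∀ a b : L, a * b = b * a)) : IsSuzukiOrPSL2OddPowerThree L :=
  h L hL L (MonoidHom.id L) Function.surjective_id hs hna

theorem KC.ext {X Y : Type u} [Group X] [Group Y] (f : X →* Y) (hf : Function.Surjective f) (hk : KC f.ker) (hY : KC Y) :
    KC X := by
  intro H hH S _ g hg hS hna
  set M := (f.ker.subgroupOf H).map g with hM
  haveI hN : (f.ker.subgroupOf H).Normal := inferInstance
  have hMn : M.Normal := hN.map g hg
  rcases hMn.eq_bot_or_eq_top with h | h
  · -- factors through the image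
    set f' := f.subgroupMap H with hf'
    have hf's : Function.Surjective f' := f.subgroupMap_surjective H
    have hle : f'.ker ≤ g.ker := by
      intro x hx
      have h1 : x ∈ f.ker.subgroupOf H := by
        have h2 : f' x = 1 := hx
        exact congrArg Subtype.val h2
      have h3 : g x ∈ M := ⟨x, h1, rfl⟩
      rw [h, mem_bot] at h3
      exact h3
    set g' := f'.liftOfSurjective hf's ⟨g, hle⟩ with hg'
    have hcomp : ∀ x, g' (f' x) = g x := by
      intro x
      exact f'.liftOfRightInverse_comp_apply _ _ ⟨g, hle⟩ x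
    have hg's : Function.Surjective g' := by
      intro s
      obtain ⟨x, rfl⟩ := hg s
      exact ⟨f' x, hcomp x⟩
    exact hY (H.map f) (hH.map hf) S g' hg's hS hna
  · refine hk (H.subgroupOf f.ker) hH.subgroupOf S
      { toFun := fun x => g ⟨((x : f.ker) : X), x.2⟩
        map_one' := map_one g
        map_mul' := fun x y => map_mul g ⟨((x : f.ker) : X), x.2⟩ ⟨((y : f.ker) : X), y.2⟩ } ?_ hS hna
    intro s
    have h1 : s ∈ M := h ▸ mem_top s
    obtain ⟨x, hx, rfl⟩ := h1
    exact ⟨⟨⟨(x : X), hx⟩, x.2⟩, rfl⟩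

theorem KC.of_solvable {X : Type u} [Group X] (h : Group.IsSolvable X) : KC X := by
  intro H hH S _ f hf hS hna
  exfalso
  apply hna
  haveI := h
  haveI : Group.IsSolvable S := Group.isSolvable_of_surjective hf
  exact IsSimpleGroup.comm_iff_isSolvable.2 this

/-- the version for subgroups -/
theorem KC.normal {G : Type u} [Group G] {H K : Subgroup G} (h : KC H) (hKH : K ≤ H) (hn : H ≤ normalizer (K : Set G)) :
    KC K := by
  have h1 : (K.subgroupOf H).Normal := H62.normal_subgroupOf hn
  exact (h.sub h1.isSubnormal).iso (Subgroup.subgroupOfEquivOfLe hKH)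

section

variable {G : Type u} [Group G] [Finite G]

theorem solv_of_sylow_normal (hFT : FT.{u}) {P N : Subgroup G} (hP : IsSyl 2 P N) (hn : N ≤ normalizer (P : Set G)) :
    Group.IsSolvable N := by
  haveI : Fact (Nat.Prime 2) := ⟨Nat.prime_two⟩
  haveI h1 : (P.subgroupOf N).Normal := H62.normal_subgroupOf hn
  have h2 : Group.IsSolvable (P.subgroupOf N) := by
    have h3 : IsPGroup 2 (P.subgroupOf N) := hP.2.1.comap_subtype
    haveI := h3.isNilpotent
    infer_instance
  have h4 : Group.IsSolvable (N ⧸ P.subgroupOf N) := by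
    apply hFT
    rw [← Nat.not_even_iff_odd, even_iff_two_dvd]
    exact hP.2.2
  exact Group.isSolvable_of_ker_le_range (P.subgroupOf N).subtype (QuotientGroup.mk' (P.subgroupOf N))
    (by rw [QuotientGroup.ker_mk', Subgroup.range_subtype])

/-- Frattini argument -/
theorem frattini' {T H K : Subgroup G} (hT : IsSyl 2 T H) (hKH : K ≤ H) (hn : H ≤ normalizer (K : Set G)) {h : G}
    (hh : h ∈ H) : ∃ k ∈ K, ∃ n ∈ H ⊓ normalizer ((T ⊓ K : Subgroup G) : Set G), h = k * n := by
  haveI : Fact (Nat.Prime 2) := ⟨Nat.prime_two⟩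
  obtain ⟨k, hk, hkn⟩ := (hT.inf_normal hKH hn).frattini (hn hh)
  exact ⟨k⁻¹, K.inv_mem hk, k * h, ⟨H.mul_mem (hKH hk) hh, hkn⟩, by group⟩

/-- the hypotheses for local subgroups -/
structure LocK (T H : Subgroup G) : Prop where
  syl : IsSyl 2 T H
  kc : KC H
  free : ¬ Involves (Equiv.Perm (Fin 3)) H
  c2 : H ⊓ centralizer (o2 H : Set G) ≤ o2 H

theorem c2_sub {T H K : Subgroup G} (hs : IsSyl 2 T H) (hc : H ⊓ centralizer (o2 H : Set G) ≤ o2 H) (hTK : T ≤ K)
    (hKH : K ≤ H) : K ⊓ centralizer (o2 K : Set G) ≤ o2 K := by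
  have h1 : o2 H ≤ o2 K := le_o2 ((H62.o2_le_syl hs).trans hTK) (isPGroup_o2 H) (hKH.trans (norm_o2 H))
  rintro x ⟨hx, hxc⟩
  exact h1 (hc ⟨hKH hx, centralizer_le h1 hxc⟩)

theorem LocK.normalizer (hFT : FT.{u}) {T H K : Subgroup G} (h : LocK T H) (hKH : K ≤ H)
    (hn : H ≤ normalizer (K : Set G)) : LocK T (H ⊓ normalizer ((T ⊓ K : Subgroup G) : Set G)) := by
  haveI : Fact (Nat.Prime 2) := ⟨Nat.prime_two⟩
  set N := H ⊓ Subgroup.normalizer ((T ⊓ K : Subgroup G) : Set G) with hN
  have hTH := h.syl.1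
  have hTN : T ≤ N := by
    intro t ht
    exact ⟨hTH ht, H33.norm_inf (le_normalizer ht) (hn (hTH ht))⟩
  have hNH : N ≤ H := inf_le_left
  refine ⟨h.syl.mono hTN hNH, ?_, ?_, c2_sub h.syl h.c2 hTN hNH⟩
  · haveI hKn : (K.subgroupOf H).Normal := H62.normal_subgroupOf hn
    set f : N →* H ⧸ K.subgroupOf H := (QuotientGroup.mk' _).comp (Subgroup.inclusion hNH) with hf
    have hfs : Function.Surjective f := by
      intro y
      obtain ⟨⟨y, hy⟩, rfl⟩ := QuotientGroup.mk_surjective y
      obtain ⟨k, hk, n, hn', hkn⟩ := frattini' h.syl hKH hn hy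
      refine ⟨⟨n, hn'⟩, ?_⟩
      rw [hf, MonoidHom.comp_apply, QuotientGroup.mk'_apply, QuotientGroup.eq, mem_subgroupOf]
      change n⁻¹ * y ∈ K
      rw [hkn]
      have h1 : n⁻¹ * (k * n) = n⁻¹ * k * n := by group
      rw [h1]
      exact (mem_normalizer_iff''.1 (hn (hNH hn')) k).1 hk
    have hfk : ∀ x : N, x ∈ f.ker ↔ (x : G) ∈ K := by
      intro x
      rw [MonoidHom.mem_ker, hf, MonoidHom.comp_apply, QuotientGroup.mk'_apply, QuotientGroup.eq_one_iff, mem_subgroupOf]
      rfl
    refine KC.ext f hfs (KC.of_solvable ?_) (h.kc.surj (QuotientGroup.mk' _) (QuotientGroup.mk'_surjective _))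
    have hs : Group.IsSolvable (N ⊓ K : Subgroup G) := by
      apply solv_of_sylow_normal hFT (P := T ⊓ K)
      · have h1 := (h.syl.inf_normal hKH hn)
        exact h1.mono (le_inf (inf_le_left.trans hTN) inf_le_right) inf_le_right
      · exact inf_le_left.trans inf_le_right
    let g : f.ker →* (N ⊓ K : Subgroup G) :=
      { toFun := fun x => ⟨((x : N) : G), (x : N).2, (hfk x).1 x.2⟩
        map_one' := rfl
        map_mul' := fun x y => rfl }
    have hg : Function.Injective g := by
      intro x y hxy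
      have h2 : ((g x : (N ⊓ K : Subgroup G)) : G) = (g y : (N ⊓ K : Subgroup G)) := by rw [hxy]
      exact Subtype.ext (Subtype.ext h2)
    exact Group.isSolvable_of_isSolvable_injective hg
  · intro hi
    exact h.free (H46.involves_of_injective hi (Subgroup.inclusion hNH) (Subgroup.inclusion_injective hNH))

end

end Cfsg.Agent.H33.GF
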