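import Cfsg.Agent.H33.GF8

set_option autoImplicit false
set_option linter.unusedVariables false
set_option linter.unusedSectionVars false
set_option linter.style.haveILetI false
set_option linter.deprecated false

/-!
Elements attached to an elementary abelian 2-group acting on conjugates of a simple subgroup.
-/

namespace Cfsg.Agent.H33.GF

open Subgroup Cfsg
open H33 (cj mem_cj conj_mem_cj cj_mul cj_mono IsSyl mem_norm_iff)
open H34 (fixedBy mem_fixedBy fixedBy_anti maxEA)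
open H62 (EA EA_iff Quad ncl o2 omZ cj_le_ncl le_ncl ncl_le ncl_le_of_norm norm_ncl EA_ncl norm_o2 o2_le isPGroup_o2 le_o2)

universe u

section

variable {X : Type u} [Group X]

theorem comm_conj {u v g : X} (h : Commute u v) : Commute (g * u * g⁻¹) (g * v * g⁻¹) := by
  change _ = _
  have h1 : g * u * g⁻¹ * (g * v * g⁻¹) = g * (u * v) * g⁻¹ := by group
  rw [h1, h.eq]; group

theorem comm_conj' {u v g h : X} (hc : Commute u (g⁻¹ * h * v * (g⁻¹ * h)⁻¹)) : Commute (g * u * g⁻¹) (h * v * h⁻¹) := by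
  have h1 := comm_conj (g := g) hc
  have h2 : g * (g⁻¹ * h * v * (g⁻¹ * h)⁻¹) * g⁻¹ = h * v * h⁻¹ := by group
  rwa [h2] at h1

variable [Finite X]

theorem exists_delta {A N L A₁ : Subgroup X} (hA : EA A) (hNA : N ≤ A)
    (hcomm : ∀ g ∈ A, g ∉ N → ∀ x y : L, Commute (x : X) (g * y * g⁻¹)) (hA₁ : A₁ ≤ A) (hNA₁ : N ≤ A₁) :
    ∃ (D : Subgroup X) (Δ : L →* X), D ≤ A₁ ∧ N ⊔ D = A₁ ∧
      (∀ x s : L, Δ x * s * (Δ x)⁻¹ = x * s * (x : X)⁻¹) ∧
      (∀ d ∈ D, ∀ x, Commute d (Δ x)) ∧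
      (∀ n ∈ N, ∀ x y : L, (y : X) = n * x * n⁻¹ → n * Δ x * n⁻¹ = Δ y) ∧
      (∀ g ∈ A, g ∉ A₁ → ∀ x y : L, Commute (Δ x) (g * Δ y * g⁻¹)) ∧
      (∀ g ∈ A, g ∉ A₁ → ∀ s y : L, Commute (s : X) (g * Δ y * g⁻¹)) := by
  classical
  let Pr : Subgroup X → Prop := fun D => D ≤ A₁ ∧ ∃ Δ : L →* X,
      (∀ x s : L, Δ x * s * (Δ x)⁻¹ = x * s * (x : X)⁻¹) ∧
      (∀ d ∈ D, ∀ x, Commute d (Δ x)) ∧
      (∀ n ∈ N, ∀ x y : L, (y : X) = n * x * n⁻¹ → n * Δ x * n⁻¹ = Δ y) ∧
      (∀ g ∈ A, g ∉ N ⊔ D → ∀ x y : L, Commute (Δ x) (g * Δ y * g⁻¹)) ∧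
      (∀ g ∈ A, g ∉ N ⊔ D → ∀ s y : L, Commute (s : X) (g * Δ y * g⁻¹))
  have h0 : Pr ⊥ := by
    refine ⟨bot_le, L.subtype, fun x s => rfl, ?_, ?_, ?_, ?_⟩
    · intro d hd x
      rw [mem_bot.1 hd]; exact Commute.one_left _
    · intro n _ x y h
      exact h.symm
    · intro g hg hgN x y
      rw [sup_bot_eq] at hgN
      exact hcomm g hg hgN x y
    · intro g hg hgN x y
      rw [sup_bot_eq] at hgN
      exact hcomm g hg hgN x y
  have hfin : {D : Subgroup X | Pr D}.Finite := Set.toFinite _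
  obtain ⟨D, ⟨hDA, Δ, h1, h2, h3, h4, h5⟩, hmax⟩ := Set.exists_max_image _ (fun D : Subgroup X => Nat.card D) hfin ⟨⊥, h0⟩
  have hND : N ⊔ D = A₁ := by
    apply le_antisymm (sup_le hNA₁ hDA)
    by_contra hnot
    obtain ⟨a, haA₁, haN⟩ := Set.not_subset.1 hnot
    have haA : a ∈ A := hA₁ haA₁
    have ha2 : a * a = 1 := hA.2 a haA
    have hai : a⁻¹ = a := inv_eq_of_mul_eq_one_left ha2
    have hDAA : D ≤ A := hDA.trans hA₁
    have ca : ∀ x y : L, Commute (Δ x) (a * Δ y * a⁻¹) := h4 a haA haN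
    let Δ' : L →* X :=
      { toFun := fun x => Δ x * (a * Δ x * a⁻¹)
        map_one' := by rw [map_one]; group
        map_mul' := by
          intro x y
          rw [map_mul]
          have e1 : Δ x * Δ y * (a * (Δ x * Δ y) * a⁻¹) = Δ x * (Δ y * (a * Δ x * a⁻¹)) * (a * Δ y * a⁻¹) := by group
          rw [e1, (ca y x).eq]; group }
    have hΔ' : ∀ x, Δ' x = Δ x * (a * Δ x * a⁻¹) := fun x => rfl
    have hcardlt : Nat.card D < Nat.card (D ⊔ zpowers a : Subgroup X) := by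
      by_contra hle
      push Not at hle
      have h6 := Subgroup.eq_of_le_of_card_ge (le_sup_left : D ≤ D ⊔ zpowers a) hle
      apply haN
      have h7 : a ∈ D ⊔ zpowers a := mem_sup_right (mem_zpowers a)
      rw [← h6] at h7
      exact mem_sup_right h7
    have hD' : Pr (D ⊔ zpowers a) := by
      have hnot1 : ∀ g, g ∉ N ⊔ (D ⊔ zpowers a) → g ∉ N ⊔ D := by
        intro g hg h
        exact hg (sup_le_sup_left le_sup_left N h)
      have hma : a ∈ N ⊔ (D ⊔ zpowers a) := mem_sup_right (mem_sup_right (mem_zpowers a))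
      have hnot2 : ∀ g, g ∉ N ⊔ (D ⊔ zpowers a) → g * a ∉ N ⊔ (D ⊔ zpowers a) := by
        intro g hg h
        apply hg
        have : g = (g * a) * a⁻¹ := by group
        rw [this]
        exact mul_mem h (inv_mem hma)
      have hnot3 : ∀ g, g ∉ N ⊔ (D ⊔ zpowers a) → a⁻¹ * g ∉ N ⊔ (D ⊔ zpowers a) := by
        intro g hg h
        apply hg
        have : g = a * (a⁻¹ * g) := by group
        rw [this]
        exact mul_mem hma h
      have key : ∀ (u : X) (g : X) (hg : g ∈ A) (hgn : g ∉ N ⊔ (D ⊔ zpowers a)) (y : L),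
          (∀ g ∈ A, g ∉ N ⊔ D → ∀ y : L, Commute u (g * Δ y * g⁻¹)) → Commute u (g * Δ' y * g⁻¹) := by
        intro u g hg hgn y hu
        have e1 : g * Δ' y * g⁻¹ = (g * Δ y * g⁻¹) * ((g * a) * Δ y * (g * a)⁻¹) := by rw [hΔ']; group
        rw [e1]
        exact (hu g hg (hnot1 g hgn) y).mul_right (hu (g * a) (mul_mem hg haA) (hnot1 _ (hnot2 g hgn)) y)
      refine ⟨sup_le hDA (by rwa [zpowers_le]), Δ', ?_, ?_, ?_, ?_, ?_⟩
      · intro x s
        have e1 : Δ' x * s * (Δ' x)⁻¹ = Δ x * ((a * Δ x * a⁻¹) * s * (a * Δ x * a⁻¹)⁻¹) * (Δ x)⁻¹ := by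
          rw [hΔ']; group
        rw [e1, ← (h5 a haA haN s x).eq, mul_inv_cancel_right]
        exact h1 x s
      · intro d hd x
        have h6 : D ⊔ zpowers a ≤ centralizer {Δ' x} := by
          refine sup_le ?_ ?_
          · intro d hd
            rw [mem_centralizer_singleton_iff]
            have c1 := h2 d hd x
            have c2 : Commute d (a * Δ x * a⁻¹) := by
              have c3 : Commute d a := hA.1 d (hDAA hd) a haA
              exact (c3.mul_right c1).mul_right c3.inv_right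
            exact (c1.mul_right c2).eq
          · rw [zpowers_le, mem_centralizer_singleton_iff, hΔ']
            have c1 := (ca x x).eq
            calc a * (Δ x * (a * Δ x * a⁻¹)) = (a * Δ x * a⁻¹) * (a * a) * Δ x * a⁻¹ := by group
              _ = (a * Δ x * a⁻¹) * Δ x * a⁻¹ := by rw [ha2, mul_one]
              _ = Δ x * (a * Δ x * a⁻¹) * a⁻¹ := by rw [c1]
              _ = Δ x * (a * Δ x * a⁻¹) * a := by rw [hai]
        exact mem_centralizer_singleton_iff.1 (h6 hd)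
      · intro n hn x y hxy
        have c1 := hA.1 n (hNA hn) a haA
        have c2 : n * Δ' x * n⁻¹ = (n * Δ x * n⁻¹) * (a * (n * Δ x * n⁻¹) * a⁻¹) := by
          rw [hΔ']
          calc n * (Δ x * (a * Δ x * a⁻¹)) * n⁻¹ = (n * Δ x * n⁻¹) * ((n * a) * Δ x * (n * a)⁻¹) := by group
            _ = (n * Δ x * n⁻¹) * ((a * n) * Δ x * (a * n)⁻¹) := by rw [c1]
            _ = _ := by group
        rw [c2, h3 n hn x y hxy]; rfl
      · intro g hg hgn x y
        have c1 := key (Δ x) g hg hgn y (fun g hg hgn y => h4 g hg hgn x y)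
        have c2 : Commute (a * Δ x * a⁻¹) (g * Δ' y * g⁻¹) :=
          comm_conj' (key (Δ x) (a⁻¹ * g) (mul_mem (inv_mem haA) hg) (hnot3 g hgn) y (fun g hg hgn y => h4 g hg hgn x y))
        exact c1.mul_left c2
      · intro g hg hgn s y
        exact key (s : X) g hg hgn y (fun g hg hgn y => h5 g hg hgn s y)
    have := hmax _ hD'
    omega
  refine ⟨D, Δ, hDA, hND, h1, h2, h3, ?_, ?_⟩
  · intro g hg hgn
    exact h4 g hg (by rwa [hND])
  · intro g hg hgn
    exact h5 g hg (by rwa [hND])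

theorem relIndex_hyper {A N : Subgroup X} (hA : EA A) (hNA : N ≤ A) (hne : N ≠ A) :
    ∃ A₁, N ≤ A₁ ∧ A₁ ≤ A ∧ ∃ a ∈ A, a ∉ A₁ ∧ A₁.relIndex A ≤ 2 := by
  classical
  have hfin : {B : Subgroup X | N ≤ B ∧ B ≤ A ∧ B ≠ A}.Finite := Set.toFinite _
  obtain ⟨A₁, ⟨h1, h2, h3⟩, hmax⟩ := Set.exists_max_image _ (fun D : Subgroup X => Nat.card D) hfin ⟨N, le_rfl, hNA, hne⟩
  obtain ⟨a, haA, ha⟩ : ∃ a ∈ A, a ∉ A₁ := by
    by_contra hcon
    push Not at hcon
    exact h3 (le_antisymm h2 hcon)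
  refine ⟨A₁, h1, h2, a, haA, ha, H62.relIndex_le_two hA haA h2 ?_⟩
  by_contra hne'
  have h4 := hmax (A₁ ⊔ zpowers a) ⟨h1.trans le_sup_left, sup_le h2 (by rwa [zpowers_le]), hne'⟩
  have h5 := Subgroup.eq_of_le_of_card_ge (le_sup_left : A₁ ≤ A₁ ⊔ zpowers a) h4
  apply ha
  rw [h5]
  exact mem_sup_right (mem_zpowers a)

theorem center_triv {L : Subgroup X} (hs : IsSimpleGroup L) (hna : ¬ ∀ a b : L, a * b = b * a) {x : L}
    (h : ∀ s : L, x * s * x⁻¹ = s) : x = 1 := by
  have h1 : x ∈ Subgroup.center L := by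
    rw [Subgroup.mem_center_iff]
    intro s
    have := h s
    rw [mul_inv_eq_iff_eq_mul] at this
    exact this.symm
  have h2 : (Subgroup.center L).Normal := inferInstance
  rcases h2.eq_bot_or_eq_top with h3 | h3
  · rw [h3, mem_bot] at h1; exact h1
  · exfalso
    apply hna
    intro a b
    have h4 : a ∈ Subgroup.center L := h3 ▸ mem_top a
    exact (Subgroup.mem_center_iff.1 h4 b).symm

theorem relIndex_map_comap {L : Type*} [Group L] {N : Subgroup X} (θ : N →* L) (B₀ : Subgroup L) :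
    ((B₀.comap θ).map N.subtype).relIndex N = B₀.relIndex θ.range := by
  have h1 : ((B₀.comap θ).map N.subtype).subgroupOf N = B₀.comap θ := by
    rw [Subgroup.subgroupOf]
    exact comap_map_eq_self_of_injective N.subtype_injective _
  unfold Subgroup.relIndex
  rw [h1, ← Subgroup.relIndex_top_right, Subgroup.relIndex_comap, ← MonoidHom.range_eq_map]
  rfl

set_option maxHeartbeats 1000000 in
theorem comp_chain (hFT : FT.{u}) {A L S : Subgroup X} (hA : EA A) (hfree : ¬ Involves (Equiv.Perm (Fin 3)) X)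
    (hs : IsSimpleGroup L) (hna : ¬ ∀ a b : L, a * b = b * a) (hgood : Good L) (hinn : InnerTwo.{u, u} L)
    (hcomm : ∀ g ∈ A, g ∉ normalizer (L : Set X) → ∀ x y : L, Commute (x : X) (g * y * g⁻¹))
    (hS : IsSyl 2 S L) (hSA : ∀ a ∈ A, a ∈ normalizer (L : Set X) → a ∈ normalizer (S : Set X))
    (hAL : ¬ A ≤ centralizer (L : Set X)) :
    ∃ B a x, Chain A B a x ∧ ∀ M : Subgroup X, L ⊓ normalizer (S : Set X) ≤ M → x ∈ M → L ≤ M := by
  classical
  haveI : Fact (Nat.Prime 2) := ⟨Nat.prime_two⟩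
  set N := A ⊓ normalizer (L : Set X) with hN
  have hNA : N ≤ A := inf_le_left
  set T := hS.toSylow with hT
  have hTc : (T : Subgroup L) = S.subgroupOf L := rfl
  have hcomm' : ∀ g ∈ A, g ∉ N → ∀ x y : L, Commute (x : X) (g * y * g⁻¹) := by
    intro g hg hgN
    exact hcomm g hg (fun h => hgN ⟨hg, h⟩)
  -- the homomorphism θ
  have hex : ∀ n : N, ∃ l : L, ∀ x : L, (n : X) * x * (n : X)⁻¹ = l * x * (l : X)⁻¹ := by
    intro n
    obtain ⟨l, hl, h⟩ := hinn (normalizer (L : Set X)) (L.subgroupOf (normalizer (L : Set X)))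
      Subgroup.normal_in_normalizer ⟨Subgroup.subgroupOfEquivOfLe le_normalizer⟩
      (fun hi => hfree (H46.involves_of_subgroup hi)) ⟨n, n.2.2⟩
      ⟨1, Subtype.ext (by rw [pow_one, sq]; exact hA.2 n n.2.1)⟩
    refine ⟨⟨l, hl⟩, fun x => ?_⟩
    have h1 := h ⟨x, le_normalizer x.2⟩ x.2
    exact congrArg Subtype.val h1
  have huniq : ∀ l l' : L, (∀ x : L, (l : X) * x * (l : X)⁻¹ = l' * x * (l' : X)⁻¹) → l = l' := by
    intro l l' h
    have h1 : l'⁻¹ * l = 1 := by
      apply center_triv hs hna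
      intro s
      apply Subtype.ext
      have h2 := h s
      calc (l' : X)⁻¹ * l * s * ((l' : X)⁻¹ * l)⁻¹ = (l' : X)⁻¹ * (l * s * (l : X)⁻¹) * l' := by group
        _ = s := by rw [h2]; group
    exact (inv_mul_eq_one.1 h1).symm
  choose θ0 hθ0 using hex
  obtain ⟨θ, hθ⟩ : ∃ θ : N →* L, ∀ (n : N) (x : L), (n : X) * x * (n : X)⁻¹ = θ n * x * (θ n : X)⁻¹ := ⟨MonoidHom.mk' θ0 (by
    intro a b
    apply huniq
    intro x
    have h1 := hθ0 (a * b) x
    have h2 : θ0 b * x * (θ0 b : L)⁻¹ ∈ (⊤ : Subgroup L) := mem_top _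
    have h3 := hθ0 a (θ0 b * x * (θ0 b)⁻¹)
    have h4 := hθ0 b x
    rw [← h1]
    change (a : X) * b * x * ((a : X) * b)⁻¹ = (θ0 a : X) * θ0 b * x * ((θ0 a : X) * θ0 b)⁻¹
    have h5 : (θ0 a : X) * θ0 b * x * ((θ0 a : X) * θ0 b)⁻¹ = (θ0 a : X) * ((θ0 b : X) * x * (θ0 b : X)⁻¹) * (θ0 a : X)⁻¹ := by group
    have h6 : (((θ0 b * x * (θ0 b)⁻¹ : L)) : X) = (θ0 b : X) * x * (θ0 b : X)⁻¹ := rfl
    rw [h6, ← h4] at h3
    rw [h5, ← h4, ← h3]; group), hθ0⟩
  set A₀ := θ.range with hA₀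
  have hA0c : ∀ a ∈ A₀, ∀ b ∈ A₀, a * b = b * a := by
    rintro _ ⟨a, rfl⟩ _ ⟨b, rfl⟩
    rw [← map_mul, ← map_mul]
    congr 1
    exact Subtype.ext (hA.1 a a.2.1 b b.2.1)
  have hA02 : ∀ a ∈ A₀, a * a = 1 := by
    rintro _ ⟨a, rfl⟩
    rw [← map_mul, ← map_one θ]
    congr 1
    exact Subtype.ext (hA.2 a a.2.1)
  have hA0T : A₀ ≤ (T : Subgroup L) := by
    rintro _ ⟨n, rfl⟩
    have h1 : (θ n : X) ∈ normalizer (S : Set X) := by
      apply H33.mem_norm_of_le
      rw [H33.cj_le_iff]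
      intro s hs'
      rw [← hθ n ⟨s, hS.1 hs'⟩]
      exact (mem_normalizer_iff.1 (hSA n n.2.1 n.2.2) s).1 hs'
    have h2 : IsPGroup 2 (zpowers (θ n : X) : Subgroup X) := by
      refine IsPGroup.of_card (n := (Nat.log 2 (Nat.card (zpowers (θ n : X))))) ?_
      rw [Nat.card_zpowers]
      have h3 : orderOf (θ n : X) ∣ 2 ^ 1 := by
        apply orderOf_dvd_of_pow_eq_one
        rw [pow_one, sq]
        exact congrArg Subtype.val (hA02 (θ n) ⟨n, rfl⟩)
      obtain ⟨k, -, hk⟩ := (Nat.dvd_prime_pow Nat.prime_two).1 h3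
      rw [hk, Nat.log_pow (by norm_num)]
    have h3 : IsPGroup 2 (zpowers (θ n : X) ⊔ S : Subgroup X) :=
      IsPGroup.to_sup_of_normal_right' h2 hS.2.1 (by rwa [zpowers_le])
    have h4 := hS.eq_of_le (le_sup_right : S ≤ zpowers (θ n : X) ⊔ S) (sup_le (by rw [zpowers_le]; exact (θ n).2) hS.1) h3
    have h5 : (θ n : X) ∈ S := by
      rw [← h4]; exact mem_sup_left (mem_zpowers _)
    exact h5
  -- transfer of the generation property
  have hgen : ∀ (x : X) (x₁ : L), (∀ s : L, x * s * x⁻¹ = x₁ * s * (x₁ : X)⁻¹) →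
      (∀ M : Subgroup L, normalizer ((T : Subgroup L) : Set L) ≤ M → (∀ s ∈ (T : Subgroup L), x₁ * s * x₁⁻¹ ∈ M) → M = ⊤) →
      ∀ M : Subgroup X, L ⊓ normalizer (S : Set X) ≤ M → x ∈ M → L ≤ M := by
    intro x x₁ hx hM M hSM hxM
    have h1 := hM (M.subgroupOf L) (by
        intro l hl
        refine hSM ⟨l.2, ?_⟩
        apply H33.mem_norm_of_le
        rw [H33.cj_le_iff]
        intro s hs'
        exact (mem_normalizer_iff.1 hl ⟨s, hS.1 hs'⟩).1 hs')
      (by
        intro s hs'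
        change (x₁ : X) * s * (x₁ : X)⁻¹ ∈ M
        rw [← hx s]
        have h2 : (s : X) ∈ M := hSM ⟨s.2, le_normalizer hs'⟩
        exact mul_mem (mul_mem hxM h2) (inv_mem hxM))
    intro l hl
    have h2 : (⟨l, hl⟩ : L) ∈ M.subgroupOf L := h1 ▸ mem_top _
    exact h2
  by_cases hA0 : A₀ = ⊥
  · -- `N` centralizes `L`
    have hNL : ∀ n ∈ N, ∀ x : L, n * x * n⁻¹ = x := by
      intro n hn x
      have h1 : θ ⟨n, hn⟩ = 1 := by
        have : θ ⟨n, hn⟩ ∈ A₀ := ⟨_, rfl⟩
        rwa [hA0, mem_bot] at this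
      have h2 := hθ ⟨n, hn⟩ x
      rw [h1] at h2
      simpa using h2
    have hNne : N ≠ A := by
      intro h
      apply hAL
      intro a ha
      rw [← h] at ha
      rw [mem_centralizer_iff]
      intro x hx
      have h1 := hNL a ha ⟨x, hx⟩
      exact (mul_inv_eq_iff_eq_mul.1 h1).symm
    obtain ⟨A₁, hNA1, hA1A, a, haA, haA1, hA1i⟩ := relIndex_hyper hA hNA hNne
    obtain ⟨D, Δ, hDA, hND, d1, d2, d3, d4, d5⟩ := exists_delta hA hNA hcomm' hA1A hNA1
    -- an involution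
    have hTne : (T : Subgroup L) ≠ ⊥ := by
      intro h
      have h1 : Odd (Nat.card L) := by
        rw [← Nat.not_even_iff_odd, even_iff_two_dvd]
        intro h2
        have h3 := hS.2.2
        apply h3
        have h4 : S.relIndex L = (T : Subgroup L).index := rfl
        rw [h4, h, Subgroup.index_bot]
        exact h2
      haveI := hFT L h1
      exact hna (IsSimpleGroup.comm_iff_isSolvable.2 this)
    obtain ⟨t, htT, ht1, ht2⟩ : ∃ t ∈ (T : Subgroup L), t ≠ 1 ∧ t * t = 1 := by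
      obtain ⟨⟨t, ht⟩, ht1, ht2⟩ : ∃ t : (T : Subgroup L), t ≠ 1 ∧ t ^ 2 = 1 := by
        have h1 : 2 ∣ Nat.card (T : Subgroup L) := by
          obtain ⟨n, hn⟩ := IsPGroup.iff_card.1 T.isPGroup'
          have hn0 : n ≠ 0 := by
            rintro rfl
            rw [pow_zero] at hn
            exact hTne (Subgroup.card_eq_one.1 hn)
          rw [hn]; exact dvd_pow_self 2 hn0
        obtain ⟨t, ht⟩ := exists_prime_orderOf_dvd_card' 2 h1
        refine ⟨t, ?_, ?_⟩
        · rintro rfl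
          rw [orderOf_one] at ht
          omega
        · have h3 := pow_orderOf_eq_one t
          rwa [ht] at h3
      refine ⟨t, ht, fun h => ht1 (Subtype.ext h), ?_⟩
      have := congrArg Subtype.val ht2
      rw [← sq]; exact this
    have hzt : ∀ z ∈ zpowers t, z = 1 ∨ z = t := by
      rintro z ⟨k, rfl⟩
      have ht2' : t ^ (2 : ℤ) = 1 := by rw [zpow_ofNat, sq]; exact ht2
      rcases Int.even_or_odd' k with ⟨m, rfl | rfl⟩
      · left; change t ^ (2 * m) = 1; rw [zpow_mul, ht2', one_zpow]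
      · right; change t ^ (2 * m + 1) = t; rw [zpow_add, zpow_mul, ht2', one_zpow, one_mul, zpow_one]
    obtain ⟨B₀, hB0, a₀, ha0, x₁, hx1, hx1o, hinv, hcen, hbd, hM⟩ := hgood T (zpowers t) (by rwa [zpowers_le])
      (fun a ha b hb => by
        rcases hzt a ha with rfl | rfl <;> rcases hzt b hb with rfl | rfl <;> simp)
      (fun a ha => by
        rcases hzt a ha with rfl | rfl
        · rw [one_mul]
        · exact ht2)
      (by rw [ne_eq, zpowers_eq_bot]; exact ht1)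
    have hxx : ∀ x : L, x ≠ 1 → Odd (orderOf x) → x ≠ x⁻¹ := by
      intro x hx ho h
      apply H62.pow_two_pow_ne_one hx ho 1
      rw [pow_one, sq]
      nth_rewrite 1 [h]
      exact inv_mul_cancel x
    have ha0B : a₀ ∉ B₀ := by
      intro h
      have h1 := hcen a₀ h
      rw [h1, mul_inv_cancel_right] at hinv
      exact hxx x₁ hx1 hx1o hinv
    have hB0i : 2 ≤ B₀.relIndex (zpowers t) := by
      have h1 : B₀.relIndex (zpowers t) ≠ 0 := H62.relIndex_ne_zero' _ _
      have h2 : B₀.relIndex (zpowers t) ≠ 1 := fun h => ha0B (Subgroup.relIndex_eq_one.1 h ha0)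
      omega
    have h16 : ∀ r k : ℕ, r.Prime → r ∣ orderOf x₁ → 0 < k → r ∣ 2 ^ k - 1 → 2 ^ 4 < 4 * 2 ^ k := by
      intro r k hr hrx hk0 hk
      exact lt_of_le_of_lt (Nat.pow_le_pow_left hB0i 4) (hbd r k hr hrx hk0 hk)
    set y := Δ x₁ with hy
    have hcy : Commute y (a * y * a⁻¹) := d4 a haA haA1 x₁ x₁
    have ha2 := hA.2 a haA
    have hai : a⁻¹ = a := inv_eq_of_mul_eq_one_left ha2
    set x := y * (a * y * a⁻¹)⁻¹ with hx
    have hact : ∀ s : L, x * s * x⁻¹ = x₁ * s * (x₁ : X)⁻¹ := by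
      intro s
      have e1 : x * s * x⁻¹ = y * ((a * y * a⁻¹)⁻¹ * s * (a * y * a⁻¹)) * y⁻¹ := by rw [hx]; group
      have e2 : (a * y * a⁻¹)⁻¹ * s * (a * y * a⁻¹) = s := by
        have h7 := (d5 a haA haA1 s x₁).eq
        rw [← hy] at h7
        rw [mul_assoc, h7]; group
      rw [e1, e2]
      exact d1 x₁ s
    have hxm : x ^ orderOf x₁ = 1 := by
      have e1 : y ^ orderOf x₁ = 1 := by rw [hy, ← map_pow, pow_orderOf_eq_one, map_one]
      rw [hx, hcy.inv_right.mul_pow, e1, inv_pow, conj_pow, e1]; group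
    have hxo : orderOf x ∣ orderOf x₁ := orderOf_dvd_of_pow_eq_one hxm
    have hA1y : ∀ b ∈ A₁, Commute b y := by
      have h1 : A₁ ≤ centralizer {y} := by
        rw [← hND]
        refine sup_le ?_ ?_
        · intro n hn
          rw [mem_centralizer_singleton_iff]
          have h1 := d3 n hn x₁ x₁ (hNL n hn x₁).symm
          exact mul_inv_eq_iff_eq_mul.1 h1
        · intro d hd
          rw [mem_centralizer_singleton_iff]
          exact (d2 d hd x₁).eq
      intro b hb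
      exact mem_centralizer_singleton_iff.1 (h1 hb)
    refine ⟨A₁, a, x, ⟨?_, ?_, hA1A, haA, ?_, ?_, ?_⟩, hgen x x₁ hact hM⟩
    · intro h
      apply hx1
      apply center_triv hs hna
      intro s
      apply Subtype.ext
      have := hact s
      rw [h] at this
      change (x₁ : X) * s * (x₁ : X)⁻¹ = s
      rw [← this]; group
    · exact hx1o.of_dvd_nat hxo
    · rw [hx]
      calc a * (y * (a * y * a⁻¹)⁻¹) * a⁻¹ = (a * y * a⁻¹) * ((a * a) * y⁻¹ * (a * a)⁻¹) := by group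
        _ = (a * y * a⁻¹) * y⁻¹ := by rw [ha2]; group
        _ = (y * (a * y * a⁻¹)⁻¹)⁻¹ := by group
    · intro b hb
      have c1 := hA1y b hb
      have c3 : Commute b a := hA.1 b (hA1A hb) a haA
      have c2 : Commute b (a * y * a⁻¹) := (c3.mul_right c1).mul_right c3.inv_right
      exact (c1.mul_right c2.inv_right).eq
    · intro r k hr hrx hk0 hk
      exact lt_of_le_of_lt (Nat.pow_le_pow_left hA1i 4) (h16 r k hr (hrx.trans hxo) hk0 hk)
  · obtain ⟨B₀, hB0, a₀, ⟨a, rfl⟩, x₁, hx1, hx1o, hinv, hcen, hbd, hM⟩ := hgood T A₀ hA0T hA0c hA02 hA0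
    obtain ⟨D, Δ, hDA, hND, d1, d2, d3, d4, d5⟩ := exists_delta hA hNA hcomm' le_rfl hNA
    set BN : Subgroup X := (B₀.comap θ).map N.subtype with hBN
    have hBNN : BN ≤ N := Subgroup.map_subtype_le _
    set x := Δ x₁ with hx
    have hact : ∀ s : L, x * s * x⁻¹ = x₁ * s * (x₁ : X)⁻¹ := d1 x₁
    have hxo : orderOf x ∣ orderOf x₁ := orderOf_map_dvd Δ x₁
    have hnx : ∀ n : N, (n : X) * x * (n : X)⁻¹ = Δ (θ n * x₁ * (θ n)⁻¹) := by
      intro n
      exact d3 n n.2 x₁ _ (hθ n x₁).symm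
    refine ⟨BN ⊔ D, a, x, ⟨?_, hx1o.of_dvd_nat hxo, sup_le (hBNN.trans hNA) hDA, a.2.1, ?_, ?_, ?_⟩, hgen x x₁ hact hM⟩
    · intro h
      apply hx1
      apply center_triv hs hna
      intro s
      apply Subtype.ext
      have := hact s
      rw [h] at this
      change (x₁ : X) * s * (x₁ : X)⁻¹ = s
      rw [← this]; group
    · rw [hnx a, hinv, map_inv]
    · have h1 : BN ⊔ D ≤ centralizer {x} := by
        refine sup_le ?_ ?_
        · rintro _ ⟨n, hn, rfl⟩
          rw [mem_centralizer_singleton_iff]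
          have h2 := hnx n
          rw [hcen (θ n) hn, mul_inv_cancel_right] at h2
          exact mul_inv_eq_iff_eq_mul.1 h2
        · intro d hd
          rw [mem_centralizer_singleton_iff]
          exact (d2 d hd x₁).eq
      intro b hb
      exact mem_centralizer_singleton_iff.1 (h1 hb)
    · intro r k hr hrx hk0 hk
      refine lt_of_le_of_lt (Nat.pow_le_pow_left ?_ 4) (hbd r k hr (hrx.trans hxo) hk0 hk)
      have e1 : BN.relIndex N = B₀.relIndex A₀ := relIndex_map_comap θ B₀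
      have e2 : (BN ⊔ D).relIndex A ≤ BN.relIndex N := by
        have h1 : N ⊔ (BN ⊔ D) = A := by
          apply le_antisymm
          · exact sup_le hNA (sup_le (hBNN.trans hNA) hDA)
          · exact hND.symm.le.trans (sup_le le_sup_left (le_sup_right.trans le_sup_right))
        have h2 : N ≤ normalizer ((BN ⊔ D : Subgroup X) : Set X) := by
          intro n hn
          apply H33.mem_norm_of_le
          rw [H33.cj_le_iff]
          intro b hb
          rw [hA.1 n (hNA hn) b ((sup_le (hBNN.trans hNA) hDA) hb), mul_inv_cancel_right]; exact hb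
        have h3 : (BN ⊔ D).relIndex (N ⊔ (BN ⊔ D)) = (BN ⊔ D).relIndex N := Cop.relIndex_sup_eq h2
        rw [h1] at h3
        rw [h3]
        exact Subgroup.relIndex_le_of_le_left le_sup_left (H62.relIndex_ne_zero' _ _)
      rw [← e1]; exact e2

end

end Cfsg.Agent.H33.GF
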